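import Mathlib

/-!
A combinatorial lemma on "additive" matrices `M a b = x_a + y_b` with few nonzero entries.
-/

set_option autoImplicit false

namespace Cfsg.Agent.Lib.Helper6

theorem additive_matrix_few {A B : Type*} [Finite A] [Finite B] (M : A → B → ℂ)
    (hadd : ∀ a a' b b', M a b + M a' b' = M a b' + M a' b) (n : ℕ)
    (hA : n ≤ Nat.card A) (hB : n + 2 ≤ Nat.card B)
    (hfew : Nat.card {p : A × B // M p.1 p.2 ≠ 0} < 2 * n) :
    (∀ a b, M a b = 0) ∨ (∃ b₀ v, ∀ a b, (b = b₀ → M a b = v) ∧ (b ≠ b₀ → M a b = 0))
      ∨ (∃ a₀ v, ∀ a b, (a = a₀ → M a b = v) ∧ (a ≠ a₀ → M a b = 0)) := by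
  classical
  haveI : Fintype A := Fintype.ofFinite A
  haveI : Fintype B := Fintype.ofFinite B
  rw [Nat.card_eq_fintype_card] at hA hB
  have hN : Nat.card {p : A × B // M p.1 p.2 ≠ 0}
      = (Finset.univ.filter (fun p : A × B => M p.1 p.2 ≠ 0)).card := by
    rw [Nat.card_eq_fintype_card, Fintype.card_subtype]
  rw [hN] at hfew
  by_cases h1 : ∀ a a' b, M a b = M a' b
  · by_cases h0 : ∀ a b, M a b = 0
    · left; exact h0
    right; left
    push Not at h0
    obtain ⟨a₀, b₀, hne⟩ := h0
    refine ⟨b₀, M a₀ b₀, ?_⟩
    intro a b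
    refine ⟨fun hb => by rw [hb]; exact h1 a a₀ b₀, fun hb => ?_⟩
    by_contra hne'
    have hsub : (Finset.univ : Finset A) ×ˢ ({b, b₀} : Finset B)
        ⊆ Finset.univ.filter (fun p : A × B => M p.1 p.2 ≠ 0) := by
      intro p hp
      rw [Finset.mem_product, Finset.mem_insert, Finset.mem_singleton] at hp
      rw [Finset.mem_filter]
      refine ⟨Finset.mem_univ _, ?_⟩
      rcases hp.2 with h | h
      · rw [h, h1 p.1 a b]; exact hne'
      · rw [h, h1 p.1 a₀ b₀]; exact hne
    have hcard := Finset.card_le_card hsub
    rw [Finset.card_product, Finset.card_univ, Finset.card_pair hb] at hcard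
    omega
  · by_cases h2 : ∀ a b b', M a b = M a b'
    · by_cases h0 : ∀ a b, M a b = 0
      · left; exact h0
      right; right
      push Not at h0
      obtain ⟨a₀, b₀, hne⟩ := h0
      refine ⟨a₀, M a₀ b₀, ?_⟩
      intro a b
      refine ⟨fun ha => by rw [ha]; exact h2 a₀ b b₀, fun ha => ?_⟩
      by_contra hne'
      have hsub : ({a, a₀} : Finset A) ×ˢ (Finset.univ : Finset B)
          ⊆ Finset.univ.filter (fun p : A × B => M p.1 p.2 ≠ 0) := by
        intro p hp
        rw [Finset.mem_product, Finset.mem_insert, Finset.mem_singleton] at hp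
        rw [Finset.mem_filter]
        refine ⟨Finset.mem_univ _, ?_⟩
        rcases hp.1 with h | h
        · rw [h, h2 a p.2 b]; exact hne'
        · rw [h, h2 a₀ p.2 b₀]; exact hne
      have hcard := Finset.card_le_card hsub
      rw [Finset.card_product, Finset.card_univ, Finset.card_pair ha] at hcard
      omega
    · exfalso
      push Not at h1 h2
      obtain ⟨a₁, a₂, b₀, h12⟩ := h1
      obtain ⟨a₀, b₁, b₂, h34⟩ := h2
      have hrow : ∀ b, M a₁ b ≠ M a₂ b := by
        intro b h
        apply h12
        have h5 := hadd a₁ a₂ b₀ b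
        linear_combination h5 + h
      have hcol : ∀ a, M a b₁ ≠ M a b₂ := by
        intro a h
        apply h34
        have h5 := hadd a a₀ b₁ b₂
        linear_combination h - h5
      have hb12 : b₁ ≠ b₂ := by
        rintro rfl
        exact h34 rfl
      let f : A → A × B := fun a => if M a b₁ ≠ 0 then (a, b₁) else (a, b₂)
      let g : B → A × B := fun b => if M a₁ b ≠ 0 then (a₁, b) else (a₂, b)
      have hf : ∀ a, M (f a).1 (f a).2 ≠ 0 ∧ (f a).1 = a ∧ ((f a).2 = b₁ ∨ (f a).2 = b₂) := by
        intro a
        by_cases h : M a b₁ ≠ 0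
        · have : f a = (a, b₁) := if_pos h
          rw [this]; exact ⟨h, rfl, Or.inl rfl⟩
        · have h6 : f a = (a, b₂) := if_neg h
          rw [h6]
          refine ⟨?_, rfl, Or.inr rfl⟩
          push Not at h
          intro h7
          exact hcol a (h.trans h7.symm)
      have hg : ∀ b, M (g b).1 (g b).2 ≠ 0 ∧ (g b).2 = b := by
        intro b
        by_cases h : M a₁ b ≠ 0
        · have : g b = (a₁, b) := if_pos h
          rw [this]; exact ⟨h, rfl⟩
        · have h6 : g b = (a₂, b) := if_neg h
          rw [h6]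
          refine ⟨?_, rfl⟩
          push Not at h
          intro h7
          exact hrow b (h.trans h7.symm)
      have hfinj : Function.Injective f := by
        intro a a' h
        rw [← (hf a).2.1, ← (hf a').2.1, h]
      have hginj : Function.Injective g := by
        intro b b' h
        rw [← (hg b).2, ← (hg b').2, h]
      have hdisj : Disjoint (Finset.univ.image f)
          ((Finset.univ \ ({b₁, b₂} : Finset B)).image g) := by
        rw [Finset.disjoint_left]
        intro p hp hp'
        obtain ⟨a, -, rfl⟩ := Finset.mem_image.mp hp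
        obtain ⟨b, hb, hb'⟩ := Finset.mem_image.mp hp'
        rw [Finset.mem_sdiff, Finset.mem_insert, Finset.mem_singleton] at hb
        have h8 : (f a).2 = b := by rw [← hb']; exact (hg b).2
        rcases (hf a).2.2 with h | h
        · exact hb.2 (Or.inl (h8.symm.trans h))
        · exact hb.2 (Or.inr (h8.symm.trans h))
      have hsub : Finset.univ.image f ∪ (Finset.univ \ ({b₁, b₂} : Finset B)).image g
          ⊆ Finset.univ.filter (fun p : A × B => M p.1 p.2 ≠ 0) := by
        intro p hp
        rw [Finset.mem_filter]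
        refine ⟨Finset.mem_univ _, ?_⟩
        rcases Finset.mem_union.mp hp with h | h
        · obtain ⟨a, -, rfl⟩ := Finset.mem_image.mp h
          exact (hf a).1
        · obtain ⟨b, -, rfl⟩ := Finset.mem_image.mp h
          exact (hg b).1
      have hcard := Finset.card_le_card hsub
      rw [Finset.card_union_of_disjoint hdisj, Finset.card_image_of_injective _ hfinj,
        Finset.card_image_of_injective _ hginj, Finset.card_univ, Finset.card_univ_diff,
        Finset.card_pair hb12] at hcard
      omega

end Cfsg.Agent.Lib.Helper6
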