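import Mathlib

/-!
# Alperin: a maximal normal abelian subgroup of exponent dividing `p^n` contains the
elements of order dividing `p^n` of its centralizer
-/

set_option autoImplicit false

namespace Cfsg.Agent.Lib.Helper6

/-- the power formula in class two -/
theorem class2_pow {G : Type*} [Group G] (y z c : G) (hzy : z * y = c * y * z)
    (hcy : c * y = y * c) (hcz : c * z = z * c) (m : ℕ) :
    ∃ k : ℕ, 2 * k = m * (m - 1) ∧ (y * z) ^ m = c ^ k * y ^ m * z ^ m := by
  have Cy : Commute c y := hcy
  have Cz : Commute c z := hcz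
  have hzm : ∀ j : ℕ, z ^ j * y = c ^ j * y * z ^ j := by
    intro j
    induction j with
    | zero => simp
    | succ j ihj =>
      calc z ^ (j + 1) * y = z ^ j * (z * y) := by rw [pow_succ, mul_assoc]
        _ = z ^ j * (c * y * z) := by rw [hzy]
        _ = (z ^ j * c) * y * z := by simp only [mul_assoc]
        _ = (c * z ^ j) * y * z := by rw [← (Cz.pow_right j).eq]
        _ = c * (z ^ j * y) * z := by simp only [mul_assoc]
        _ = c * (c ^ j * y * z ^ j) * z := by rw [ihj]
        _ = c ^ (j + 1) * y * z ^ (j + 1) := by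
          rw [pow_succ' c, pow_succ z]
          simp only [mul_assoc]
  induction m with
  | zero => exact ⟨0, by simp, by simp⟩
  | succ m ih =>
    obtain ⟨k, hk, h⟩ := ih
    refine ⟨k + m, ?_, ?_⟩
    · rcases m with _ | m'
      · simp at hk ⊢
        exact hk
      · simp only [Nat.add_sub_cancel] at hk ⊢
        nlinarith
    · calc (y * z) ^ (m + 1) = (y * z) ^ m * (y * z) := pow_succ _ _
        _ = c ^ k * y ^ m * z ^ m * (y * z) := by rw [h]
        _ = c ^ k * y ^ m * (z ^ m * y) * z := by simp only [mul_assoc]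
        _ = c ^ k * y ^ m * (c ^ m * y * z ^ m) * z := by rw [hzm m]
        _ = c ^ k * (y ^ m * c ^ m) * y * z ^ m * z := by simp only [mul_assoc]
        _ = c ^ k * (c ^ m * y ^ m) * y * z ^ m * z := by
          rw [← ((Cy.pow_left m).pow_right m).eq]
        _ = c ^ (k + m) * y ^ (m + 1) * z ^ (m + 1) := by
          rw [pow_add, pow_succ y, pow_succ z]
          simp only [mul_assoc]

/-- the key computation -/
theorem alperin_calc {G : Type*} [Group G] {p : ℕ} [Fact p.Prime] (n : ℕ) (hn : p ^ n ≠ 2)
    (y z c : G) (hzy : z * y = c * y * z) (hcy : c * y = y * c) (hcz : c * z = z * c)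
    (hy : y ^ p ^ n = 1) (hyz : (y * z) ^ p ^ n = 1) (hc : c ^ p ^ n = 1)
    (h2 : (z ^ 2) ^ p ^ n = 1 → z ^ 2 * y = y * z ^ 2) : z ^ p ^ n = 1 := by
  have hp : p.Prime := Fact.out
  obtain ⟨k, hk, h⟩ := class2_pow y z c hzy hcy hcz (p ^ n)
  rw [hyz, hy, mul_one] at h
  have hzk : z ^ p ^ n = (c ^ k)⁻¹ := eq_inv_of_mul_eq_one_right h.symm
  suffices hck : c ^ k = 1 by rw [hzk, hck, inv_one]
  by_cases hp2 : p = 2
  · subst hp2
    rcases Nat.lt_or_ge n 2 with hlt | hge
    · interval_cases n
      · simp at hk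
        rw [hk, pow_zero]
      · exact absurd (by norm_num) hn
    · have hz2 : (z ^ 2) ^ 2 ^ n = 1 := by
        rw [← pow_mul, mul_comm, pow_mul, hzk, inv_pow, ← pow_mul, mul_comm, hk, pow_mul, hc,
          one_pow, inv_one]
      have hcomm := h2 hz2
      have hc2 : c ^ 2 = 1 := by
        have e1 : z ^ 2 * y = c ^ 2 * y * z ^ 2 := by
          calc z ^ 2 * y = z * (z * y) := by rw [pow_two, mul_assoc]
            _ = z * (c * y * z) := by rw [hzy]
            _ = (z * c) * y * z := by simp only [mul_assoc]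
            _ = (c * z) * y * z := by rw [hcz]
            _ = c * (z * y) * z := by simp only [mul_assoc]
            _ = c * (c * y * z) * z := by rw [hzy]
            _ = c ^ 2 * y * z ^ 2 := by
              rw [pow_two, pow_two]
              simp only [mul_assoc]
        rw [hcomm] at e1
        have e2 : y = c ^ 2 * y := mul_right_cancel e1
        have e3 : c ^ 2 * y = 1 * y := by rw [← e2, one_mul]
        exact mul_right_cancel e3
      have hkeven : 2 ∣ k := by
        obtain ⟨n', rfl⟩ : ∃ n', n = n' + 2 := ⟨n - 2, by omega⟩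
        obtain ⟨M, hM⟩ : ∃ M, M = 2 ^ (n' + 2) - 1 := ⟨_, rfl⟩
        rw [← hM] at hk
        have h4 : 2 ^ (n' + 2) = 4 * 2 ^ n' := by ring
        rw [h4] at hk
        refine ⟨2 ^ n' * M, ?_⟩
        have : 2 * k = 2 * (2 * (2 ^ n' * M)) := by rw [hk]; ring
        exact Nat.eq_of_mul_eq_mul_left (by norm_num) this
      obtain ⟨k', rfl⟩ := hkeven
      rw [pow_mul, hc2, one_pow]
  · have hodd : Nat.Coprime (p ^ n) 2 :=
      Nat.Coprime.pow_left n ((Nat.coprime_primes hp Nat.prime_two).mpr hp2)
    have hdvd : p ^ n ∣ k := by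
      have : p ^ n ∣ 2 * k := ⟨p ^ n - 1, hk⟩
      exact hodd.dvd_of_dvd_mul_left this
    obtain ⟨k', rfl⟩ := hdvd
    rw [pow_mul, hc, one_pow]

/-- Alperin's lemma -/
theorem alperin_omega {G : Type*} [Group G] [Finite G] {p : ℕ} [Fact p.Prime]
    (hG : IsPGroup p G) (n : ℕ) (hn : p ^ n ≠ 2) (A : Subgroup G) [hAn : A.Normal]
    (hA : IsMulCommutative A) (hAe : ∀ a ∈ A, a ^ p ^ n = 1)
    (hmax : ∀ B : Subgroup G, B.Normal → IsMulCommutative B → (∀ b ∈ B, b ^ p ^ n = 1) →
      A ≤ B → B = A)
    (x : G) (hx : x ∈ Subgroup.centralizer (A : Set G)) (hxn : x ^ p ^ n = 1) : x ∈ A := by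
  classical
  have hAC : ∀ a ∈ A, ∀ b ∈ A, a * b = b * a := by
    intro a ha b hb
    have := hA.is_comm.comm (⟨a, ha⟩ : A) ⟨b, hb⟩
    exact congrArg Subtype.val this
  have hcent : ∀ y ∈ Subgroup.centralizer (A : Set G), ∀ a ∈ A, a * y = y * a :=
    fun y hy a ha => hy a ha
  have hCnorm : ∀ y ∈ Subgroup.centralizer (A : Set G), ∀ g : G,
      g * y * g⁻¹ ∈ Subgroup.centralizer (A : Set G) := by
    intro y hy g
    rw [Subgroup.mem_centralizer_iff]
    intro a ha
    have ha' : g⁻¹ * a * g ∈ A := by simpa using hAn.conj_mem a ha g⁻¹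
    have h1 := hy _ ha'
    calc a * (g * y * g⁻¹) = g * ((g⁻¹ * a * g) * y) * g⁻¹ := by group
      _ = g * (y * (g⁻¹ * a * g)) * g⁻¹ := by rw [h1]
      _ = g * y * g⁻¹ * a := by group
  have key : ∀ i : ℕ, ∀ y ∈ Subgroup.centralizer (A : Set G),
      ((y : G) : G ⧸ A) ∈ Subgroup.upperCentralSeries (G ⧸ A) i → y ^ p ^ n = 1 → y ∈ A := by
    intro i
    induction i using Nat.strong_induction_on with
    | _ i IH =>
      intro y hyC hyZ hym
      rcases i with _ | _ | i
      · rw [Subgroup.upperCentralSeries_zero, Subgroup.mem_bot, QuotientGroup.eq_one_iff] at hyZ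
        exact hyZ
      · rw [zero_add, Subgroup.upperCentralSeries_one, Subgroup.mem_center_iff] at hyZ
        let B : Subgroup G := (Subgroup.zpowers (y : G ⧸ A)).comap (QuotientGroup.mk' A)
        have hBmem : ∀ b, b ∈ B ↔ ∃ k : ℤ, ∃ a ∈ A, b = y ^ k * a := by
          intro b
          constructor
          · intro hb
            obtain ⟨k, hk⟩ := Subgroup.mem_zpowers_iff.mp hb
            refine ⟨k, (y ^ k)⁻¹ * b, ?_, by group⟩
            apply QuotientGroup.eq.mp
            rw [QuotientGroup.mk_zpow]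
            exact hk
          · rintro ⟨k, a, ha, rfl⟩
            show QuotientGroup.mk' A (y ^ k * a) ∈ Subgroup.zpowers (y : G ⧸ A)
            rw [Subgroup.mem_zpowers_iff]
            refine ⟨k, ?_⟩
            rw [map_mul, map_zpow]
            have : QuotientGroup.mk' A a = 1 := (QuotientGroup.eq_one_iff a).mpr ha
            rw [this, mul_one]
            rfl
        have hBn : B.Normal := by
          have hZn : (Subgroup.zpowers (y : G ⧸ A)).Normal := ⟨fun u hu g => by
            obtain ⟨k, rfl⟩ := Subgroup.mem_zpowers_iff.mp hu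
            have hc : Commute g (y : G ⧸ A) := hyZ g
            have : g * (y : G ⧸ A) ^ k * g⁻¹ = (y : G ⧸ A) ^ k := by
              rw [(hc.zpow_right k).eq, mul_inv_cancel_right]
            rw [this]
            exact Subgroup.zpow_mem_zpowers _ k⟩
          exact Subgroup.Normal.comap hZn _
        have hyk : ∀ (k : ℤ), ∀ a ∈ A, a * y ^ k = y ^ k * a :=
          fun k a ha => (Commute.zpow_right (hcent y hyC a ha) k).eq
        have hBc : IsMulCommutative B := ⟨⟨fun b₁ b₂ => by
          obtain ⟨k, a, ha, h1⟩ := (hBmem b₁.1).mp b₁.2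
          obtain ⟨l, a', ha', h2⟩ := (hBmem b₂.1).mp b₂.2
          apply Subtype.ext
          show b₁.1 * b₂.1 = b₂.1 * b₁.1
          rw [h1, h2]
          calc y ^ k * a * (y ^ l * a') = y ^ k * (a * y ^ l) * a' := by group
            _ = y ^ k * (y ^ l * a) * a' := by rw [hyk l a ha]
            _ = (y ^ k * y ^ l) * (a * a') := by group
            _ = (y ^ l * y ^ k) * (a' * a) := by
              rw [hAC a ha a' ha', (Commute.zpow_zpow_self y k l).eq]
            _ = y ^ l * (y ^ k * a') * a := by group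
            _ = y ^ l * (a' * y ^ k) * a := by rw [hyk k a' ha']
            _ = y ^ l * a' * (y ^ k * a) := by group⟩⟩
        have hBe : ∀ b ∈ B, b ^ p ^ n = 1 := by
          intro b hb
          obtain ⟨k, a, ha, rfl⟩ := (hBmem b).mp hb
          have hcomm : Commute (y ^ k) a := (hyk k a ha).symm
          rw [hcomm.mul_pow, hAe a ha, mul_one, ← zpow_natCast, ← zpow_mul, mul_comm, zpow_mul,
            zpow_natCast, hym, one_zpow]
        have hAB : A ≤ B := by
          intro a ha
          exact (hBmem a).mpr ⟨0, a, ha, by simp⟩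
        have hBA := hmax B hBn hBc hBe hAB
        rw [← hBA]
        exact (hBmem y).mpr ⟨1, 1, A.one_mem, by simp⟩
      · -- the general step
        have SL : ∀ j ≤ i + 1, ∀ z ∈ Subgroup.centralizer (A : Set G),
            ((z : G) : G ⧸ A) ∈ Subgroup.upperCentralSeries (G ⧸ A) j → (y * z) ^ p ^ n = 1 →
            z * y * z⁻¹ * y⁻¹ ∈ A → z ∈ A := by
          intro j hj z hzC hzZ hyz hc
          apply IH j (by omega) z hzC hzZ
          apply alperin_calc n hn y z (z * y * z⁻¹ * y⁻¹) (by group) ?_ ?_ hym hyz (hAe _ hc) ?_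
          · exact hcent y hyC _ hc
          · exact hcent z hzC _ hc
          · intro hz2
            have hz2A : z ^ 2 ∈ A := IH j (by omega) (z ^ 2) (Subgroup.pow_mem _ hzC 2)
              (by rw [QuotientGroup.mk_pow]; exact Subgroup.pow_mem _ hzZ 2) hz2
            exact hcent y hyC _ hz2A
        have hconjpow : ∀ g : G, (y * (y⁻¹ * (g * y * g⁻¹))) ^ p ^ n = 1 := by
          intro g
          have : y * (y⁻¹ * (g * y * g⁻¹)) = g * y * g⁻¹ := by group
          rw [this, conj_pow, hym]
          group
        have hstepA : ∀ j ≤ i + 1, ∀ g ∈ Subgroup.centralizer (A : Set G),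
            ((g : G) : G ⧸ A) ∈ Subgroup.upperCentralSeries (G ⧸ A) j → y⁻¹ * (g * y * g⁻¹) ∈ A := by
          intro j
          induction j with
          | zero =>
            intro _ g hgC hgZ
            rw [Subgroup.upperCentralSeries_zero, Subgroup.mem_bot, QuotientGroup.eq_one_iff] at hgZ
            have h1 := hcent y hyC g hgZ
            rw [h1, mul_inv_cancel_right, inv_mul_cancel]
            exact A.one_mem
          | succ j ihj =>
            intro hj g hgC hgZ
            have hzC : y⁻¹ * (g * y * g⁻¹) ∈ Subgroup.centralizer (A : Set G) :=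
              mul_mem (inv_mem hyC) (hCnorm y hyC g)
            have hzZ : ((y⁻¹ * (g * y * g⁻¹) : G) : G ⧸ A) ∈ Subgroup.upperCentralSeries (G ⧸ A) j := by
              have h1 := (Subgroup.mem_upperCentralSeries_succ_iff.mp hgZ) (y : G ⧸ A)
              rw [commutatorElement_def] at h1
              have h2 := (inferInstance : (Subgroup.upperCentralSeries (G ⧸ A) j).Normal).conj_mem _ h1
                ((y : G ⧸ A)⁻¹)
              convert h2 using 1
              simp only [QuotientGroup.mk_mul, QuotientGroup.mk_inv]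
              group
            have hc : (y⁻¹ * (g * y * g⁻¹)) * y * (y⁻¹ * (g * y * g⁻¹))⁻¹ * y⁻¹ ∈ A := by
              have h3 := ihj (by omega) _ hzC hzZ
              have h4 := hAn.conj_mem _ h3 y
              convert h4 using 1
              group
            exact SL j (by omega) _ hzC hzZ (hconjpow g) hc
        have hall : ∀ g : G, y⁻¹ * (g * y * g⁻¹) ∈ A := by
          intro g
          have hzC : y⁻¹ * (g * y * g⁻¹) ∈ Subgroup.centralizer (A : Set G) :=
            mul_mem (inv_mem hyC) (hCnorm y hyC g)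
          have hzZ : ((y⁻¹ * (g * y * g⁻¹) : G) : G ⧸ A)
              ∈ Subgroup.upperCentralSeries (G ⧸ A) (i + 1) := by
            have h1 := (Subgroup.mem_upperCentralSeries_succ_iff.mp hyZ) (g : G ⧸ A)
            rw [commutatorElement_def] at h1
            have h2 := (inferInstance : (Subgroup.upperCentralSeries (G ⧸ A) (i + 1)).Normal).conj_mem _
              (inv_mem h1) ((y : G ⧸ A)⁻¹)
            convert h2 using 1
            simp only [QuotientGroup.mk_mul, QuotientGroup.mk_inv]
            group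
          have hc : (y⁻¹ * (g * y * g⁻¹)) * y * (y⁻¹ * (g * y * g⁻¹))⁻¹ * y⁻¹ ∈ A := by
            have h3 := hstepA (i + 1) le_rfl _ hzC hzZ
            have h4 := hAn.conj_mem _ h3 y
            convert h4 using 1
            group
          exact SL (i + 1) le_rfl _ hzC hzZ (hconjpow g) hc
        apply IH 1 (by omega) y hyC ?_ hym
        rw [Subgroup.upperCentralSeries_one, Subgroup.mem_center_iff]
        intro gq
        obtain ⟨g, rfl⟩ := QuotientGroup.mk_surjective gq
        have h1 := (QuotientGroup.eq_one_iff _).mpr (hall g)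
        simp only [QuotientGroup.mk_mul, QuotientGroup.mk_inv] at h1
        have h2 : (g : G ⧸ A) * (y : G ⧸ A) * (g : G ⧸ A)⁻¹ = (y : G ⧸ A) := by
          have := congrArg (fun t => (y : G ⧸ A) * t) h1
          simpa [mul_assoc] using this
        calc (g : G ⧸ A) * (y : G ⧸ A) = ((g : G ⧸ A) * (y : G ⧸ A) * (g : G ⧸ A)⁻¹) * (g : G ⧸ A) := by
              group
          _ = (y : G ⧸ A) * (g : G ⧸ A) := by rw [h2]
  haveI : Group.IsNilpotent (G ⧸ A) := (hG.to_quotient A).isNilpotent
  obtain ⟨N, hN⟩ := Group.IsNilpotent.nilpotent' (G := G ⧸ A)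
  exact key N x hx (by rw [hN]; exact Subgroup.mem_top _) hxn

end Cfsg.Agent.Lib.Helper6
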