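import Mathlib
import Cfsg.Agent.Lib.Lead.Glauberman

set_option autoImplicit false

namespace Cfsg.Agent.Lib.Helper6

universe u

theorem isAct_conjElt (L : Type u) [Group L] :
    Cfsg.Agent.Lib.Lead.IsAct (fun (g : L) (y : L) => g * y * g⁻¹) :=
  ⟨fun y => by simp, fun g h y => by group⟩

/-- Glauberman's lemma for conjugacy classes: if `x` has order coprime to the normal subgroup `K`
and maps the `K`-class of `k₀` to itself, then `x` centralizes a `K`-conjugate of `k₀`. -/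
theorem fixed_class_rep {L : Type u} [Group L] [Finite L] (K : Subgroup L) [hK : K.Normal] (x : L)
    (hx : (orderOf x).Coprime (Nat.card K)) (k₀ : L)
    (hfix : ∃ c ∈ K, x * k₀ * x⁻¹ = c * k₀ * c⁻¹) :
    ∃ k ∈ K, x * (k * k₀ * k⁻¹) = (k * k₀ * k⁻¹) * x := by
  let S : Subgroup L :=
    { carrier := {a | ∃ k ∈ K, a * k₀ * a⁻¹ = k * k₀ * k⁻¹}
      one_mem' := ⟨1, K.one_mem, by simp⟩
      mul_mem' := by
        rintro a b ⟨k, hk, hak⟩ ⟨k', hk', hbk⟩
        refine ⟨a * k' * a⁻¹ * k, K.mul_mem (hK.conj_mem k' hk' a) hk, ?_⟩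
        have e1 : a * b * k₀ * (a * b)⁻¹ = a * (b * k₀ * b⁻¹) * a⁻¹ := by group
        rw [e1, hbk]
        have e2 : a * (k' * k₀ * k'⁻¹) * a⁻¹
            = (a * k' * a⁻¹) * (a * k₀ * a⁻¹) * (a * k' * a⁻¹)⁻¹ := by group
        rw [e2, hak]; group
      inv_mem' := by
        rintro a ⟨k, hk, hak⟩
        refine ⟨(a⁻¹ * k * a)⁻¹, K.inv_mem (by have := hK.conj_mem k hk a⁻¹; rwa [inv_inv] at this), ?_⟩
        have h1 : k₀ = a⁻¹ * (k * k₀ * k⁻¹) * a := by rw [← hak]; group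
        conv_rhs => rw [h1]
        group }
  have hxS : x ∈ S := hfix
  have hAS : Subgroup.zpowers x ≤ S := (Subgroup.zpowers_le).mpr hxS
  have hnorm : Subgroup.zpowers x ≤ Subgroup.normalizer (K : Set L) := by
    rw [Subgroup.normalizer_eq_top]; exact le_top
  have hcop : (Nat.card (Subgroup.zpowers x)).Coprime (Nat.card K) := by
    rw [Nat.card_zpowers]; exact hx
  obtain ⟨k, hk, hk2⟩ := Cfsg.Agent.Lib.Lead.glauberman_exists (isAct_conjElt L) (Subgroup.zpowers x) K hnorm hcop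
    (Or.inl inferInstance) k₀ (fun a ha => by obtain ⟨k, hk, h⟩ := hAS ha; exact ⟨k, hk, h⟩)
  refine ⟨k, hk, ?_⟩
  have := hk2 x (Subgroup.mem_zpowers x)
  exact mul_inv_eq_iff_eq_mul.mp this

end Cfsg.Agent.Lib.Helper6
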