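import Mathlib
import Cfsg.Agent.Lib.Helper6.FixClass
import Cfsg.Agent.Lib.Lead.Char15

set_option autoImplicit false

namespace Cfsg.Agent.Lib.Helper6

open Cfsg.Agent.Lib

/-- description of the classes of a normal subgroup fixed by conjugation with `x` -/
theorem fixclass_iff {M : Type*} [Group M] (H : Subgroup M) [hN : H.Normal] (x : M) (k : H) :
    ConjClasses.map (MulAut.conjNormal x : H ≃* H).toMonoidHom (ConjClasses.mk k)
      = ConjClasses.mk k ↔ ∃ c ∈ H, x * (k : M) * x⁻¹ = c * k * c⁻¹ := by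
  change ConjClasses.mk ((MulAut.conjNormal x : H ≃* H).toMonoidHom k) = ConjClasses.mk k ↔ _
  rw [ConjClasses.mk_eq_mk_iff_isConj, isConj_iff]
  constructor
  · rintro ⟨c, hc⟩
    have hc' : (c : M) * (x * (k : M) * x⁻¹) * (c : M)⁻¹ = k := by
      have := congrArg Subtype.val hc
      simpa using this
    exact ⟨(c : M)⁻¹, H.inv_mem c.2, by conv_rhs => rw [← hc']
                                        group⟩
  · rintro ⟨c, hc, h⟩
    refine ⟨(⟨c, hc⟩ : H)⁻¹, ?_⟩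
    apply Subtype.ext
    show c⁻¹ * (x * (k : M) * x⁻¹) * c⁻¹⁻¹ = k
    rw [h]; group

/-- Brauer's permutation lemma: a fixed non-principal irreducible character of a normal subgroup
forces a fixed nontrivial class -/
theorem exists_fixed_class_of_fixed_char {M : Type*} [Group M] [Finite M] (H : Subgroup M)
    [hN : H.Normal] (x : M) (θ : H → ℂ) (hθ : Cfsg.IsIrrCharacter H θ) (hθ1 : θ ≠ (fun _ => 1))
    (hθx : (fun h : H => θ ⟨x * h * x⁻¹, hN.conj_mem h h.2 x⟩) = θ) :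
    ∃ k₀ ∈ H, k₀ ≠ 1 ∧ ∃ c ∈ H, x * k₀ * x⁻¹ = c * k₀ * c⁻¹ := by
  classical
  have hB := Lead.fixed_count_aut (MulAut.conjNormal x : H ≃* H)
  have hfixchar : θ ∘ (MulAut.conjNormal x : H ≃* H) = θ := by
    have : θ ∘ (MulAut.conjNormal x : H ≃* H)
        = (fun h : H => θ ⟨x * h * x⁻¹, hN.conj_mem h h.2 x⟩) := by
      funext h
      show θ ((MulAut.conjNormal x : H ≃* H) h) = _
      congr 1
    rw [this]; exact hθx
  have h2 : 1 < Nat.card {χ : Cfsg.IrrCharacter H //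
      (χ : H → ℂ) ∘ (MulAut.conjNormal x : H ≃* H) = (χ : H → ℂ)} := by
    rw [Finite.one_lt_card_iff_nontrivial]
    refine ⟨⟨⟨⟨θ, hθ⟩, hfixchar⟩, ⟨⟨fun _ => 1, Lead.isIrrCharacter_one⟩, rfl⟩, ?_⟩⟩
    intro h
    apply hθ1
    exact congrArg (fun χ => (χ.1.1 : H → ℂ)) h
  rw [← hB, Finite.one_lt_card_iff_nontrivial] at h2
  obtain ⟨⟨C₁, C₂, hne⟩⟩ := h2
  have hexC : ∃ C : {C : ConjClasses H //
      ConjClasses.map (MulAut.conjNormal x : H ≃* H).toMonoidHom C = C}, C.1 ≠ ConjClasses.mk 1 := by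
    by_contra hcon
    push Not at hcon
    exact hne (Subtype.ext ((hcon C₁).trans (hcon C₂).symm))
  obtain ⟨⟨C, hCfix⟩, hC1⟩ := hexC
  obtain ⟨k₀, rfl⟩ := ConjClasses.exists_rep C
  have hk₀ : k₀ ≠ 1 := by rintro rfl; exact hC1 rfl
  exact ⟨k₀, k₀.2, fun h => hk₀ (Subtype.ext h), (fixclass_iff H x k₀).mp hCfix⟩

/-- Brauer's permutation lemma, converse direction -/
theorem exists_fixed_char_of_fixed_class {M : Type*} [Group M] [Finite M] (H : Subgroup M)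
    [hN : H.Normal] (x : M) (k₀ : M) (hk₀ : k₀ ∈ H) (hk1 : k₀ ≠ 1)
    (hfix : ∃ c ∈ H, x * k₀ * x⁻¹ = c * k₀ * c⁻¹) :
    ∃ θ : H → ℂ, Cfsg.IsIrrCharacter H θ ∧ θ ≠ (fun _ => 1) ∧
      (fun h : H => θ ⟨x * h * x⁻¹, hN.conj_mem h h.2 x⟩) = θ := by
  classical
  have hB := Lead.fixed_count_aut (MulAut.conjNormal x : H ≃* H)
  have h2 : 1 < Nat.card {C : ConjClasses H //
      ConjClasses.map (MulAut.conjNormal x : H ≃* H).toMonoidHom C = C} := by
    rw [Finite.one_lt_card_iff_nontrivial]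
    refine ⟨⟨⟨ConjClasses.mk 1, ?_⟩, ⟨ConjClasses.mk ⟨k₀, hk₀⟩, ?_⟩, ?_⟩⟩
    · rw [fixclass_iff]; exact ⟨1, H.one_mem, by simp⟩
    · rw [fixclass_iff]; exact hfix
    · intro heq
      have h3 := congrArg Subtype.val heq
      simp only at h3
      rw [ConjClasses.mk_eq_mk_iff_isConj, isConj_iff] at h3
      obtain ⟨c, hc⟩ := h3
      apply hk1
      have h4 := congrArg Subtype.val hc
      simpa using h4.symm
  rw [hB, Finite.one_lt_card_iff_nontrivial] at h2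
  obtain ⟨⟨χ₁, χ₂, hne⟩⟩ := h2
  have hexχ : ∃ χ : {χ : Cfsg.IrrCharacter H //
      (χ : H → ℂ) ∘ (MulAut.conjNormal x : H ≃* H) = (χ : H → ℂ)},
      (χ.1.1 : H → ℂ) ≠ fun _ => 1 := by
    by_contra hcon
    push Not at hcon
    exact hne (Subtype.ext (Subtype.ext ((hcon χ₁).trans (hcon χ₂).symm)))
  obtain ⟨⟨⟨θ, hθ⟩, hfix'⟩, hne1⟩ := hexχ
  refine ⟨θ, hθ, hne1, ?_⟩
  have : θ ∘ (MulAut.conjNormal x : H ≃* H)
      = (fun h : H => θ ⟨x * h * x⁻¹, hN.conj_mem h h.2 x⟩) := by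
    funext h
    show θ ((MulAut.conjNormal x : H ≃* H) h) = _
    congr 1
  rw [← this]; exact hfix'

end Cfsg.Agent.Lib.Helper6
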