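import Mathlib
import Cfsg.Agent.S1473
import Cfsg.Agent.S1474
import Cfsg.Agent.S1477
import Cfsg.Agent.Lib.Lead.Coprime
import Cfsg.Agent.Lib.Lead.Hall
import Cfsg.Agent.Lib.Lead.NormalEA
import Cfsg.Agent.Lib.Lead.Fitting
import Cfsg.Agent.Lib.Lead.Fitting2
import Cfsg.Agent.Lib.Lead.PCore
import Cfsg.Agent.Lib.Lead.PCore2
import Cfsg.Agent.Lib.Helper6.NormGrow
import Cfsg.Agent.Lib.Helper6.PSub
import Cfsg.Agent.Lib.Helper6.CycSylow
import Cfsg.Agent.Lib.Helper6.RealElt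

set_option autoImplicit false

namespace Cfsg.Agent.Lib.Helper6

open Cfsg.Agent.S1473 Cfsg.Agent.S1477 Cfsg.Agent.S1474
open scoped Pointwise

universe u

/-- elements of the `p`-core have `p`-power order -/
theorem orderOf_mem_pcore {G : Type u} [Group G] [Finite G] {p : ℕ} [Fact p.Prime] {x : G}
    (hx : x ∈ Cfsg.pCore p G) : ∃ k : ℕ, orderOf x = p ^ k := by
  obtain ⟨k, hk⟩ := (IsPGroup.iff_orderOf.mp (Lead.pCore_isPGroup' (G := G) p)) ⟨x, hx⟩
  exact ⟨k, by rw [← hk, Subgroup.orderOf_mk]⟩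

/-- a nonidentity element of the `p`-core central in a given Sylow `p`-subgroup -/
theorem exists_pcore_central {G : Type u} [Group G] [Finite G] {p : ℕ} [Fact p.Prime]
    (hp1 : Cfsg.pCore p G ≠ ⊥) (P : Sylow p G) :
    ∃ u ∈ Cfsg.pCore p G, u ≠ 1 ∧ orderOf u = p ∧ ∀ x ∈ (P : Subgroup G), x * u = u * x := by
  haveI := Lead.pCore_normal p G
  have hHP : Cfsg.pCore p G ≤ (P : Subgroup G) := Lead.pCore_le_sylow' P
  have hne : (Cfsg.pCore p G).subgroupOf (P : Subgroup G) ≠ ⊥ := by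
    rw [Ne, Subgroup.subgroupOf_eq_bot, disjoint_iff, inf_eq_left.mpr hHP]
    exact hp1
  obtain ⟨w, hwN, hwc, hwo⟩ := Lead.exists_central_order_p P.isPGroup' _ hne
  refine ⟨(w : G), hwN, ?_, ?_, ?_⟩
  · intro h
    have h1 : w = 1 := Subtype.ext h
    rw [h1, orderOf_one] at hwo
    exact (Fact.out : p.Prime).one_lt.ne hwo
  · rw [Subgroup.orderOf_coe]; exact hwo
  · intro x hx
    exact congrArg Subtype.val (Subgroup.mem_center_iff.mp hwc ⟨x, hx⟩)

/-- in a CN-group with two nontrivial cores, Sylow subgroups are normal -/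
theorem cn_sylow_normal_of_pcores {G : Type u} [Group G] [Finite G] (hCN : Cfsg.IsCNGroup G)
    {p q : ℕ} [Fact p.Prime] [Fact q.Prime] (hpq : p ≠ q)
    (hp1 : Cfsg.pCore p G ≠ ⊥) (hq1 : Cfsg.pCore q G ≠ ⊥) (P : Sylow p G) :
    (P : Subgroup G).Normal := by
  classical
  have hp : p.Prime := Fact.out
  have hq : q.Prime := Fact.out
  haveI hHn := Lead.pCore_normal p G
  haveI hQn := Lead.pCore_normal q G
  obtain ⟨u, huH, hu1, -, huc⟩ := exists_pcore_central hp1 P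
  obtain ⟨y, hyQ, hy1⟩ : ∃ y ∈ Cfsg.pCore q G, y ≠ 1 := by
    by_contra hc
    apply hq1
    rw [Subgroup.eq_bot_iff_forall]
    intro w hw
    by_contra hw1
    exact hc ⟨w, hw, hw1⟩
  have hdisj : Disjoint (Cfsg.pCore p G) (Cfsg.pCore q G) :=
    IsPGroup.disjoint_of_ne p q hpq _ _ (Lead.pCore_isPGroup' p) (Lead.pCore_isPGroup' q)
  haveI hDn : (Subgroup.centralizer ((Cfsg.pCore q G : Subgroup G) : Set G)).Normal :=
    Subgroup.normal_centralizer
  have hDnil : Group.IsNilpotent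
      (Subgroup.centralizer ((Cfsg.pCore q G : Subgroup G) : Set G)) := by
    apply nilp_of_le (hCN y hy1)
    intro d hd
    rw [mem_cent_singleton]
    exact (Subgroup.mem_centralizer_iff.mp hd y hyQ)
  have hPD : (P : Subgroup G) ≤ Subgroup.centralizer ((Cfsg.pCore q G : Subgroup G) : Set G) := by
    intro x hx
    rw [Subgroup.mem_centralizer_iff]
    intro y' hy'
    obtain ⟨i, hi⟩ := orderOf_mem_sylow P hx
    obtain ⟨j, hj⟩ := orderOf_mem_pcore hy'
    have h1 : x * y' = y' * x := by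
      apply commute_in_nilp (hCN u hu1) (p := p) ?_ ?_ hi ?_
      · rw [mem_cent_singleton]; exact (huc x hx).symm
      · rw [mem_cent_singleton]
        exact (Subgroup.commute_of_normal_of_disjoint _ _ hHn hQn hdisj u y' huH hy').eq
      · rw [hj]; exact Nat.Coprime.pow_left j ((Nat.coprime_primes hq hp).mpr hpq.symm)
    exact h1.symm
  exact sylow_normal_of_le_nilp P _ hDnil hPD

/-- a `p'`-element centralizing a nonidentity element of the `p`-core centralizes the `p`-core -/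
theorem cn_centralizes_pcore {G : Type u} [Group G] [Finite G] (hCN : Cfsg.IsCNGroup G)
    {p : ℕ} [Fact p.Prime] (a : G) (hap : (orderOf a).Coprime p)
    (hne : Cfsg.pCore p G ⊓ Subgroup.centralizer ({a} : Set G) ≠ ⊥) :
    ∀ h ∈ Cfsg.pCore p G, a * h = h * a := by
  classical
  have hp : p.Prime := Fact.out
  have hHp : IsPGroup p (Cfsg.pCore p G) := Lead.pCore_isPGroup' p
  obtain ⟨C, hCdef⟩ : ∃ C : Subgroup G, C = Cfsg.pCore p G ⊓ Subgroup.centralizer ({a} : Set G) :=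
    ⟨_, rfl⟩
  have hCH : C ≤ Cfsg.pCore p G := by rw [hCdef]; exact inf_le_left
  have hCeq : C = Cfsg.pCore p G := by
    by_contra hCne
    have hlt : C < Cfsg.pCore p G := lt_of_le_of_ne hCH hCne
    obtain ⟨y, hyH, hyN, hyC⟩ := Cfsg.Agent.Lib.Helper6.exists_mem_normalizer_not_mem hHp hlt
    obtain ⟨L, hLdef⟩ : ∃ L : Subgroup G, L = C ⊔ Subgroup.zpowers y := ⟨_, rfl⟩
    have hCL : C ≤ L := by rw [hLdef]; exact le_sup_left
    have hyL : y ∈ L := by rw [hLdef]; exact (le_sup_right : Subgroup.zpowers y ≤ _) (Subgroup.mem_zpowers y)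
    have hLH : L ≤ Cfsg.pCore p G := by
      rw [hLdef]; exact sup_le hCH (Subgroup.zpowers_le.mpr hyH)
    have hLp : IsPGroup p L := hHp.to_le hLH
    have hLN : L ≤ Subgroup.normalizer (C : Set G) := by
      rw [hLdef]; exact sup_le Subgroup.le_normalizer (Subgroup.zpowers_le.mpr hyN)
    haveI : (C.subgroupOf L).Normal := (Subgroup.normal_subgroupOf_iff_le_normalizer hCL).mpr hLN
    have hne' : C.subgroupOf L ≠ ⊥ := by
      rw [Ne, Subgroup.subgroupOf_eq_bot, disjoint_iff, inf_eq_left.mpr hCL, hCdef]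
      exact hne
    obtain ⟨w, hwC, hwc, hwo⟩ := Lead.exists_central_order_p hLp _ hne'
    have hw1 : (w : G) ≠ 1 := by
      intro h
      have h1 : w = 1 := Subtype.ext h
      rw [h1, orderOf_one] at hwo
      exact hp.one_lt.ne hwo
    have hwC' : (w : G) ∈ C := hwC
    rw [hCdef] at hwC'
    have hwa : a * (w : G) = (w : G) * a := mem_cent_singleton.mp hwC'.2
    have hwy : y * (w : G) = (w : G) * y :=
      congrArg Subtype.val (Subgroup.mem_center_iff.mp hwc ⟨y, hyL⟩)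
    obtain ⟨i, hi⟩ := orderOf_mem_pcore hyH
    have hya : y * a = a * y := by
      apply commute_in_nilp (hCN (w : G) hw1) (p := p) ?_ ?_ hi hap
      · rw [mem_cent_singleton]; exact hwy.symm
      · rw [mem_cent_singleton]; exact hwa.symm
    apply hyC
    rw [hCdef]
    exact ⟨hyH, mem_cent_singleton.mpr hya.symm⟩
  intro h hh
  rw [← hCeq, hCdef] at hh
  exact mem_cent_singleton.mp hh.2

/-- if the `p`-core is the only nontrivial core, `p'`-elements act fixed-point-freely on it -/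
theorem cn_fpf_of_unique_pcore {G : Type u} [Group G] [Finite G] (hCN : Cfsg.IsCNGroup G)
    {p : ℕ} [Fact p.Prime] (hH1 : Cfsg.pCore p G ≠ ⊥)
    (huniq : ∀ q : ℕ, q.Prime → q ≠ p → Cfsg.pCore q G = ⊥)
    (a : G) (ha1 : a ≠ 1) (hap : (orderOf a).Coprime p) :
    Cfsg.pCore p G ⊓ Subgroup.centralizer ({a} : Set G) = ⊥ := by
  classical
  have hp : p.Prime := Fact.out
  by_contra hne
  have hc := cn_centralizes_pcore hCN a hap hne
  haveI hHn := Lead.pCore_normal p G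
  obtain ⟨h₀, hh₀, hh₀1⟩ : ∃ y ∈ Cfsg.pCore p G, y ≠ 1 := by
    by_contra hcon
    apply hH1
    rw [Subgroup.eq_bot_iff_forall]
    intro w hw
    by_contra hw1
    exact hcon ⟨w, hw, hw1⟩
  haveI hDn : (Subgroup.centralizer ((Cfsg.pCore p G : Subgroup G) : Set G)).Normal :=
    Subgroup.normal_centralizer
  haveI hDnil : Group.IsNilpotent
      (Subgroup.centralizer ((Cfsg.pCore p G : Subgroup G) : Set G)) := by
    apply nilp_of_le (hCN h₀ hh₀1)
    intro d hd
    rw [mem_cent_singleton]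
    exact (Subgroup.mem_centralizer_iff.mp hd h₀ hh₀)
  have haD : a ∈ Subgroup.centralizer ((Cfsg.pCore p G : Subgroup G) : Set G) := by
    rw [Subgroup.mem_centralizer_iff]
    intro h hh
    exact (hc h hh).symm
  have hoa : orderOf a ≠ 1 := fun h0 => ha1 (orderOf_eq_one_iff.mp h0)
  have hq : (orderOf a).minFac.Prime := Nat.minFac_prime hoa
  have hqd : (orderOf a).minFac ∣ orderOf a := Nat.minFac_dvd _
  have hqp : (orderOf a).minFac ≠ p := by
    intro h
    rw [h] at hqd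
    exact hp.one_lt.ne' (Nat.eq_one_of_dvd_coprimes hap hqd (dvd_refl p))
  haveI : Fact (orderOf a).minFac.Prime := ⟨hq⟩
  obtain ⟨D, hDdef⟩ : ∃ D : Subgroup G,
      D = Subgroup.centralizer ((Cfsg.pCore p G : Subgroup G) : Set G) := ⟨_, rfl⟩
  rw [← hDdef] at hDn hDnil haD
  haveI := hDn
  haveI := hDnil
  have hqD : (orderOf a).minFac ∣ Nat.card D := hqd.trans (Subgroup.orderOf_dvd_natCard _ haD)
  obtain ⟨Q⟩ : Nonempty (Sylow (orderOf a).minFac D) := inferInstance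
  have hQ1 : (Q : Subgroup D) ≠ ⊥ := Q.ne_bot_of_dvd_card hqD
  have hNn := Lead.sylow_map_normal_of_nilpotent D (orderOf a).minFac Q
  have hNp : IsPGroup (orderOf a).minFac ((Q : Subgroup D).map D.subtype) := Q.isPGroup'.map _
  have hNle : (Q : Subgroup D).map D.subtype ≤ Cfsg.pCore (orderOf a).minFac G :=
    le_sSup ⟨hNn, hNp⟩
  rw [huniq _ hq hqp, le_bot_iff,
    Subgroup.map_eq_bot_iff_of_injective _ (Subgroup.subtype_injective _)] at hNle
  exact hQ1 hNle

/-- if the `p`-core is the only nontrivial core then it is self-centralizing -/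
theorem cn_centralizer_pcore_le {G : Type u} [Group G] [Finite G] (hCN : Cfsg.IsCNGroup G)
    {p : ℕ} [Fact p.Prime] (hH1 : Cfsg.pCore p G ≠ ⊥)
    (huniq : ∀ q : ℕ, q.Prime → q ≠ p → Cfsg.pCore q G = ⊥) :
    Subgroup.centralizer ((Cfsg.pCore p G : Subgroup G) : Set G) ≤ Cfsg.pCore p G := by
  classical
  have hp : p.Prime := Fact.out
  haveI hHn := Lead.pCore_normal p G
  haveI hDn : (Subgroup.centralizer ((Cfsg.pCore p G : Subgroup G) : Set G)).Normal :=
    Subgroup.normal_centralizer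
  apply le_sSup
  refine ⟨hDn, ?_⟩
  rw [IsPGroup.iff_orderOf]
  rintro ⟨c, hc⟩
  obtain ⟨a, b, hab, haz, hbz, ⟨k, hak⟩, hbq⟩ := exists_p_decomp' p hp c
  have hbD : b ∈ Subgroup.centralizer ((Cfsg.pCore p G : Subgroup G) : Set G) :=
    (Subgroup.zpowers_le.mpr hc) hbz
  have hb1 : b = 1 := by
    by_contra hb1
    have h1 := cn_fpf_of_unique_pcore hCN hH1 huniq b hb1 hbq
    apply hH1
    rw [eq_bot_iff, ← h1]
    intro h hh
    refine ⟨hh, ?_⟩
    show h ∈ Subgroup.centralizer ({b} : Set G)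
    rw [mem_cent_singleton]
    exact (Subgroup.mem_centralizer_iff.mp hbD h hh).symm
  refine ⟨k, ?_⟩
  rw [Subgroup.orderOf_mk, ← hab, hb1, mul_one]
  exact hak

/-- case split for solvable CN-groups: a nontrivial normal Sylow subgroup, or a unique core -/
theorem cn_case_split {G : Type u} [Group G] [Finite G] [Group.IsSolvable G] [Nontrivial G]
    (hCN : Cfsg.IsCNGroup G) :
    (∃ (q : ℕ) (_ : Fact q.Prime) (Q : Sylow q G), (Q : Subgroup G) ≠ ⊥ ∧ (Q : Subgroup G).Normal) ∨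
    (∃ p : ℕ, p.Prime ∧ Cfsg.pCore p G ≠ ⊥ ∧ ∀ q : ℕ, q.Prime → q ≠ p → Cfsg.pCore q G = ⊥) := by
  classical
  obtain ⟨p, hp, M, hMn, hM1, hMp⟩ := Lead.exists_normal_pgroup_of_solvable G
  haveI : Fact p.Prime := ⟨hp⟩
  have hH1 : Cfsg.pCore p G ≠ ⊥ := by
    intro h
    apply hM1
    rw [eq_bot_iff, ← h]
    exact le_sSup ⟨hMn, hMp⟩
  by_cases hex : ∀ q : ℕ, q.Prime → q ≠ p → Cfsg.pCore q G = ⊥
  · right; exact ⟨p, hp, hH1, hex⟩
  · left
    obtain ⟨q, hex'⟩ := not_forall.mp hex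
    obtain ⟨hq, hex''⟩ := Classical.not_imp.mp hex'
    obtain ⟨hqp, hq1⟩ := Classical.not_imp.mp hex''
    haveI : Fact q.Prime := ⟨hq⟩
    obtain ⟨P⟩ : Nonempty (Sylow p G) := inferInstance
    refine ⟨p, ⟨hp⟩, P, ?_, cn_sylow_normal_of_pcores hCN (Ne.symm hqp) hH1 hq1 P⟩
    intro h
    apply hH1
    rw [eq_bot_iff, ← h]
    exact Lead.pCore_le_sylow' P

/-- no nonidentity `p`-element commutes with a nonidentity `p'`-element -/
theorem cn_no_comm {G : Type u} [Group G] [Finite G] (hCN : Cfsg.IsCNGroup G)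
    {p : ℕ} [Fact p.Prime] (hH1 : Cfsg.pCore p G ≠ ⊥)
    (huniq : ∀ q : ℕ, q.Prime → q ≠ p → Cfsg.pCore q G = ⊥)
    (x y : G) (hx1 : x ≠ 1) {k : ℕ} (hxo : orderOf x = p ^ k) (hy1 : y ≠ 1)
    (hyo : (orderOf y).Coprime p) : x * y ≠ y * x := by
  classical
  intro hxy
  have hpg : IsPGroup p (Subgroup.zpowers x) :=
    IsPGroup.of_card (n := k) (by rw [Nat.card_zpowers, hxo])
  obtain ⟨P, hP⟩ := hpg.exists_le_sylow
  have hxP : x ∈ (P : Subgroup G) := hP (Subgroup.mem_zpowers x)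
  obtain ⟨u, huH, hu1, huo, huc⟩ := exists_pcore_central hH1 P
  have huy : u * y = y * u := by
    apply commute_in_nilp (hCN x hx1) (p := p) (i := 1) ?_ ?_ (by rw [huo, pow_one]) hyo
    · rw [mem_cent_singleton]; exact huc x hxP
    · rw [mem_cent_singleton]; exact hxy
  have h1 := cn_fpf_of_unique_pcore hCN hH1 huniq y hy1 hyo
  have h2 : u ∈ Cfsg.pCore p G ⊓ Subgroup.centralizer ({y} : Set G) :=
    ⟨huH, mem_cent_singleton.mpr huy.symm⟩
  rw [h1, Subgroup.mem_bot] at h2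
  exact hu1 h2

/-- no `p'`-element commutes modulo the `p`-core with a `p`-element outside the core -/
theorem cn_no_comm_mod {G : Type u} [Group G] [Finite G] (hCN : Cfsg.IsCNGroup G)
    {p : ℕ} [Fact p.Prime] (hH1 : Cfsg.pCore p G ≠ ⊥)
    (huniq : ∀ q : ℕ, q.Prime → q ≠ p → Cfsg.pCore q G = ⊥)
    (x y : G) (hxH : x ∉ Cfsg.pCore p G) {k : ℕ} (hxo : orderOf x = p ^ k) (hy1 : y ≠ 1)
    (hyo : (orderOf y).Coprime p) : x * y * x⁻¹ * y⁻¹ ∉ Cfsg.pCore p G := by
  classical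
  have hp : p.Prime := Fact.out
  intro hc
  haveI hHn := Lead.pCore_normal p G
  have hHp : IsPGroup p (Cfsg.pCore p G) := Lead.pCore_isPGroup' p
  obtain ⟨j, hj⟩ := IsPGroup.iff_card.mp hHp
  have hcop : (Nat.card (Cfsg.pCore p G)).Coprime (Nat.card (Subgroup.zpowers y)) := by
    rw [hj, Nat.card_zpowers]
    exact Nat.Coprime.pow_left j hyo.symm
  have hdisj : Disjoint (Cfsg.pCore p G) (Subgroup.zpowers y) :=
    Subgroup.disjoint_of_coprime_natCard hcop
  have hK : Subgroup.zpowers (x * y * x⁻¹) ≤ Cfsg.pCore p G ⊔ Subgroup.zpowers y := by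
    rw [Subgroup.zpowers_le]
    have h1 : x * y * x⁻¹ = (x * y * x⁻¹ * y⁻¹) * y := by group
    rw [h1]
    exact Subgroup.mul_mem _ ((le_sup_left : Cfsg.pCore p G ≤ _) hc)
      ((le_sup_right : Subgroup.zpowers y ≤ _) (Subgroup.mem_zpowers y))
  haveI : Group.IsNilpotent (Cfsg.pCore p G) := hHp.isNilpotent
  obtain ⟨n, hn, hconj⟩ := Lead.sz_conj (Cfsg.pCore p G) (Subgroup.zpowers y)
    (Subgroup.zpowers (x * y * x⁻¹))
    (by rw [Subgroup.normalizer_eq_top]; exact le_top) hK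
    (by rw [Nat.card_zpowers, Nat.card_zpowers, orderOf_conj_eq]) hcop
    (Or.inl IsNilpotent.to_isSolvable)
  have hmem : x * y * x⁻¹ ∈ MulAut.conj n • Subgroup.zpowers y := by
    rw [hconj]; exact Subgroup.mem_zpowers _
  rw [Lead.mem_conj_smul] at hmem
  have hw : n⁻¹ * (x * y * x⁻¹) * n * y⁻¹ ∈ Cfsg.pCore p G := by
    have h1 : n⁻¹ * (x * y * x⁻¹) * n * y⁻¹ = n⁻¹ * (x * y * x⁻¹ * y⁻¹) * (y * n * y⁻¹) := by group
    rw [h1]
    exact Subgroup.mul_mem _ (Subgroup.mul_mem _ (Subgroup.inv_mem _ hn) hc)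
      (hHn.conj_mem n hn y)
  have hw' : n⁻¹ * (x * y * x⁻¹) * n * y⁻¹ ∈ Subgroup.zpowers y :=
    Subgroup.mul_mem _ hmem (Subgroup.inv_mem _ (Subgroup.mem_zpowers y))
  have hw1 : n⁻¹ * (x * y * x⁻¹) * n * y⁻¹ = 1 := Subgroup.disjoint_def.mp hdisj hw hw'
  have hcomm : (n⁻¹ * x) * y = y * (n⁻¹ * x) := by
    have h1 : n⁻¹ * (x * y * x⁻¹) * n = y := by
      have := mul_inv_eq_one.mp hw1
      exact this
    calc (n⁻¹ * x) * y = (n⁻¹ * (x * y * x⁻¹) * n) * (n⁻¹ * x) := by group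
      _ = y * (n⁻¹ * x) := by rw [h1]
  have hx'1 : n⁻¹ * x ≠ 1 := by
    intro h
    apply hxH
    have h2 : x = n := by
      have := inv_mul_eq_one.mp h
      exact this.symm
    rw [h2]; exact hn
  have hxp : IsPGroup p (Subgroup.zpowers x) :=
    IsPGroup.of_card (n := k) (by rw [Nat.card_zpowers, hxo])
  have hsup : IsPGroup p (Cfsg.pCore p G ⊔ Subgroup.zpowers x : Subgroup G) :=
    IsPGroup.to_sup_of_normal_left hHp hxp
  have hx'mem : n⁻¹ * x ∈ (Cfsg.pCore p G ⊔ Subgroup.zpowers x : Subgroup G) :=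
    Subgroup.mul_mem _ ((le_sup_left : Cfsg.pCore p G ≤ _) (Subgroup.inv_mem _ hn))
      ((le_sup_right : Subgroup.zpowers x ≤ _) (Subgroup.mem_zpowers x))
  obtain ⟨k', hk'⟩ := (IsPGroup.iff_orderOf.mp hsup) ⟨n⁻¹ * x, hx'mem⟩
  rw [Subgroup.orderOf_mk] at hk'
  exact cn_no_comm hCN hH1 huniq (n⁻¹ * x) y hx'1 hk' hy1 hyo hcomm

end Cfsg.Agent.Lib.Helper6
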