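import Mathlib
import Cfsg.Agent.Lib.Helper6.CN1
import Cfsg.Agent.Lib.Lead.FrobComplSylow
import Cfsg.Agent.S0058
import Cfsg.Agent.S0092

set_option autoImplicit false

namespace Cfsg.Agent.Lib.Helper6

open Cfsg.Agent.S1473 Cfsg.Agent.S1477 Cfsg.Agent.S1474
open scoped Pointwise

universe u

/-- `fittingHall` is nilpotent in a CN-group with a nontrivial normal Sylow subgroup -/
theorem fittingHall_nilp {G : Type u} [Group G] [Finite G] (hCN : Cfsg.IsCNGroup G) (p : ℕ)
    [Fact p.Prime] (P : Sylow p G) (hP1 : (P : Subgroup G) ≠ ⊥) (hPn : (P : Subgroup G).Normal) :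
    Group.IsNilpotent (Cfsg.fittingHall G) := by
  classical
  have hp : p.Prime := Fact.out
  haveI := hPn
  have hPH : (P : Subgroup G) ≤ Cfsg.fittingHall G :=
    le_sSup ⟨hPn, P.isPGroup'.isNilpotent, P.card_coprime_index⟩
  obtain ⟨z, hzP, hz1, hzc⟩ := exists_central_of_sylow P hP1
  obtain ⟨iz, hiz⟩ := orderOf_mem_sylow P hzP
  have hHT : Cfsg.fittingHall G ≤ Subgroup.centralizer ({z} : Set G) := by
    apply sSup_le
    rintro N ⟨hNn, hNnil, hNcop⟩
    intro n hn
    rw [mem_cent_singleton]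
    by_cases hpN : p ∣ Nat.card N
    · have hpi : ¬ p ∣ N.index := by
        intro h
        exact (Nat.Prime.not_coprime_iff_dvd.mpr ⟨p, hp, hpN, h⟩) hNcop
      have hPN : (P : Subgroup G) ≤ N := by
        intro x hx
        obtain ⟨i, hi⟩ := orderOf_mem_sylow P hx
        haveI := hNn
        have h1 : x ^ N.index ∈ N := Subgroup.pow_index_mem N x
        have h2 : x ^ (p ^ i) ∈ N := by rw [← hi, pow_orderOf_eq_one]; exact N.one_mem
        exact mem_of_pow_mem_of_coprime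
          (Nat.Coprime.pow_right i ((Nat.Prime.coprime_iff_not_dvd hp).mpr hpi).symm) h1 h2
      obtain ⟨a, b, hab, haz, hbz, ⟨k, hak⟩, hbq⟩ := exists_p_decomp' p hp n
      have haN : a ∈ N := (Subgroup.zpowers_le.mpr hn) haz
      have hbN : b ∈ N := (Subgroup.zpowers_le.mpr hn) hbz
      have h1 : a * z = z * a := hzc a (mem_sylow_of_normal_of_orderOf P hPn a k hak)
      have h2 : z * b = b * z := commute_in_nilp hNnil (p := p) (hPN hzP) hbN hiz hbq
      rw [← hab]
      calc z * (a * b) = (z * a) * b := by group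
        _ = (a * z) * b := by rw [h1]
        _ = a * (z * b) := by group
        _ = a * (b * z) := by rw [h2]
        _ = a * b * z := by group
    · have hdisj : Disjoint N (P : Subgroup G) := by
        apply Subgroup.disjoint_of_coprime_natCard
        rw [P.card_eq_multiplicity]
        exact Nat.Coprime.pow_right _ ((Nat.Prime.coprime_iff_not_dvd hp).mpr hpN).symm
      exact (Subgroup.commute_of_normal_of_disjoint N P hNn hPn hdisj n z hn hzP).eq.symm
  exact nilp_of_le (hCN z hz1) hHT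

/-- the quotient by the `p`-core has trivial `p`-core -/
theorem pcore_quot_bot {G : Type u} [Group G] [Finite G] {p : ℕ} [Fact p.Prime] (H : Subgroup G)
    [H.Normal] (hH : H = Cfsg.pCore p G) : Cfsg.pCore p (G ⧸ H) = ⊥ := by
  have hHp : IsPGroup p H := by rw [hH]; exact Lead.pCore_isPGroup' p
  rw [eq_bot_iff]
  apply sSup_le
  rintro N ⟨hNn, hNp⟩
  have h1 : N.comap (QuotientGroup.mk' H) ≤ Cfsg.pCore p G := by
    apply le_sSup
    refine ⟨hNn.comap _, ?_⟩
    rintro ⟨g, hg⟩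
    obtain ⟨k, hk⟩ := hNp ⟨QuotientGroup.mk' H g, hg⟩
    have h2 : (QuotientGroup.mk' H g) ^ (p ^ k) = 1 := congrArg Subtype.val hk
    have h3 : g ^ (p ^ k) ∈ H := by
      rw [← QuotientGroup.eq_one_iff]
      show QuotientGroup.mk' H (g ^ (p ^ k)) = 1
      rw [map_pow]; exact h2
    obtain ⟨j, hj⟩ := hHp ⟨g ^ (p ^ k), h3⟩
    refine ⟨k + j, ?_⟩
    apply Subtype.ext
    have h4 : (g ^ (p ^ k)) ^ (p ^ j) = 1 := congrArg Subtype.val hj
    rw [← pow_mul, ← pow_add] at h4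
    exact h4
  intro x hx
  obtain ⟨g, rfl⟩ := QuotientGroup.mk'_surjective H x
  have h2 : g ∈ H := by rw [hH]; exact h1 hx
  rw [Subgroup.mem_bot]
  exact (QuotientGroup.eq_one_iff g).mpr h2

/-- lifting an `r`-subgroup of `G ⧸ H` when `r ∤ |H|` -/
theorem exists_lift_coprime {G : Type u} [Group G] [Finite G] {r : ℕ} [Fact r.Prime]
    (H : Subgroup G) [H.Normal] (hr : ¬ r ∣ Nat.card H) (B : Subgroup (G ⧸ H))
    (hB : IsPGroup r B) :
    ∃ B₀ : Subgroup G, IsPGroup r B₀ ∧ B₀.map (QuotientGroup.mk' H) = B ∧ B₀ ⊓ H = ⊥ := by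
  classical
  have hrp : r.Prime := Fact.out
  obtain ⟨b, hb⟩ := IsPGroup.iff_card.mp hB
  obtain ⟨L, hLdef⟩ : ∃ L : Subgroup G, L = B.comap (QuotientGroup.mk' H) := ⟨_, rfl⟩
  have hLcard : Nat.card L = Nat.card H * r ^ b := by
    rw [hLdef, Lead.card_comap_mk H B, hb]
  obtain ⟨S⟩ : Nonempty (Sylow r L) := inferInstance
  have hScard : Nat.card (S : Subgroup L) = r ^ b := by
    rw [S.card_eq_multiplicity, hLcard,
      Nat.factorization_mul Nat.card_pos.ne' (pow_ne_zero _ hrp.ne_zero), Finsupp.add_apply,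
      Nat.factorization_eq_zero_of_not_dvd hr, zero_add, Nat.Prime.factorization_pow hrp,
      Finsupp.single_eq_same]
  have hB₀card : Nat.card ((S : Subgroup L).map L.subtype) = r ^ b := by
    rw [← hScard]
    exact (Nat.card_congr (Subgroup.equivMapOfInjective _ L.subtype L.subtype_injective).toEquiv).symm
  have hdisj : (S : Subgroup L).map L.subtype ⊓ H = ⊥ := by
    apply (Subgroup.disjoint_of_coprime_natCard ?_).eq_bot
    rw [hB₀card]
    exact Nat.Coprime.pow_left b ((Nat.Prime.coprime_iff_not_dvd hrp).mpr hr)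
  have hle : ((S : Subgroup L).map L.subtype).map (QuotientGroup.mk' H) ≤ B := by
    rintro _ ⟨_, ⟨s, -, rfl⟩, rfl⟩
    have hLle : L ≤ B.comap (QuotientGroup.mk' H) := by rw [hLdef]
    exact hLle s.2
  have hinj : Function.Injective
      ((QuotientGroup.mk' H).comp ((S : Subgroup L).map L.subtype).subtype) := by
    rw [injective_iff_map_eq_one]
    intro x hx
    have h1 : (x : G) ∈ H := (QuotientGroup.eq_one_iff (x : G)).mp hx
    have h2 : (x : G) ∈ (S : Subgroup L).map L.subtype ⊓ H := ⟨x.2, h1⟩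
    rw [hdisj, Subgroup.mem_bot] at h2
    exact Subtype.ext h2
  have hcard2 : Nat.card (((S : Subgroup L).map L.subtype).map (QuotientGroup.mk' H)) = r ^ b := by
    rw [← hB₀card]
    have h1 := Nat.card_congr (MonoidHom.ofInjective hinj).toEquiv
    rw [h1, MonoidHom.range_comp, Subgroup.range_subtype]
  refine ⟨(S : Subgroup L).map L.subtype, S.isPGroup'.map _, ?_, hdisj⟩
  exact Subgroup.eq_of_le_of_card_ge hle (by rw [hcard2, hb])

/-- a commutative subgroup acting fixed-point-freely and coprimely is cyclic -/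
theorem fpf_comm_cyclic {G : Type u} [Group G] [Finite G] (H A : Subgroup G) [H.Normal]
    (hH1 : H ≠ ⊥) (hfpf : ∀ a ∈ A, a ≠ 1 → H ⊓ Subgroup.centralizer ({a} : Set G) = ⊥)
    (hcop : (Nat.card A).Coprime (Nat.card H)) (hcomm : ∀ x ∈ A, ∀ y ∈ A, x * y = y * x) :
    IsCyclic A := by
  haveI : IsMulCommutative A := ⟨⟨fun a b => Subtype.ext (hcomm a a.2 b b.2)⟩⟩
  by_contra hnc
  have h58 := Cfsg.Agent.S0058.result A H hnc
    (by rw [Subgroup.normalizer_eq_top]; exact le_top) hcop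
  apply hH1
  rw [← h58]
  simp only [iSup_eq_bot]
  intro a ha
  exact hfpf a ha.1 ha.2

/-- a nilpotent subgroup of odd order acting fixed-point-freely is cyclic -/
theorem fpf_nilp_odd_cyclic {G : Type u} [Group G] [Finite G] (H A : Subgroup G) [H.Normal]
    (hH1 : H ≠ ⊥) (hfpf : ∀ a ∈ A, a ≠ 1 → H ⊓ Subgroup.centralizer ({a} : Set G) = ⊥)
    (hcop : (Nat.card A).Coprime (Nat.card H)) (hnil : Group.IsNilpotent A)
    (hodd : Odd (Nat.card A)) : IsCyclic A := by
  classical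
  have hcyc : ∀ (q : ℕ) [Fact q.Prime] (Q : Sylow q A), IsCyclic (Q : Subgroup A) := by
    intro q _ Q
    rcases Lead.frob_compl_sylow H A hH1 hfpf q Q with h | ⟨n, ⟨e⟩⟩
    · exact h
    · exfalso
      have h1 : Nat.card (Q : Subgroup A) = 4 * 2 ^ n := by
        rw [Nat.card_congr e.toEquiv, Nat.card_eq_fintype_card, QuaternionGroup.card]
      have h2 : Nat.card (Q : Subgroup A) ∣ Nat.card A := Subgroup.card_subgroup_dvd_card _
      have h3 : 2 ∣ Nat.card A := by
        apply Dvd.dvd.trans _ h2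
        rw [h1]
        exact ⟨2 * 2 ^ n, by ring⟩
      exact (Nat.not_even_iff_odd.mpr hodd) (even_iff_two_dvd.mpr h3)
  obtain ⟨e⟩ := ((Group.isNilpotent_of_finite_tfae (G := A)).out 0 4).mp hnil
  have hc : ∀ x y : A, x * y = y * x := by
    intro x y
    apply e.symm.injective
    rw [map_mul, map_mul]
    funext q Q
    haveI : Fact (q : ℕ).Prime := ⟨Nat.prime_of_mem_primeFactors q.2⟩
    haveI := hcyc q Q
    exact (IsCyclic.commGroup (α := ↥(Q : Subgroup A))).mul_comm _ _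
  exact fpf_comm_cyclic H A hH1 hfpf hcop
    (fun x hx y hy => congrArg Subtype.val (hc ⟨x, hx⟩ ⟨y, hy⟩))

/-- an involution acting fixed-point-freely inverts -/
theorem invol_inverts {G : Type u} [Group G] [Finite G] (H : Subgroup G) [hHn : H.Normal] (t : G)
    (ht : t * t = 1) (hfpf : H ⊓ Subgroup.centralizer ({t} : Set G) = ⊥) :
    ∀ g ∈ H, t * g * t⁻¹ = g⁻¹ := by
  have hti : t⁻¹ = t := inv_eq_of_mul_eq_one_right ht
  let φ : H → H := fun h => ⟨(h : G)⁻¹ * (t * (h : G) * t⁻¹),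
    H.mul_mem (H.inv_mem h.2) (hHn.conj_mem _ h.2 t)⟩
  have hinj : Function.Injective φ := by
    intro h k hhk
    have heq : (h : G)⁻¹ * (t * (h : G) * t⁻¹) = (k : G)⁻¹ * (t * (k : G) * t⁻¹) :=
      congrArg Subtype.val hhk
    have h1 : t * ((k : G) * (h : G)⁻¹) = ((k : G) * (h : G)⁻¹) * t := by
      calc t * ((k : G) * (h : G)⁻¹) = (k : G) * ((k : G)⁻¹ * (t * (k : G) * t⁻¹)) * t * (h : G)⁻¹ := by
            group
        _ = (k : G) * ((h : G)⁻¹ * (t * (h : G) * t⁻¹)) * t * (h : G)⁻¹ := by rw [heq]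
        _ = ((k : G) * (h : G)⁻¹) * t := by group
    have h2 : (k : G) * (h : G)⁻¹ ∈ H ⊓ Subgroup.centralizer ({t} : Set G) :=
      ⟨H.mul_mem k.2 (H.inv_mem h.2), mem_cent_singleton.mpr h1⟩
    rw [hfpf, Subgroup.mem_bot] at h2
    apply Subtype.ext
    exact (mul_inv_eq_one.mp h2).symm
  have hsurj : Function.Surjective φ := Finite.surjective_of_injective hinj
  intro g hg
  obtain ⟨h, hh⟩ := hsurj ⟨g, hg⟩
  have hgeq : g = (h : G)⁻¹ * (t * (h : G) * t⁻¹) := (congrArg Subtype.val hh).symm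
  rw [hgeq, hti]
  have h1 : t * ((h : G)⁻¹ * (t * (h : G) * t)) * t = t * (h : G)⁻¹ * t * (h : G) * (t * t) := by group
  have h2 : ((h : G)⁻¹ * (t * (h : G) * t))⁻¹ = t⁻¹ * (h : G)⁻¹ * t⁻¹ * (h : G) := by group
  rw [h1, h2, ht, hti, mul_one]

/-- abelian `r`-subgroups of the quotient by the `p`-core are cyclic (`r ≠ p`) -/
theorem abelian_rsub_quot_cyclic {G : Type u} [Group G] [Finite G] {p r : ℕ} [Fact p.Prime]
    [Fact r.Prime] (hrp : r ≠ p) (H : Subgroup G) [H.Normal] (hH1 : H ≠ ⊥) (hHp : IsPGroup p H)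
    (hfpf : ∀ a : G, a ≠ 1 → (orderOf a).Coprime p →
      H ⊓ Subgroup.centralizer ({a} : Set G) = ⊥)
    (B : Subgroup (G ⧸ H)) (hB : IsPGroup r B) (hBc : ∀ x ∈ B, ∀ y ∈ B, x * y = y * x) :
    IsCyclic B := by
  classical
  have hp : p.Prime := Fact.out
  have hr : r.Prime := Fact.out
  obtain ⟨m, hm⟩ := IsPGroup.iff_card.mp hHp
  have hrH : ¬ r ∣ Nat.card H := by
    rw [hm]
    intro h
    exact hrp ((Nat.prime_dvd_prime_iff_eq hr hp).mp (hr.dvd_of_dvd_pow h))
  obtain ⟨B₀, hB₀p, rfl, hdisj⟩ := exists_lift_coprime H hrH B hB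
  have hcomm : ∀ x ∈ B₀, ∀ y ∈ B₀, x * y = y * x := by
    intro x hx y hy
    have h1 := hBc _ (Subgroup.mem_map_of_mem _ hx) _ (Subgroup.mem_map_of_mem _ hy)
    have h2 : x * y * x⁻¹ * y⁻¹ ∈ H := by
      rw [← QuotientGroup.eq_one_iff]
      show QuotientGroup.mk' H (x * y * x⁻¹ * y⁻¹) = 1
      rw [map_mul, map_mul, map_mul, map_inv, map_inv, h1]; group
    have h3 : x * y * x⁻¹ * y⁻¹ ∈ B₀ ⊓ H :=
      ⟨B₀.mul_mem (B₀.mul_mem (B₀.mul_mem hx hy) (B₀.inv_mem hx)) (B₀.inv_mem hy), h2⟩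
    rw [hdisj, Subgroup.mem_bot] at h3
    exact mul_inv_eq_iff_eq_mul.mp (mul_inv_eq_one.mp h3)
  obtain ⟨b, hb⟩ := IsPGroup.iff_card.mp hB₀p
  have hcyc : IsCyclic B₀ := by
    apply fpf_comm_cyclic H B₀ hH1 ?_ ?_ hcomm
    · intro a ha ha1
      obtain ⟨i, hi⟩ := (IsPGroup.iff_orderOf.mp hB₀p) ⟨a, ha⟩
      rw [Subgroup.orderOf_mk] at hi
      apply hfpf a ha1
      rw [hi]
      exact Nat.Coprime.pow_left i ((Nat.coprime_primes hr hp).mpr hrp)
    · rw [hb, hm]
      exact Nat.Coprime.pow _ _ ((Nat.coprime_primes hr hp).mpr hrp)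
  exact isCyclic_of_surjective ((QuotientGroup.mk' H).subgroupMap B₀)
    (MonoidHom.subgroupMap_surjective _ _)

end Cfsg.Agent.Lib.Helper6
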