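import Mathlib
import Cfsg.Agent.Lib.Helper6.CN2

set_option autoImplicit false

namespace Cfsg.Agent.Lib.Helper6

open Cfsg.Agent.S1473 Cfsg.Agent.S1477 Cfsg.Agent.S1474
open scoped Pointwise

universe u

/-- the quotient of a solvable CN-group by its unique nontrivial core has a nontrivial normal
Sylow subgroup -/
theorem cn_quot_normal_sylow {G : Type u} [Group G] [Finite G] [Group.IsSolvable G]
    (hCN : Cfsg.IsCNGroup G) {p : ℕ} [Fact p.Prime] (H : Subgroup G) [H.Normal]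
    (hH : H = Cfsg.pCore p G) (hH1 : H ≠ ⊥)
    (huniq : ∀ q : ℕ, q.Prime → q ≠ p → Cfsg.pCore q G = ⊥) (hHtop : H ≠ ⊤) :
    ∃ (r : ℕ) (_ : Fact r.Prime) (R : Sylow r (G ⧸ H)),
      (R : Subgroup (G ⧸ H)) ≠ ⊥ ∧ (R : Subgroup (G ⧸ H)).Normal := by
  classical
  have hp : p.Prime := Fact.out
  have hHp : IsPGroup p H := by rw [hH]; exact Lead.pCore_isPGroup' p
  have hfpf : ∀ a : G, a ≠ 1 → (orderOf a).Coprime p →
      H ⊓ Subgroup.centralizer ({a} : Set G) = ⊥ := by
    intro a ha1 hap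
    rw [hH]
    exact cn_fpf_of_unique_pcore hCN (by rw [← hH]; exact hH1) huniq a ha1 hap
  have hCN' : Cfsg.IsCNGroup (G ⧸ H) := Cfsg.Agent.S1473.result hCN H inferInstance
  haveI : Nontrivial (G ⧸ H) := by
    obtain ⟨g, hg⟩ : ∃ g : G, g ∉ H := by
      by_contra hcon
      apply hHtop
      rw [eq_top_iff]
      intro g _
      by_contra hg
      exact hcon ⟨g, hg⟩
    exact nontrivial_of_ne (QuotientGroup.mk' H g) 1
      (fun h => hg ((QuotientGroup.eq_one_iff g).mp h))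
  rcases cn_case_split hCN' with h | ⟨r, hr, hr1, -⟩
  · exact h
  haveI : Fact r.Prime := ⟨hr⟩
  have hrp : r ≠ p := by
    rintro rfl
    exact hr1 (pcore_quot_bot H hH)
  obtain ⟨S⟩ : Nonempty (Sylow r (G ⧸ H)) := inferInstance
  obtain ⟨z, hzN, hz1, hzo, hzc⟩ := exists_pcore_central hr1 S
  have hNS : Cfsg.pCore r (G ⧸ H) ≤ (S : Subgroup (G ⧸ H)) := Lead.pCore_le_sylow' S
  have hzS : z ∈ (S : Subgroup (G ⧸ H)) := hNS hzN
  have hab : ∀ B : Subgroup (S : Subgroup (G ⧸ H)), IsMulCommutative B → IsCyclic B := by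
    intro B hBc
    have hι : Function.Injective (S : Subgroup (G ⧸ H)).subtype := Subgroup.subtype_injective _
    have h1 : IsCyclic (B.map (S : Subgroup (G ⧸ H)).subtype) := by
      apply abelian_rsub_quot_cyclic hrp H hH1 hHp hfpf
      · exact (S.isPGroup'.to_subgroup B).map _
      · rintro _ ⟨b₁, hb₁, rfl⟩ _ ⟨b₂, hb₂, rfl⟩
        have h := hBc.is_comm.comm ⟨b₁, hb₁⟩ ⟨b₂, hb₂⟩
        have h' : b₁ * b₂ = b₂ * b₁ := congrArg Subtype.val h
        exact congrArg Subtype.val h'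
    exact isCyclic_of_surjective (B.equivMapOfInjective _ hι).symm (MulEquiv.surjective _)
  have huq := Lead.uniq_order_p_of_abelian_cyclic S.isPGroup' hab
  have key : ∀ w ∈ (S : Subgroup (G ⧸ H)), orderOf w = r → w ∈ Subgroup.zpowers z := by
    intro w hw hwo
    have hX : Nat.card ((Subgroup.zpowers w).subgroupOf (S : Subgroup (G ⧸ H))) = r := by
      rw [Lead.card_subgroupOf_of_le (Subgroup.zpowers_le.mpr hw), Nat.card_zpowers, hwo]
    have hY : Nat.card ((Subgroup.zpowers z).subgroupOf (S : Subgroup (G ⧸ H))) = r := by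
      rw [Lead.card_subgroupOf_of_le (Subgroup.zpowers_le.mpr hzS), Nat.card_zpowers, hzo]
    have hXY := huq _ _ hX hY
    have h1 : (⟨w, hw⟩ : (S : Subgroup (G ⧸ H))) ∈
        (Subgroup.zpowers w).subgroupOf (S : Subgroup (G ⧸ H)) := by
      rw [Subgroup.mem_subgroupOf]; exact Subgroup.mem_zpowers w
    rw [hXY, Subgroup.mem_subgroupOf] at h1
    exact h1
  haveI hNn := Lead.pCore_normal r (G ⧸ H)
  have hZn : (Subgroup.zpowers z).Normal := by
    refine ⟨fun n hn g => ?_⟩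
    obtain ⟨k, rfl⟩ := Subgroup.mem_zpowers_iff.mp hn
    have h1 : g * z ^ k * g⁻¹ = (g * z * g⁻¹) ^ k := (conj_zpow).symm
    rw [h1]
    apply Subgroup.zpow_mem
    apply key
    · exact hNS (hNn.conj_mem z hzN g)
    · rw [orderOf_conj_eq]; exact hzo
  haveI := hZn
  haveI hDn : (Subgroup.centralizer ((Subgroup.zpowers z : Subgroup (G ⧸ H)) : Set (G ⧸ H))).Normal :=
    Subgroup.normal_centralizer
  have hDnil : Group.IsNilpotent
      (Subgroup.centralizer ((Subgroup.zpowers z : Subgroup (G ⧸ H)) : Set (G ⧸ H))) := by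
    apply nilp_of_le (hCN' z hz1)
    intro d hd
    rw [mem_cent_singleton]
    exact Subgroup.mem_centralizer_iff.mp hd z (Subgroup.mem_zpowers z)
  have hSD : (S : Subgroup (G ⧸ H)) ≤
      Subgroup.centralizer ((Subgroup.zpowers z : Subgroup (G ⧸ H)) : Set (G ⧸ H)) := by
    intro x hx
    rw [Subgroup.mem_centralizer_iff]
    intro h hh
    obtain ⟨k, rfl⟩ := Subgroup.mem_zpowers_iff.mp hh
    exact ((show Commute z x from (hzc x hx).symm).zpow_left k).eq
  refine ⟨r, ⟨hr⟩, S, ?_, sylow_normal_of_le_nilp S _ hDnil hSD⟩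
  intro h
  apply hr1
  rw [eq_bot_iff, ← h]
  exact hNS

/-- a nontrivial solvable CN-group without nontrivial normal Sylow subgroups is a three-step
group -/
theorem cn_three_step {G : Type u} [Group G] [Finite G] [Group.IsSolvable G] [Nontrivial G]
    (hCN : Cfsg.IsCNGroup G)
    (hns : ∀ (q : ℕ) [Fact q.Prime] (Q : Sylow q G), (Q : Subgroup G).Normal →
      (Q : Subgroup G) = ⊥) :
    ∃ p : ℕ, p.Prime ∧ Cfsg.IsThreeStepGroup p G ∧
      (∀ q : ℕ, q.Prime → q ≠ p → Cfsg.pCore q G = ⊥) := by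
  classical
  rcases cn_case_split hCN with ⟨q, hq, Q, hQ1, hQn⟩ | ⟨p, hp, hH1, huniq⟩
  · exact absurd (hns q Q hQn) hQ1
  haveI : Fact p.Prime := ⟨hp⟩
  refine ⟨p, hp, ?_, huniq⟩
  obtain ⟨H, hHdef⟩ : ∃ H : Subgroup G, H = Cfsg.pCore p G := ⟨_, rfl⟩
  haveI hHn : H.Normal := by rw [hHdef]; exact Lead.pCore_normal p G
  have hHp : IsPGroup p H := by rw [hHdef]; exact Lead.pCore_isPGroup' p
  have hH1' : H ≠ ⊥ := by rw [hHdef]; exact hH1
  obtain ⟨m, hm⟩ := IsPGroup.iff_card.mp hHp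
  have hfpf : ∀ a : G, a ≠ 1 → (orderOf a).Coprime p →
      H ⊓ Subgroup.centralizer ({a} : Set G) = ⊥ := by
    intro a ha1 hap; rw [hHdef]; exact cn_fpf_of_unique_pcore hCN hH1 huniq a ha1 hap
  have hncm : ∀ (x y : G), x ∉ H → ∀ k : ℕ, orderOf x = p ^ k → y ≠ 1 → (orderOf y).Coprime p →
      x * y * x⁻¹ * y⁻¹ ∉ H := by
    intro x y hxH k hk hy1 hyo
    rw [hHdef]
    exact cn_no_comm_mod hCN hH1 huniq x y (by rw [← hHdef]; exact hxH) hk hy1 hyo
  have hcentH : Subgroup.centralizer (H : Set G) ≤ H := by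
    rw [hHdef]; exact cn_centralizer_pcore_le hCN hH1 huniq
  obtain ⟨P⟩ : Nonempty (Sylow p G) := inferInstance
  have hHP : H ≤ (P : Subgroup G) := by rw [hHdef]; exact Lead.pCore_le_sylow' P
  obtain ⟨x₀, hx₀P, hx₀H⟩ : ∃ x ∈ (P : Subgroup G), x ∉ H := by
    by_contra hcon
    have hPH : (P : Subgroup G) = H :=
      le_antisymm (fun x hx => by
        by_contra hxH
        exact hcon ⟨x, hx, hxH⟩) hHP
    have hPn : (P : Subgroup G).Normal := by rw [hPH]; exact hHn
    have h0 := hns p P hPn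
    rw [hPH] at h0
    exact hH1' h0
  obtain ⟨k₀, hk₀⟩ := orderOf_mem_sylow P hx₀P
  have hHtop : H ≠ ⊤ := fun h => hx₀H (by rw [h]; exact Subgroup.mem_top _)
  have hCN' : Cfsg.IsCNGroup (G ⧸ H) := Cfsg.Agent.S1473.result hCN H inferInstance
  obtain ⟨r, hrF, R, hR1, hRn⟩ := cn_quot_normal_sylow hCN H hHdef hH1' huniq hHtop
  haveI := hrF
  have hpc : Cfsg.pCore p (G ⧸ H) = ⊥ := pcore_quot_bot H hHdef
  have hπx₀ : (QuotientGroup.mk' H x₀) ≠ 1 :=
    fun h => hx₀H ((QuotientGroup.eq_one_iff x₀).mp h)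
  have hpdvd : p ∣ Nat.card (G ⧸ H) := by
    have h1 : orderOf (QuotientGroup.mk' H x₀) ∣ p ^ k₀ := by
      rw [← hk₀]; exact orderOf_map_dvd _ x₀
    obtain ⟨i, -, hi⟩ := (Nat.dvd_prime_pow hp).mp h1
    have hi0 : i ≠ 0 := by
      rintro rfl
      rw [pow_zero, orderOf_eq_one_iff] at hi
      exact hπx₀ hi
    have h2 : p ∣ orderOf (QuotientGroup.mk' H x₀) := by rw [hi]; exact dvd_pow_self p hi0
    exact h2.trans (orderOf_dvd_natCard _)
  have hnn : ¬ Group.IsNilpotent (G ⧸ H) := by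
    intro hnil
    obtain ⟨P'⟩ : Nonempty (Sylow p (G ⧸ H)) := inferInstance
    have hsyl := ((Group.isNilpotent_of_finite_tfae (G := G ⧸ H)).out 0 3).mp hnil
    have hP'n : (P' : Subgroup (G ⧸ H)).Normal := hsyl p inferInstance P'
    have hle : (P' : Subgroup (G ⧸ H)) ≤ Cfsg.pCore p (G ⧸ H) := le_sSup ⟨hP'n, P'.isPGroup'⟩
    rw [hpc, le_bot_iff] at hle
    exact P'.ne_bot_of_dvd_card hpdvd hle
  obtain ⟨hF1, hFtop, ⟨E, hcompl, hfrob, hEfpf⟩, hquot⟩ :=
    Cfsg.Agent.S1474.result hCN' hnn r R hR1 hRn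
  have hFnil : Group.IsNilpotent (Cfsg.fittingHall (G ⧸ H)) := fittingHall_nilp hCN' r R hR1 hRn
  obtain ⟨F, hFdef⟩ : ∃ F : Subgroup (G ⧸ H), F = Cfsg.fittingHall (G ⧸ H) := ⟨_, rfl⟩
  rw [← hFdef] at hF1 hFtop hcompl hEfpf hFnil
  haveI hFn : F.Normal := by rw [hFdef]; infer_instance
  have hquot' : Group.IsNilpotent ((G ⧸ H) ⧸ F) := by
    subst hFdef; exact hquot
  have hpF : ¬ p ∣ Nat.card F := by
    intro hdvd
    haveI := hFnil
    obtain ⟨S⟩ : Nonempty (Sylow p F) := inferInstance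
    have hS1 : (S : Subgroup F) ≠ ⊥ := S.ne_bot_of_dvd_card hdvd
    have hSn := Lead.sylow_map_normal_of_nilpotent F p S
    have hle : (S : Subgroup F).map F.subtype ≤ Cfsg.pCore p (G ⧸ H) :=
      le_sSup ⟨hSn, S.isPGroup'.map _⟩
    rw [hpc, le_bot_iff, Subgroup.map_eq_bot_iff_of_injective _ (Subgroup.subtype_injective _)]
      at hle
    exact hS1 hle
  have hEcard : Nat.card E = F.index := hcompl.symm.index_eq_card.symm
  have hcardG : Nat.card F * Nat.card E = Nat.card (G ⧸ H) := by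
    rw [hEcard]; exact Subgroup.card_mul_index F
  have hpE : p ∣ Nat.card E := by
    have h1 : p ∣ Nat.card F * Nat.card E := by rw [hcardG]; exact hpdvd
    rcases (Nat.Prime.dvd_mul hp).mp h1 with h | h
    · exact absurd h hpF
    · exact h
  have hEel : ∀ e ∈ E, ∃ k : ℕ, orderOf e = p ^ k := by
    intro e heE
    by_contra hnp
    have hn0 : orderOf e ≠ 0 := (orderOf_pos e).ne'
    obtain ⟨d, hd, hdd, hdp⟩ : ∃ d : ℕ, d.Prime ∧ d ∣ orderOf e ∧ d ≠ p := by
      by_contra hcon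
      apply hnp
      refine ⟨(orderOf e).primeFactorsList.length, Nat.eq_prime_pow_of_unique_prime_dvd hn0 ?_⟩
      intro d hd hdd
      by_contra hdp
      exact hcon ⟨d, hd, hdd, hdp⟩
    obtain ⟨e', he'E, he'o⟩ : ∃ e' ∈ E, orderOf e' = d := by
      refine ⟨e ^ (orderOf e / d), E.pow_mem heE _, ?_⟩
      rw [orderOf_pow_of_dvd ?_ (Nat.div_dvd_of_dvd hdd), Nat.div_div_self hdd hn0]
      exact (Nat.div_pos (Nat.le_of_dvd (orderOf_pos e) hdd) hd.pos).ne'
    obtain ⟨⟨b, hbE⟩, hbo⟩ := exists_prime_orderOf_dvd_card' p hpE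
    have hbo' : orderOf b = p := by rw [← Subgroup.orderOf_mk b hbE]; exact hbo
    have hcomm : b * e' = e' * b := by
      have hT : Group.IsNilpotent (⊤ : Subgroup ((G ⧸ H) ⧸ F)) := by
        haveI := hquot'
        exact Group.nilpotent_of_mulEquiv Subgroup.topEquiv.symm
      have h1 : (QuotientGroup.mk' F b) * (QuotientGroup.mk' F e') =
          (QuotientGroup.mk' F e') * (QuotientGroup.mk' F b) := by
        have hob : orderOf (QuotientGroup.mk' F b) ∣ p ^ 1 := by
          rw [pow_one, ← hbo']; exact orderOf_map_dvd _ b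
        obtain ⟨i, -, hi⟩ := (Nat.dvd_prime_pow hp).mp hob
        have hoe : (orderOf (QuotientGroup.mk' F e')).Coprime p := by
          apply Nat.Coprime.coprime_dvd_left (orderOf_map_dvd _ e')
          rw [he'o]; exact (Nat.coprime_primes hd hp).mpr hdp
        exact commute_in_nilp hT (p := p) (Subgroup.mem_top _) (Subgroup.mem_top _) hi hoe
      have h2 : b * e' * b⁻¹ * e'⁻¹ ∈ F := by
        rw [← QuotientGroup.eq_one_iff]
        show QuotientGroup.mk' F (b * e' * b⁻¹ * e'⁻¹) = 1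
        rw [map_mul, map_mul, map_mul, map_inv, map_inv, h1]; group
      have h3 : b * e' * b⁻¹ * e'⁻¹ ∈ E :=
        E.mul_mem (E.mul_mem (E.mul_mem hbE he'E) (E.inv_mem hbE)) (E.inv_mem he'E)
      have h4 := Subgroup.disjoint_def.mp hcompl.disjoint h2 h3
      exact mul_inv_eq_iff_eq_mul.mp (mul_inv_eq_one.mp h4)
    obtain ⟨x, rfl⟩ := QuotientGroup.mk'_surjective H b
    obtain ⟨y₀, rfl⟩ := QuotientGroup.mk'_surjective H e'
    have hxH : x ∉ H := by
      intro h
      have h0 : QuotientGroup.mk' H x = 1 := (QuotientGroup.eq_one_iff x).mpr h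
      rw [h0, orderOf_one] at hbo'
      exact hp.one_lt.ne hbo'
    have hxp : x ^ p ∈ H := by
      rw [← QuotientGroup.eq_one_iff]
      show QuotientGroup.mk' H (x ^ p) = 1
      rw [map_pow, ← hbo']; exact pow_orderOf_eq_one _
    obtain ⟨jx, hjx⟩ : ∃ j : ℕ, orderOf x = p ^ j := by
      have h1 : (x ^ p) ^ (p ^ m) = 1 := by
        have h0 := pow_card_eq_one' (G := H) (x := ⟨x ^ p, hxp⟩)
        rw [hm] at h0
        exact congrArg Subtype.val h0
      rw [← pow_mul, ← pow_succ'] at h1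
      obtain ⟨j, -, hj⟩ := (Nat.dvd_prime_pow hp).mp (orderOf_dvd_of_pow_eq_one h1)
      exact ⟨j, hj⟩
    have hy₀d : y₀ ^ d ∈ H := by
      rw [← QuotientGroup.eq_one_iff]
      show QuotientGroup.mk' H (y₀ ^ d) = 1
      rw [map_pow, ← he'o]; exact pow_orderOf_eq_one _
    have hyd : (y₀ ^ (p ^ m)) ^ d = 1 := by
      rw [← pow_mul, mul_comm, pow_mul]
      have h0 := pow_card_eq_one' (G := H) (x := ⟨y₀ ^ d, hy₀d⟩)
      rw [hm] at h0
      exact congrArg Subtype.val h0
    have hy1 : y₀ ^ (p ^ m) ≠ 1 := by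
      intro h
      have h1 : (QuotientGroup.mk' H y₀) ^ (p ^ m) = 1 := by rw [← map_pow, h, map_one]
      have h2 := orderOf_dvd_of_pow_eq_one h1
      rw [he'o] at h2
      have h3 := hd.dvd_of_dvd_pow h2
      exact hdp ((Nat.prime_dvd_prime_iff_eq hd hp).mp h3)
    have hyo : (orderOf (y₀ ^ (p ^ m))).Coprime p := by
      have h1 := orderOf_dvd_of_pow_eq_one hyd
      rcases (Nat.dvd_prime hd).mp h1 with h | h
      · exact absurd (orderOf_eq_one_iff.mp h) hy1
      · rw [h]; exact (Nat.coprime_primes hd hp).mpr hdp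
    have hcH : x * y₀ ^ (p ^ m) * x⁻¹ * (y₀ ^ (p ^ m))⁻¹ ∈ H := by
      rw [← QuotientGroup.eq_one_iff]
      show QuotientGroup.mk' H (x * y₀ ^ (p ^ m) * x⁻¹ * (y₀ ^ (p ^ m))⁻¹) = 1
      rw [map_mul, map_mul, map_mul, map_inv, map_inv, map_pow]
      have h3 : Commute (QuotientGroup.mk' H x) ((QuotientGroup.mk' H y₀) ^ (p ^ m)) :=
        (show Commute (QuotientGroup.mk' H x) (QuotientGroup.mk' H y₀) from hcomm).pow_right _
      rw [h3.eq]; group
    exact hncm x (y₀ ^ (p ^ m)) hxH jx hjx hy1 hyo hcH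
  have hEp : IsPGroup p E := by
    rw [IsPGroup.iff_orderOf]
    rintro ⟨e, he⟩
    obtain ⟨k, hk⟩ := hEel e he
    exact ⟨k, by rw [Subgroup.orderOf_mk]; exact hk⟩
  obtain ⟨n, hn⟩ := IsPGroup.iff_card.mp hEp
  obtain ⟨K, hKdef⟩ : ∃ K : Subgroup G, K = F.comap (QuotientGroup.mk' H) := ⟨_, rfl⟩
  haveI hKn : K.Normal := by rw [hKdef]; exact hFn.comap _
  have hHK : H ≤ K := by
    rw [hKdef]
    intro h hh
    rw [Subgroup.mem_comap]
    have h0 : QuotientGroup.mk' H h = 1 := (QuotientGroup.eq_one_iff h).mpr hh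
    rw [h0]; exact F.one_mem
  have hKidx : K.index = p ^ n := by
    rw [hKdef, Subgroup.index_comap_of_surjective _ (QuotientGroup.mk'_surjective H), ← hEcard, hn]
  have hrel : H.relIndex K = Nat.card F := by
    have h1 := Subgroup.relIndex_ker K (QuotientGroup.mk' H)
    rw [QuotientGroup.ker_mk'] at h1
    rw [h1, hKdef, Subgroup.map_comap_eq_self_of_surjective (QuotientGroup.mk'_surjective H)]
  have hcopF : (Nat.card H).Coprime (Nat.card F) := by
    rw [hm]; exact Nat.Coprime.pow_left m ((Nat.Prime.coprime_iff_not_dvd hp).mpr hpF)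
  obtain ⟨A, hAK, hHA, hprod, hAcard⟩ := Cfsg.Agent.S0092.sz_internal H K hHK
    (by rw [Subgroup.normalizer_eq_top]; exact le_top) (by rw [hrel]; exact hcopF)
  rw [hrel] at hAcard
  have hsup : H ⊔ A = K := by
    apply le_antisymm (sup_le hHK hAK)
    intro k hk
    obtain ⟨q, hq, l, hl, rfl⟩ := hprod k hk
    exact Subgroup.mul_mem _ ((le_sup_left : H ≤ H ⊔ A) hq) ((le_sup_right : A ≤ H ⊔ A) hl)
  have hAcop : (Nat.card A).Coprime p := by
    rw [hAcard]; exact ((Nat.Prime.coprime_iff_not_dvd hp).mpr hpF).symm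
  have hAel : ∀ a ∈ A, (orderOf a).Coprime p := fun a ha =>
    Nat.Coprime.coprime_dvd_left (Subgroup.orderOf_dvd_natCard A ha) hAcop
  have hAfpf : ∀ a ∈ A, a ≠ 1 → H ⊓ Subgroup.centralizer ({a} : Set G) = ⊥ :=
    fun a ha ha1 => hfpf a ha1 (hAel a ha)
  have hA1 : A ≠ ⊥ := by
    intro h
    rw [h, Subgroup.card_bot] at hAcard
    exact hF1 (Subgroup.card_eq_one.mp hAcard.symm)
  have hAmem : ∀ a ∈ A, QuotientGroup.mk' H a ∈ F := by
    intro a ha
    have h0 : K ≤ F.comap (QuotientGroup.mk' H) := by rw [hKdef]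
    exact h0 (hAK ha)
  have hAinj : ∀ a ∈ A, QuotientGroup.mk' H a = 1 → a = 1 := by
    intro a ha h
    have h1 : a ∈ H ⊓ A := ⟨(QuotientGroup.eq_one_iff a).mp h, ha⟩
    rw [hHA, Subgroup.mem_bot] at h1; exact h1
  have hAnil : Group.IsNilpotent A := by
    haveI := hFnil
    apply Subgroup.isNilpotent_of_ker_le_center
      (((QuotientGroup.mk' H).comp A.subtype).codRestrict F (fun a => hAmem a a.2))
    intro a ha
    have h1 : (QuotientGroup.mk' H (a : G)) = 1 := congrArg Subtype.val (MonoidHom.mem_ker.mp ha)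
    have h2 := hAinj a a.2 h1
    have h3 : a = 1 := Subtype.ext h2
    rw [h3]; exact Subgroup.one_mem _
  have hAodd : Odd (Nat.card A) := by
    by_contra hodd
    have h2 : 2 ∣ Nat.card A := by
      rcases Nat.even_or_odd (Nat.card A) with h | h
      · exact even_iff_two_dvd.mp h
      · exact absurd h hodd
    haveI : Fact (Nat.Prime 2) := ⟨Nat.prime_two⟩
    obtain ⟨⟨t, htA⟩, ht⟩ := exists_prime_orderOf_dvd_card' 2 h2
    have hto : orderOf t = 2 := by rw [← Subgroup.orderOf_mk t htA]; exact ht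
    have ht1 : t ≠ 1 := by
      intro h; rw [h, orderOf_one] at hto; omega
    have htt : t * t = 1 := by rw [← pow_two, ← hto]; exact pow_orderOf_eq_one _
    have hp2 : p ≠ 2 := by
      rintro rfl
      exact Nat.prime_two.one_lt.ne' (Nat.eq_one_of_dvd_coprimes hAcop h2 (dvd_refl 2))
    have hcent : ∀ g : G, QuotientGroup.mk' H (g * t * g⁻¹) = QuotientGroup.mk' H t := by
      intro g
      have hso : orderOf (g * t * g⁻¹) = 2 := by rw [orderOf_conj_eq]; exact hto
      have hs1 : g * t * g⁻¹ ≠ 1 := by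
        intro h; rw [h, orderOf_one] at hso; omega
      have hss : (g * t * g⁻¹) * (g * t * g⁻¹) = 1 := by
        rw [← pow_two, ← hso]; exact pow_orderOf_eq_one _
      have hcop2 : (orderOf (g * t * g⁻¹)).Coprime p := by
        rw [hso]; exact (Nat.coprime_primes Nat.prime_two hp).mpr (Ne.symm hp2)
      have hinv_s := invol_inverts H (g * t * g⁻¹) hss (hfpf _ hs1 hcop2)
      have hinv_t := invol_inverts H t htt (hfpf t ht1 (hAel t htA))
      have hst : (g * t * g⁻¹) * t ∈ Subgroup.centralizer (H : Set G) := by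
        rw [Subgroup.mem_centralizer_iff]
        intro h hh
        have h1 := hinv_t h hh
        have h2 := hinv_s h⁻¹ (H.inv_mem hh)
        rw [inv_inv] at h2
        calc h * ((g * t * g⁻¹) * t) = ((g * t * g⁻¹) * h⁻¹ * (g * t * g⁻¹)⁻¹) * ((g * t * g⁻¹) * t) := by
              rw [h2]
          _ = (g * t * g⁻¹) * h⁻¹ * t := by group
          _ = (g * t * g⁻¹) * (t * h * t⁻¹) * t := by rw [h1]
          _ = (g * t * g⁻¹) * t * h := by group
      have hstH : (g * t * g⁻¹) * t ∈ H := hcentH hst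
      have h3 : QuotientGroup.mk' H (g * t * g⁻¹) * QuotientGroup.mk' H t = 1 := by
        rw [← map_mul]; exact (QuotientGroup.eq_one_iff _).mpr hstH
      have h4 : QuotientGroup.mk' H t * QuotientGroup.mk' H t = 1 := by
        rw [← map_mul, htt, map_one]
      exact mul_right_cancel (h3.trans h4.symm)
    obtain ⟨e, heE, he1⟩ : ∃ e ∈ E, e ≠ 1 := by
      by_contra hcon
      apply hfrob.1
      rw [Subgroup.eq_bot_iff_forall]
      intro w hw
      by_contra hw1
      exact hcon ⟨w, hw, hw1⟩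
    have htF : QuotientGroup.mk' H t ∈ F := hAmem t htA
    have htne : QuotientGroup.mk' H t ≠ 1 := fun h => ht1 (hAinj t htA h)
    have hmem : QuotientGroup.mk' H t ∈ F ⊓ Subgroup.centralizer ({e} : Set (G ⧸ H)) := by
      refine ⟨htF, ?_⟩
      show QuotientGroup.mk' H t ∈ Subgroup.centralizer ({e} : Set (G ⧸ H))
      rw [mem_cent_singleton]
      obtain ⟨g, rfl⟩ := QuotientGroup.mk'_surjective H e
      have h0 := hcent g
      rw [map_mul, map_mul, map_inv] at h0
      exact mul_inv_eq_iff_eq_mul.mp h0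
    rw [hEfpf e heE he1, Subgroup.mem_bot] at hmem
    exact htne hmem
  have hAcyc : IsCyclic A :=
    fpf_nilp_odd_cyclic H A hH1' hAfpf (by rw [hAcard]; exact hcopF.symm) hAnil hAodd
  unfold Cfsg.IsThreeStepGroup
  rw [← hHdef]
  refine ⟨hH1', A, hA1, hAcyc, hAodd, hAcop, ?_, ?_, ⟨n, ?_⟩, hAfpf, ?_⟩
  · rw [hsup]; exact hKn
  · rw [hsup]
    intro h
    apply hFtop
    have h0 := Subgroup.map_comap_eq_self_of_surjective (QuotientGroup.mk'_surjective H) F
    rw [← hKdef, h, Subgroup.map_top_of_surjective _ (QuotientGroup.mk'_surjective H)] at h0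
    exact h0.symm
  · rw [hsup]; exact hKidx
  · intro x hxK a ha ha1 hc
    rw [hsup] at hxK
    have hxpK : x ^ (p ^ n) ∈ K := by rw [← hKidx]; exact Subgroup.pow_index_mem K x
    have huK : x ^ (Nat.card A) ∉ K := fun h =>
      hxK (mem_of_pow_mem_of_coprime (Nat.Coprime.pow_right n hAcop) h hxpK)
    have hKpow : ∀ k ∈ K, k ^ (Nat.card A) ∈ H := by
      intro k hk
      obtain ⟨q, hq, l, hl, rfl⟩ := hprod k hk
      rw [← QuotientGroup.eq_one_iff]
      show QuotientGroup.mk' H ((q * l) ^ Nat.card A) = 1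
      have h0 : QuotientGroup.mk' H q = 1 := (QuotientGroup.eq_one_iff q).mpr hq
      have h1 : l ^ Nat.card A = 1 := by
        have h2 := pow_card_eq_one' (G := A) (x := ⟨l, hl⟩)
        exact congrArg Subtype.val h2
      rw [map_pow, map_mul, h0, one_mul, ← map_pow, h1, map_one]
    have hupH : (x ^ Nat.card A) ^ (p ^ n) ∈ H := by
      rw [← pow_mul, mul_comm, pow_mul]; exact hKpow _ hxpK
    obtain ⟨j, hj⟩ : ∃ j : ℕ, orderOf (x ^ Nat.card A) = p ^ j := by
      have h1 : ((x ^ Nat.card A) ^ (p ^ n)) ^ (p ^ m) = 1 := by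
        have h0 := pow_card_eq_one' (G := H) (x := ⟨_, hupH⟩)
        rw [hm] at h0
        exact congrArg Subtype.val h0
      rw [← pow_mul, ← pow_add] at h1
      obtain ⟨j, -, hj⟩ := (Nat.dvd_prime_pow hp).mp (orderOf_dvd_of_pow_eq_one h1)
      exact ⟨j, hj⟩
    have hucomm : x ^ Nat.card A * a * (x ^ Nat.card A)⁻¹ * a⁻¹ ∈ H := by
      have h1 : QuotientGroup.mk' H x * QuotientGroup.mk' H a =
          QuotientGroup.mk' H a * QuotientGroup.mk' H x := by
        have h0 : QuotientGroup.mk' H (x * a * x⁻¹ * a⁻¹) = 1 := (QuotientGroup.eq_one_iff _).mpr hc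
        rw [map_mul, map_mul, map_mul, map_inv, map_inv] at h0
        exact mul_inv_eq_iff_eq_mul.mp (mul_inv_eq_one.mp h0)
      rw [← QuotientGroup.eq_one_iff]
      show QuotientGroup.mk' H (x ^ Nat.card A * a * (x ^ Nat.card A)⁻¹ * a⁻¹) = 1
      rw [map_mul, map_mul, map_mul, map_inv, map_inv, map_pow]
      have h3 : Commute ((QuotientGroup.mk' H x) ^ Nat.card A) (QuotientGroup.mk' H a) :=
        (show Commute (QuotientGroup.mk' H x) (QuotientGroup.mk' H a) from h1).pow_left _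
      rw [h3.eq]; group
    exact hncm (x ^ Nat.card A) a (fun h => huK (hHK h)) j hj ha1 (hAel a ha) hucomm

end Cfsg.Agent.Lib.Helper6
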