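import Mathlib
import Cfsg.Agent.Lib.Helper6.CN3

set_option autoImplicit false

namespace Cfsg.Agent.Lib.Helper6

open Cfsg.Agent.S1473 Cfsg.Agent.S1477 Cfsg.Agent.S1474
open scoped Pointwise

universe u

/-- every nilpotent subgroup of a finite group lies in a maximal nilpotent subgroup -/
theorem exists_maxnilp_ge {G : Type u} [Group G] [Finite G] (L : Subgroup G)
    (hL : Group.IsNilpotent L) :
    ∃ H : Subgroup G, L ≤ H ∧ Group.IsNilpotent H ∧
      ∀ L' : Subgroup G, Group.IsNilpotent L' → H ≤ L' → L' = H := by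
  obtain ⟨H, hLH, hH⟩ := Finite.exists_le_maximal (p := fun K : Subgroup G => Group.IsNilpotent K) hL
  exact ⟨H, hLH, hH.1, fun L' hL' hHL' => le_antisymm (hH.2 hL' hHL') hHL'⟩

/-- a maximal nilpotent subgroup of a CN-group of order divisible by `p` contains a Sylow
`p`-subgroup of the whole group -/
theorem sylow_le_maxnilp {G : Type u} [Group G] [Finite G] (hCN : Cfsg.IsCNGroup G)
    (H : Subgroup G) (hH : Group.IsNilpotent H)
    (hmax : ∀ L : Subgroup G, Group.IsNilpotent L → H ≤ L → L = H) (p : ℕ) [Fact p.Prime]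
    (hp : p ∣ Nat.card H) : ∃ P : Sylow p G, (P : Subgroup G) ≤ H := by
  have hp' : p.Prime := Fact.out
  have hcop := hall_part hCN H hH hmax
  obtain ⟨Q₀⟩ : Nonempty (Sylow p H) := inferInstance
  obtain ⟨P₀, hP₀def⟩ : ∃ P₀ : Subgroup G, P₀ = (Q₀ : Subgroup H).map H.subtype := ⟨_, rfl⟩
  have hP₀H : P₀ ≤ H := by rw [hP₀def]; exact Subgroup.map_subtype_le _
  have hP₀p : IsPGroup p P₀ := by rw [hP₀def]; exact Q₀.isPGroup'.map _
  obtain ⟨P, hP⟩ := hP₀p.exists_le_sylow
  have hcardP₀ : Nat.card P₀ = p ^ (Nat.card H).factorization p := by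
    rw [hP₀def, Subgroup.card_map_of_injective H.subtype_injective]
    exact Q₀.card_eq_multiplicity
  have hcardP : Nat.card P = p ^ (Nat.card G).factorization p := P.card_eq_multiplicity
  have hpi : ¬ p ∣ H.index := by
    intro h
    have h1 := Nat.dvd_gcd hp h
    rw [Nat.Coprime] at hcop
    rw [hcop] at h1
    exact hp'.one_lt.ne' (Nat.dvd_one.mp h1)
  have hfac : (Nat.card H).factorization p = (Nat.card G).factorization p := by
    rw [← Subgroup.card_mul_index H, Nat.factorization_mul Nat.card_pos.ne'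
      (Subgroup.index_ne_zero_of_finite)]
    have h1 : (H.index).factorization p = 0 := Nat.factorization_eq_zero_of_not_dvd hpi
    simp only [Finsupp.coe_add, Pi.add_apply]
    omega
  have heq : P₀ = (P : Subgroup G) := by
    apply Subgroup.eq_of_le_of_card_ge hP
    rw [hcardP₀, hfac]
    exact hcardP.le
  exact ⟨P, by rw [← heq]; exact hP₀H⟩

/-- a maximal nilpotent subgroup containing a Sylow `p`-subgroup `P` is the centralizer of any
nontrivial central element of `P` -/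
theorem maxnilp_eq_cent {G : Type u} [Group G] [Finite G] (hCN : Cfsg.IsCNGroup G)
    (H : Subgroup G) (hH : Group.IsNilpotent H)
    (hmax : ∀ L : Subgroup G, Group.IsNilpotent L → H ≤ L → L = H) {p : ℕ} [Fact p.Prime]
    (P : Sylow p G) (hPH : (P : Subgroup G) ≤ H) (z : G) (hzP : z ∈ (P : Subgroup G))
    (hz1 : z ≠ 1) (hzc : ∀ x ∈ (P : Subgroup G), x * z = z * x) :
    Subgroup.centralizer ({z} : Set G) = H := by
  have hp' : p.Prime := Fact.out
  haveI := hH
  have hsyl := ((Group.isNilpotent_of_finite_tfae (G := H)).out 0 3).mp hH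
  have hQn : ((P.subtype hPH : Sylow p H) : Subgroup H).Normal := hsyl p inferInstance _
  obtain ⟨i, hi⟩ := orderOf_mem_sylow P hzP
  apply cent_eq_of_central hCN H hmax z hz1
  intro h hh
  obtain ⟨a, b, hab, haz, hbz, ⟨k, hak⟩, hbq⟩ := exists_p_decomp' p hp' h
  have haH : a ∈ H := (Subgroup.zpowers_le.mpr hh) haz
  have hbH : b ∈ H := (Subgroup.zpowers_le.mpr hh) hbz
  have haP : a ∈ (P : Subgroup G) := by
    have h1 := mem_sylow_of_normal_of_orderOf (P.subtype hPH) hQn ⟨a, haH⟩ k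
      (by rw [Subgroup.orderOf_mk]; exact hak)
    rw [Sylow.coe_subtype, Subgroup.mem_subgroupOf] at h1
    exact h1
  have h1 : a * z = z * a := hzc a haP
  have h2 : z * b = b * z := commute_in_nilp hH (p := p) (hPH hzP) hbH hi hbq
  rw [← hab]
  calc a * b * z = a * (b * z) := by group
    _ = a * (z * b) := by rw [h2]
    _ = (a * z) * b := by group
    _ = (z * a) * b := by rw [h1]
    _ = z * (a * b) := by group

/-- two maximal nilpotent subgroups of a CN-group whose orders share a prime are conjugate -/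
theorem maxnilp_conj_of_dvd {G : Type u} [Group G] [Finite G] (hCN : Cfsg.IsCNGroup G)
    (H₁ H₂ : Subgroup G) (hH₁ : Group.IsNilpotent H₁)
    (hmax₁ : ∀ L : Subgroup G, Group.IsNilpotent L → H₁ ≤ L → L = H₁)
    (hH₂ : Group.IsNilpotent H₂)
    (hmax₂ : ∀ L : Subgroup G, Group.IsNilpotent L → H₂ ≤ L → L = H₂) (p : ℕ) [Fact p.Prime]
    (hp₁ : p ∣ Nat.card H₁) (hp₂ : p ∣ Nat.card H₂) :
    ∃ g : G, H₂ = H₁.map (MulAut.conj g).toMonoidHom := by
  obtain ⟨P₁, hP₁⟩ := sylow_le_maxnilp hCN H₁ hH₁ hmax₁ p hp₁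
  obtain ⟨P₂, hP₂⟩ := sylow_le_maxnilp hCN H₂ hH₂ hmax₂ p hp₂
  obtain ⟨g, hg⟩ := MulAction.exists_smul_eq G P₁ P₂
  have hP₁1 : (P₁ : Subgroup G) ≠ ⊥ := by
    apply Sylow.ne_bot_of_dvd_card
    exact dvd_trans hp₁ (Subgroup.card_subgroup_dvd_card H₁)
  obtain ⟨z, hzP, hz1, hzc⟩ := exists_central_of_sylow P₁ hP₁1
  have hmemP₂ : ∀ x : G, x ∈ (P₂ : Subgroup G) ↔ g⁻¹ * x * g ∈ (P₁ : Subgroup G) := by
    intro x
    rw [← hg, Sylow.coe_subgroup_smul]
    exact Lead.mem_conj_smul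
  have hc₁ := maxnilp_eq_cent hCN H₁ hH₁ hmax₁ P₁ hP₁ z hzP hz1 hzc
  have hc₂ := maxnilp_eq_cent hCN H₂ hH₂ hmax₂ P₂ hP₂ (g * z * g⁻¹)
    (by rw [hmemP₂]; convert hzP using 1; group)
    (by
      intro h; apply hz1
      calc z = g⁻¹ * (g * z * g⁻¹) * g := by group
        _ = 1 := by rw [h]; group)
    (by
      intro x hx
      have h1 := hzc _ ((hmemP₂ x).mp hx)
      calc x * (g * z * g⁻¹) = g * ((g⁻¹ * x * g) * z) * g⁻¹ := by group
        _ = g * (z * (g⁻¹ * x * g)) * g⁻¹ := by rw [h1]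
        _ = g * z * g⁻¹ * x := by group)
  refine ⟨g, ?_⟩
  ext x
  rw [← hc₂, mem_cent_singleton, Subgroup.mem_map]
  constructor
  · intro h
    refine ⟨g⁻¹ * x * g, ?_, ?_⟩
    · rw [← hc₁, mem_cent_singleton]
      calc z * (g⁻¹ * x * g) = g⁻¹ * ((g * z * g⁻¹) * x) * g := by group
        _ = g⁻¹ * (x * (g * z * g⁻¹)) * g := by rw [h]
        _ = g⁻¹ * x * g * z := by group
    · show g * (g⁻¹ * x * g) * g⁻¹ = x
      group
  · rintro ⟨y, hy, rfl⟩
    rw [← hc₁, mem_cent_singleton] at hy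
    show g * z * g⁻¹ * (g * y * g⁻¹) = g * y * g⁻¹ * (g * z * g⁻¹)
    calc g * z * g⁻¹ * (g * y * g⁻¹) = g * (z * y) * g⁻¹ := by group
      _ = g * (y * z) * g⁻¹ := by rw [hy]
      _ = g * y * g⁻¹ * (g * z * g⁻¹) := by group

end Cfsg.Agent.Lib.Helper6
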