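import Mathlib
import Cfsg.Agent.Lib.Helper6.CN4

set_option autoImplicit false

namespace Cfsg.Agent.Lib.Helper6

open Cfsg.Agent.S1473 Cfsg.Agent.S1477 Cfsg.Agent.S1474
open scoped Pointwise commutatorElement

universe u

/-- a three-step group (with respect to any natural number) has no nontrivial normal Sylow
subgroup -/
theorem three_step_no_normal_sylow {X : Type u} [Group X] [Finite X] {p : ℕ}
    (hts : Cfsg.IsThreeStepGroup p X) (q : ℕ) [Fact q.Prime] (Q : Sylow q X)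
    (hQn : (Q : Subgroup X).Normal) : (Q : Subgroup X) = ⊥ := by
  classical
  have hq : q.Prime := Fact.out
  obtain ⟨hH1, A, hA1, hAc, hAodd, hAcop, hKn, hKtop, ⟨n, hn⟩, hfpf, hfrob⟩ := hts
  haveI hHn : (Cfsg.pCore p X).Normal := Lead.pCore_normal p X
  haveI := hKn
  have hn0 : n ≠ 0 := by
    rintro rfl
    rw [pow_zero, Subgroup.index_eq_one] at hn
    exact hKtop hn
  obtain ⟨S⟩ : Nonempty (Sylow p X) := inferInstance
  have hHp : IsPGroup p (Cfsg.pCore p X) := S.isPGroup'.to_le (Lead.pCore_le_sylow' S)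
  by_cases hqp : q ∣ p
  · exfalso
    have hQp : IsPGroup p (Q : Subgroup X) := by
      intro g
      obtain ⟨j, hj⟩ := Q.isPGroup' g
      refine ⟨j, ?_⟩
      obtain ⟨c, hc⟩ := pow_dvd_pow_of_dvd hqp j
      rw [hc, pow_mul, hj, one_pow]
    have hQH : (Q : Subgroup X) ≤ Cfsg.pCore p X := le_sSup ⟨hQn, hQp⟩
    have hQK : (Q : Subgroup X) ≤ Cfsg.pCore p X ⊔ A := le_trans hQH le_sup_left
    have h1 : (Cfsg.pCore p X ⊔ A).index ∣ (Q : Subgroup X).index := Subgroup.index_dvd_of_le hQK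
    have h2 : q ∣ (Cfsg.pCore p X ⊔ A).index := by
      rw [hn]
      exact dvd_trans hqp (dvd_pow_self p hn0)
    exact Q.not_dvd_index (dvd_trans h2 h1)
  · by_contra hQ1
    have hcop : q.Coprime p := (Nat.Prime.coprime_iff_not_dvd hq).mpr hqp
    have hdisj : ∀ x : X, x ∈ Cfsg.pCore p X → x ∈ (Q : Subgroup X) → x = 1 := by
      intro x hxH hxQ
      obtain ⟨k, hk⟩ := hHp ⟨x, hxH⟩
      obtain ⟨j, hj⟩ := Q.isPGroup' ⟨x, hxQ⟩
      have h1 : x ^ p ^ k = 1 := by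
        have := congrArg Subtype.val hk
        simpa using this
      have h2 : x ^ q ^ j = 1 := by
        have := congrArg Subtype.val hj
        simpa using this
      have h3 : orderOf x ∣ Nat.gcd (p ^ k) (q ^ j) :=
        Nat.dvd_gcd (orderOf_dvd_of_pow_eq_one h1) (orderOf_dvd_of_pow_eq_one h2)
      have h4 : Nat.gcd (p ^ k) (q ^ j) = 1 := Nat.Coprime.pow k j hcop.symm
      rw [h4, Nat.dvd_one, orderOf_eq_one_iff] at h3
      exact h3
    have hdisj' : Disjoint (Cfsg.pCore p X) (Q : Subgroup X) := by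
      rw [Subgroup.disjoint_def]
      exact fun {x} hx hy => hdisj x hx hy
    have hcomm : ∀ h ∈ Cfsg.pCore p X, ∀ x ∈ (Q : Subgroup X), h * x = x * h := fun h hh x hx =>
      (Subgroup.commute_of_normal_of_disjoint _ _ hHn hQn hdisj' h x hh hx).eq
    have hQK : (Q : Subgroup X) ≤ Cfsg.pCore p X ⊔ A := by
      intro x hx
      obtain ⟨j, hj⟩ := Q.isPGroup' ⟨x, hx⟩
      have h2 : x ^ q ^ j = 1 := by
        have := congrArg Subtype.val hj
        simpa using this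
      have h3 : x ^ (Cfsg.pCore p X ⊔ A).index ∈ Cfsg.pCore p X ⊔ A := Subgroup.pow_index_mem _ x
      rw [hn] at h3
      exact mem_of_pow_mem_of_coprime (Nat.Coprime.pow j n hcop) (by rw [h2]; exact Subgroup.one_mem _) h3
    obtain ⟨x, hxQ, hx1⟩ : ∃ x ∈ (Q : Subgroup X), x ≠ 1 := by
      by_contra hc
      apply hQ1
      rw [Subgroup.eq_bot_iff_forall]
      intro w hw
      by_contra hw1
      exact hc ⟨w, hw, hw1⟩
    obtain ⟨h, hh, a, ha, hha⟩ := Subgroup.mem_sup_of_normal_left.mp (hQK hxQ)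
    by_cases ha1 : a = 1
    · apply hx1
      apply hdisj x _ hxQ
      rw [← hha, ha1, mul_one]
      exact hh
    · have hfa := hfpf a ha ha1
      have h1 : h = 1 := by
        have h2 := hcomm h hh x hxQ
        rw [← hha] at h2
        have h3 : a * h = h * a := by
          calc a * h = h⁻¹ * (h * a * h) := by group
            _ = h⁻¹ * (h * (h * a)) := by rw [h2]
            _ = h * a := by group
        have h4 : h ∈ Cfsg.pCore p X ⊓ Subgroup.centralizer ({a} : Set X) :=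
          ⟨hh, mem_cent_singleton.mpr h3⟩
        rw [hfa, Subgroup.mem_bot] at h4
        exact h4
      apply hH1
      rw [Subgroup.eq_bot_iff_forall]
      intro w hw
      have h2 := hcomm w hw x hxQ
      rw [← hha, h1, one_mul] at h2
      have h4 : w ∈ Cfsg.pCore p X ⊓ Subgroup.centralizer ({a} : Set X) :=
        ⟨hw, mem_cent_singleton.mpr h2.symm⟩
      rw [hfa, Subgroup.mem_bot] at h4
      exact h4

/-- in a three-step group for the prime `p`, the `p`-elements of `O_{p,p'}` lie in `O_p` -/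
theorem ts_pelt_mem_core {X : Type u} [Group X] [Finite X] {p : ℕ} [Fact p.Prime]
    (A : Subgroup X) (hAcop : (Nat.card A).Coprime p) (x : X)
    (hxK : x ∈ Cfsg.pCore p X ⊔ A) {i : ℕ} (hxo : orderOf x = p ^ i) : x ∈ Cfsg.pCore p X := by
  haveI hHn : (Cfsg.pCore p X).Normal := Lead.pCore_normal p X
  obtain ⟨h, hh, a, ha, hha⟩ := Subgroup.mem_sup_of_normal_left.mp hxK
  have h1 : QuotientGroup.mk' (Cfsg.pCore p X) x = QuotientGroup.mk' (Cfsg.pCore p X) a := by
    have h0 : QuotientGroup.mk' (Cfsg.pCore p X) h = 1 := (QuotientGroup.eq_one_iff h).mpr hh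
    rw [← hha, map_mul, h0, one_mul]
  have h2 : orderOf (QuotientGroup.mk' (Cfsg.pCore p X) x) ∣ p ^ i := by
    rw [← hxo]; exact orderOf_map_dvd _ x
  have h3 : orderOf (QuotientGroup.mk' (Cfsg.pCore p X) x) ∣ Nat.card A := by
    rw [h1]
    refine dvd_trans (orderOf_map_dvd _ a) ?_
    have h4 := orderOf_dvd_natCard (⟨a, ha⟩ : A)
    rwa [Subgroup.orderOf_mk] at h4
  have h5 : orderOf (QuotientGroup.mk' (Cfsg.pCore p X) x) ∣ Nat.gcd (Nat.card A) (p ^ i) :=
    Nat.dvd_gcd h3 h2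
  have h6 : Nat.gcd (Nat.card A) (p ^ i) = 1 := Nat.Coprime.pow_right i hAcop
  rw [h6, Nat.dvd_one, orderOf_eq_one_iff] at h5
  exact (QuotientGroup.eq_one_iff x).mp h5

/-- in a three-step group every commutator lies in `O_{p,p'}` -/
theorem ts_commutator_le {X : Type u} [Group X] [Finite X] {p : ℕ}
    (A : Subgroup X) (hA1 : A ≠ ⊥) (hAc : IsCyclic A) (hKn : (Cfsg.pCore p X ⊔ A).Normal)
    (hfrob : ∀ x : X, x ∉ Cfsg.pCore p X ⊔ A → ∀ a ∈ A, a ≠ 1 →
      x * a * x⁻¹ * a⁻¹ ∉ Cfsg.pCore p X) :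
    commutator X ≤ Cfsg.pCore p X ⊔ A := by
  haveI hHn : (Cfsg.pCore p X).Normal := Lead.pCore_normal p X
  obtain ⟨g, hg⟩ := IsCyclic.exists_generator (α := ↥A)
  have hgen : ∀ a ∈ A, ∃ k : ℤ, (g : X) ^ k = a := by
    intro a ha
    obtain ⟨k, hk⟩ := Subgroup.mem_zpowers_iff.mp (hg ⟨a, ha⟩)
    refine ⟨k, ?_⟩
    have := congrArg Subtype.val hk
    simpa using this
  have hg1 : (g : X) ≠ 1 := by
    intro h
    apply hA1
    rw [Subgroup.eq_bot_iff_forall]
    intro a ha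
    obtain ⟨k, hk⟩ := hgen a ha
    rw [← hk, h, one_zpow]
  obtain ⟨π, hπ⟩ : ∃ π : X →* X ⧸ Cfsg.pCore p X, π = QuotientGroup.mk' (Cfsg.pCore p X) :=
    ⟨_, rfl⟩
  have hπ1 : ∀ x : X, π x = 1 ↔ x ∈ Cfsg.pCore p X := by
    intro x; rw [hπ]; exact QuotientGroup.eq_one_iff x
  have hact : ∀ x : X, ∃ k : ℤ, π x * π (g : X) * (π x)⁻¹ = π (g : X) ^ k := by
    intro x
    have h1 : x * (g : X) * x⁻¹ ∈ Cfsg.pCore p X ⊔ A :=
      hKn.conj_mem _ ((le_sup_right : A ≤ _) g.2) x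
    obtain ⟨h, hh, a, ha, hha⟩ := Subgroup.mem_sup_of_normal_left.mp h1
    obtain ⟨k, hk⟩ := hgen a ha
    refine ⟨k, ?_⟩
    rw [← map_inv, ← map_mul, ← map_mul, ← hha, map_mul, (hπ1 h).mpr hh, one_mul, ← hk, map_zpow]
  have hcomm : ∀ x y : X, π (x * y) * π (g : X) * (π (x * y))⁻¹
      = π (y * x) * π (g : X) * (π (y * x))⁻¹ := by
    intro x y
    obtain ⟨k, hk⟩ := hact x
    obtain ⟨l, hl⟩ := hact y
    have e1 : π (x * y) * π (g : X) * (π (x * y))⁻¹
        = π x * (π y * π (g : X) * (π y)⁻¹) * (π x)⁻¹ := by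
      rw [map_mul]; group
    have e2 : π (y * x) * π (g : X) * (π (y * x))⁻¹
        = π y * (π x * π (g : X) * (π x)⁻¹) * (π y)⁻¹ := by
      rw [map_mul]; group
    rw [e1, e2, hl, hk, ← conj_zpow, ← conj_zpow, hk, hl, ← zpow_mul, ← zpow_mul, mul_comm]
  rw [commutator_def, Subgroup.commutator_le]
  intro x _ y _
  by_contra hc
  apply hfrob _ hc (g : X) g.2 hg1
  rw [← hπ1]
  have h1 := hcomm x⁻¹ y⁻¹
  have h2 : π (⁅x, y⁆ * (g : X) * ⁅x, y⁆⁻¹ * (g : X)⁻¹)
      = (π (y⁻¹ * x⁻¹))⁻¹ * (π (x⁻¹ * y⁻¹) * π (g : X) * (π (x⁻¹ * y⁻¹))⁻¹) * π (y⁻¹ * x⁻¹)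
        * (π (g : X))⁻¹ := by
    rw [commutatorElement_def]
    simp only [map_mul, map_inv]
    group
  rw [h2, h1]
  group

/-- in a three-step group for the prime `p`, the `p`-elements of the commutator subgroup lie in
`O_p` -/
theorem ts_comm_pelt {X : Type u} [Group X] [Finite X] {p : ℕ} [Fact p.Prime]
    (hts : Cfsg.IsThreeStepGroup p X) (x : X) (hx : x ∈ commutator X) {i : ℕ}
    (hxo : orderOf x = p ^ i) : x ∈ Cfsg.pCore p X := by
  obtain ⟨hH1, A, hA1, hAc, hAodd, hAcop, hKn, hKtop, ⟨n, hn⟩, hfpf, hfrob⟩ := hts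
  exact ts_pelt_mem_core A hAcop x (ts_commutator_le A hA1 hAc hKn hfrob hx) hxo

end Cfsg.Agent.Lib.Helper6
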