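import Mathlib
import Cfsg.Agent.Lib.Helper6.CN5
import Cfsg.Agent.Lib.Helper5.OrbitCard

set_option autoImplicit false

namespace Cfsg.Agent.Lib.Helper6

open Cfsg.Agent.S1473 Cfsg.Agent.S1477 Cfsg.Agent.S1474
open scoped Pointwise commutatorElement

universe u

theorem eq_one_of_mul_self_of_odd {Y : Type u} [Group Y] [Finite Y] (S : Subgroup Y)
    (hodd : Odd (Nat.card S)) (x : Y) (hx : x ∈ S) (h2 : x * x = 1) : x = 1 := by
  have h1 : orderOf x ∣ 2 := orderOf_dvd_of_pow_eq_one (by rw [pow_two]; exact h2)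
  have h3 : orderOf x ∣ Nat.card S := by
    have h4 := orderOf_dvd_natCard (⟨x, hx⟩ : S)
    rwa [Subgroup.orderOf_mk] at h4
  rcases (Nat.dvd_prime Nat.prime_two).mp h1 with h | h
  · exact orderOf_eq_one_iff.mp h
  · exfalso
    rw [h] at h3
    exact (Nat.not_even_iff_odd.mpr hodd) (even_iff_two_dvd.mpr h3)

/-- a subgroup of odd order acting freely by conjugation on the nonidentity elements of a
subgroup of odd order has at most half as many elements -/
theorem free_conj_card {Y : Type u} [Group Y] [Finite Y] (B D : Subgroup Y) (hB1 : B ≠ ⊥)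
    (hn : ∀ d ∈ D, ∀ b ∈ B, d * b * d⁻¹ ∈ B)
    (hfree : ∀ d ∈ D, d ≠ 1 → ∀ b ∈ B, b ≠ 1 → d * b * d⁻¹ ≠ b)
    (hBodd : Odd (Nat.card B)) (hDodd : Odd (Nat.card D)) :
    2 * Nat.card D + 1 ≤ Nat.card B := by
  classical
  obtain ⟨b₀, hb₀, hb₀1⟩ : ∃ b ∈ B, b ≠ 1 := by
    by_contra hc
    apply hB1
    rw [Subgroup.eq_bot_iff_forall]
    intro w hw
    by_contra hw1
    exact hc ⟨w, hw, hw1⟩
  have hc1 : ∀ ε : Bool, (if ε then b₀ else b₀⁻¹) ∈ B := by
    intro ε; split_ifs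
    · exact hb₀
    · exact B.inv_mem hb₀
  have hc2 : ∀ ε : Bool, (if ε then b₀ else b₀⁻¹) ≠ 1 := by
    intro ε; split_ifs
    · exact hb₀1
    · exact fun h => hb₀1 (inv_eq_one.mp h)
  obtain ⟨g, hg⟩ : ∃ g : Option (↥D × Bool) → ↥B, g = fun o => o.elim 1
      (fun de => ⟨(de.1 : Y) * (if de.2 then b₀ else b₀⁻¹) * (de.1 : Y)⁻¹,
        hn _ de.1.2 _ (hc1 de.2)⟩) := ⟨_, rfl⟩
  have hkey : ∀ e ∈ D, ∀ c ∈ B, c ≠ 1 → e * c * e⁻¹ = c → e = 1 := by
    intro e he c hc hc1' h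
    by_contra he1
    exact hfree e he he1 c hc hc1' h
  have hginj : Function.Injective g := by
    intro o₁ o₂ h
    rw [hg] at h
    rcases o₁ with _ | ⟨d, ε⟩ <;> rcases o₂ with _ | ⟨d', ε'⟩
    · rfl
    · exfalso
      have h1 := congrArg Subtype.val h
      simp only [Option.elim] at h1
      apply hc2 ε'
      calc (if ε' then b₀ else b₀⁻¹)
          = (d' : Y)⁻¹ * ((d' : Y) * (if ε' then b₀ else b₀⁻¹) * (d' : Y)⁻¹) * (d' : Y) := by
            group
        _ = 1 := by rw [← h1]; simp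
    · exfalso
      have h1 := congrArg Subtype.val h
      simp only [Option.elim] at h1
      apply hc2 ε
      calc (if ε then b₀ else b₀⁻¹)
          = (d : Y)⁻¹ * ((d : Y) * (if ε then b₀ else b₀⁻¹) * (d : Y)⁻¹) * (d : Y) := by
            group
        _ = 1 := by rw [h1]; simp
    · have h1 := congrArg Subtype.val h
      simp only [Option.elim] at h1
      have heD : (d' : Y)⁻¹ * (d : Y) ∈ D := D.mul_mem (D.inv_mem d'.2) d.2
      have h2 : ((d' : Y)⁻¹ * (d : Y)) * (if ε then b₀ else b₀⁻¹) * ((d' : Y)⁻¹ * (d : Y))⁻¹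
          = (if ε' then b₀ else b₀⁻¹) := by
        calc ((d' : Y)⁻¹ * (d : Y)) * (if ε then b₀ else b₀⁻¹) * ((d' : Y)⁻¹ * (d : Y))⁻¹
            = (d' : Y)⁻¹ * ((d : Y) * (if ε then b₀ else b₀⁻¹) * (d : Y)⁻¹) * (d' : Y) := by
              group
          _ = (if ε' then b₀ else b₀⁻¹) := by rw [h1]; group
      have hεε : ε = ε' := by
        by_contra hne
        have h3 : (if ε' then b₀ else b₀⁻¹) = (if ε then b₀ else b₀⁻¹)⁻¹ := by
          cases ε <;> cases ε' <;> simp at hne ⊢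
        rw [h3] at h2
        obtain ⟨e, hedef⟩ : ∃ e : Y, e = (d' : Y)⁻¹ * (d : Y) := ⟨_, rfl⟩
        obtain ⟨c, hcdef⟩ : ∃ c : Y, c = (if ε then b₀ else b₀⁻¹) := ⟨_, rfl⟩
        rw [← hedef, ← hcdef] at h2
        rw [← hedef] at heD
        have hcB : c ∈ B := by rw [hcdef]; exact hc1 ε
        have hcne : c ≠ 1 := by rw [hcdef]; exact hc2 ε
        have h4 : (e * e) * c * (e * e)⁻¹ = c := by
          calc (e * e) * c * (e * e)⁻¹ = e * (e * c * e⁻¹) * e⁻¹ := by group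
            _ = e * c⁻¹ * e⁻¹ := by rw [h2]
            _ = (e * c * e⁻¹)⁻¹ := by group
            _ = c := by rw [h2, inv_inv]
        have h5 : e * e = 1 := hkey (e * e) (D.mul_mem heD heD) c hcB hcne h4
        have h6 : e = 1 := eq_one_of_mul_self_of_odd D hDodd e heD h5
        rw [h6] at h2
        have h7 : c * c = 1 := by
          have h8 : c = c⁻¹ := by simpa using h2
          calc c * c = c * c⁻¹ := by rw [← h8]
            _ = 1 := mul_inv_cancel c
        exact hcne (eq_one_of_mul_self_of_odd B hBodd c hcB h7)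
      subst hεε
      have h3 := hkey _ heD _ (hc1 ε) (hc2 ε) h2
      have h4 : (d : Y) = (d' : Y) := by
        calc (d : Y) = (d' : Y) * ((d' : Y)⁻¹ * (d : Y)) := by group
          _ = (d' : Y) := by rw [h3, mul_one]
      rw [Subtype.ext h4]
  have h1 := Nat.card_le_card_of_injective g hginj
  rw [Finite.card_option, Nat.card_prod] at h1
  have h2 : Nat.card Bool = 2 := by rw [Nat.card_eq_fintype_card, Fintype.card_bool]
  rw [h2] at h1
  omega

/-- the centre of a normal subgroup is normal in the whole group -/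
theorem zsub_normal {X : Type u} [Group X] (H : Subgroup X) [hHn : H.Normal] :
    (H ⊓ Subgroup.centralizer (H : Set X)).Normal := by
  constructor
  intro v hv g
  refine ⟨hHn.conj_mem v hv.1 g, ?_⟩
  show g * v * g⁻¹ ∈ Subgroup.centralizer (H : Set X)
  rw [Subgroup.mem_centralizer_iff]
  intro h hh
  have h1 := (Subgroup.mem_centralizer_iff.mp hv.2) (g⁻¹ * h * g) (by
    have := hHn.conj_mem h hh g⁻¹
    simpa using this)
  calc h * (g * v * g⁻¹) = g * ((g⁻¹ * h * g) * v) * g⁻¹ := by group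
    _ = g * (v * (g⁻¹ * h * g)) * g⁻¹ := by rw [h1]
    _ = g * v * g⁻¹ * h := by group

/-- in a three-step group of odd order in which no `p`-element commutes with a `p'`-element,
an abelian `p`-subgroup outside `O_p` is smaller than some abelian subgroup of `O_p` -/
theorem ts_abelian_bigger {X : Type u} [Group X] [Finite X] {p : ℕ} [Fact p.Prime]
    (hodd : Odd (Nat.card X)) (hts : Cfsg.IsThreeStepGroup p X)
    (hnc : ∀ x y : X, x ≠ 1 → (∃ i : ℕ, orderOf x = p ^ i) → y ≠ 1 → (orderOf y).Coprime p →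
      x * y ≠ y * x)
    (E : Subgroup X) (hEp : IsPGroup p E) (hEc : ∀ x ∈ E, ∀ y ∈ E, x * y = y * x)
    (hEH : ¬ E ≤ Cfsg.pCore p X) :
    ∃ E' : Subgroup X, E' ≤ Cfsg.pCore p X ∧ (∀ x ∈ E', ∀ y ∈ E', x * y = y * x) ∧
      Nat.card E < Nat.card E' := by
  classical
  have hp : p.Prime := Fact.out
  obtain ⟨hH1, A, hA1, hAc, hAodd, hAcop, hKn, hKtop, ⟨n, hn⟩, hfpf, hfrob⟩ := hts
  obtain ⟨H, hHdef⟩ : ∃ H : Subgroup X, H = Cfsg.pCore p X := ⟨_, rfl⟩
  rw [← hHdef] at hH1 hKn hfrob hEH ⊢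
  haveI hHn : H.Normal := by rw [hHdef]; exact Lead.pCore_normal p X
  have hHp : IsPGroup p H := by rw [hHdef]; exact Lead.pCore_isPGroup' p
  have hpelt : ∀ y : X, y ∈ H ⊔ A → (∃ i : ℕ, orderOf y = p ^ i) → y ∈ H := by
    intro y hy ⟨i, hi⟩
    rw [hHdef] at hy ⊢
    exact ts_pelt_mem_core A hAcop y hy hi
  have hEo : ∀ y ∈ E, ∃ i : ℕ, orderOf y = p ^ i := by
    intro y hy
    obtain ⟨k, hk⟩ := (IsPGroup.iff_orderOf.mp hEp) ⟨y, hy⟩
    exact ⟨k, by rw [← hk, Subgroup.orderOf_mk]⟩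
  have hHo : ∀ y ∈ H, ∃ i : ℕ, orderOf y = p ^ i := by
    intro y hy
    obtain ⟨k, hk⟩ := (IsPGroup.iff_orderOf.mp hHp) ⟨y, hy⟩
    exact ⟨k, by rw [← hk, Subgroup.orderOf_mk]⟩
  obtain ⟨V, hVdef⟩ : ∃ V : Subgroup X, V = H ⊓ Subgroup.centralizer (H : Set X) := ⟨_, rfl⟩
  haveI hVn : V.Normal := by rw [hVdef]; exact zsub_normal H
  have hVH : V ≤ H := by rw [hVdef]; exact inf_le_left
  have hVc : ∀ v ∈ V, ∀ h ∈ H, h * v = v * h := by
    intro v hv h hh
    rw [hVdef] at hv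
    exact (Subgroup.mem_centralizer_iff.mp hv.2) h hh
  have hV1 : V ≠ ⊥ := by
    haveI : Nontrivial H := (Subgroup.nontrivial_iff_ne_bot _).mpr hH1
    haveI := IsPGroup.center_nontrivial hHp
    obtain ⟨z', hz'⟩ := exists_ne (1 : Subgroup.center ↥H)
    intro hVb
    apply hz'
    have h1 : ((z' : H) : X) ∈ V := by
      rw [hVdef]
      refine ⟨(z' : H).2, ?_⟩
      show ((z' : H) : X) ∈ Subgroup.centralizer (H : Set X)
      rw [Subgroup.mem_centralizer_iff]
      intro h hh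
      exact congrArg Subtype.val (Subgroup.mem_center_iff.mp z'.2 ⟨h, hh⟩)
    rw [hVb, Subgroup.mem_bot] at h1
    exact Subtype.ext (Subtype.ext h1)
  obtain ⟨x, hxE, hxH⟩ : ∃ x ∈ E, x ∉ H := SetLike.not_le_iff_exists.mp hEH
  have hxK : ∀ y ∈ E, y ∉ H → y ∉ H ⊔ A := fun y hy hyH h => hyH (hpelt y h (hEo y hy))
  obtain ⟨C, hCdef⟩ : ∃ C : Subgroup X, C = V ⊓ Subgroup.centralizer ({x} : Set X) := ⟨_, rfl⟩
  have hCV : C ≤ V := by rw [hCdef]; exact inf_le_left
  have hCx : ∀ w ∈ C, x * w = w * x := by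
    intro w hw
    rw [hCdef] at hw
    exact mem_cent_singleton.mp hw.2
  have hC1 : C ≠ ⊥ := by
    obtain ⟨R, hRdef⟩ : ∃ R : Subgroup X, R = H ⊔ E := ⟨_, rfl⟩
    have hRp : IsPGroup p R := by
      rw [hRdef]
      exact IsPGroup.to_sup_of_normal_left hHp hEp
    have hVR : V ≤ R := by rw [hRdef]; exact le_trans hVH le_sup_left
    have hxR : x ∈ R := by rw [hRdef]; exact (le_sup_right : E ≤ _) hxE
    haveI : (V.subgroupOf R).Normal := hVn.subgroupOf R
    have hne : V.subgroupOf R ≠ ⊥ := by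
      intro h1
      apply hV1
      rw [Subgroup.subgroupOf_eq_bot] at h1
      have h2 := disjoint_iff.mp h1
      rwa [inf_eq_left.mpr hVR] at h2
    obtain ⟨z, hzV, hzc, hzo⟩ := Lead.exists_central_order_p hRp (V.subgroupOf R) hne
    intro hCb
    have h1 : (z : X) ∈ C := by
      rw [hCdef]
      refine ⟨Subgroup.mem_subgroupOf.mp hzV, ?_⟩
      show (z : X) ∈ Subgroup.centralizer ({x} : Set X)
      rw [mem_cent_singleton]
      have h2 := Subgroup.mem_center_iff.mp hzc ⟨x, hxR⟩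
      exact congrArg Subtype.val h2
    rw [hCb, Subgroup.mem_bot] at h1
    have h3 : z = 1 := Subtype.ext h1
    rw [h3, orderOf_one] at hzo
    exact hp.one_lt.ne hzo
  have hKC : ∀ e ∈ A, e ≠ 1 → ∀ w ∈ C, w ≠ 1 → e * w * e⁻¹ ∉ C := by
    intro e he he1 w hw hw1 hw'
    have h1 := hCx w hw
    have h2 := hCx _ hw'
    obtain ⟨y, hydef⟩ : ∃ y : X, y = x⁻¹ * e⁻¹ * x⁻¹⁻¹ * e⁻¹⁻¹ := ⟨_, rfl⟩
    have hxinvK : x⁻¹ ∉ H ⊔ A := fun h =>
      hxK x hxE hxH (by simpa using (H ⊔ A).inv_mem h)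
    have hyH : y ∉ H := by
      rw [hydef]
      exact hfrob x⁻¹ hxinvK e⁻¹ (A.inv_mem he) (fun h => he1 (inv_eq_one.mp h))
    have hyK : y ∈ H ⊔ A := by
      rw [hydef]
      have h3 : x⁻¹ * e⁻¹ * x⁻¹⁻¹ ∈ H ⊔ A :=
        hKn.conj_mem _ ((le_sup_right : A ≤ _) (A.inv_mem he)) x⁻¹
      exact (H ⊔ A).mul_mem h3 ((H ⊔ A).inv_mem ((le_sup_right : A ≤ _) (A.inv_mem he)))
    have hyw : y * w = w * y := by
      rw [hydef]
      have h1' : x⁻¹ * w = w * x⁻¹ := by
        calc x⁻¹ * w = x⁻¹ * (w * x) * x⁻¹ := by group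
          _ = x⁻¹ * (x * w) * x⁻¹ := by rw [h1]
          _ = w * x⁻¹ := by group
      calc x⁻¹ * e⁻¹ * x⁻¹⁻¹ * e⁻¹⁻¹ * w = x⁻¹ * e⁻¹ * (x * (e * w * e⁻¹)) * e := by group
        _ = x⁻¹ * e⁻¹ * ((e * w * e⁻¹) * x) * e := by rw [h2]
        _ = (x⁻¹ * w) * e⁻¹ * x * e := by group
        _ = (w * x⁻¹) * e⁻¹ * x * e := by rw [h1']
        _ = w * (x⁻¹ * e⁻¹ * x⁻¹⁻¹ * e⁻¹⁻¹) := by group
    obtain ⟨a, b, hab, haz, hbz, ⟨k, hak⟩, hbq⟩ := exists_p_decomp' p hp y
    have hb1 : b ≠ 1 := by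
      intro hb
      rw [hb, mul_one] at hab
      apply hyH
      apply hpelt y hyK
      exact ⟨k, by rw [← hab]; exact hak⟩
    obtain ⟨j, hj⟩ := Subgroup.mem_zpowers_iff.mp hbz
    have hwb : w * b = b * w := by
      rw [← hj]
      have hcm : Commute w y := hyw.symm
      exact (hcm.zpow_right j).eq
    exact hnc w b hw1 (hHo w (hVH (hCV hw))) hb1 hbq hwb
  have hi : Nat.card A * (Nat.card C - 1) + 1 ≤ Nat.card V := by
    obtain ⟨g, hg⟩ : ∃ g : Option (↥A × {w : ↥C // w ≠ 1}) → ↥V, g = fun o => o.elim 1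
        (fun aw => ⟨(aw.1 : X) * ((aw.2 : ↥C) : X) * (aw.1 : X)⁻¹,
          hVn.conj_mem _ (hCV (aw.2 : ↥C).2) _⟩) := ⟨_, rfl⟩
    have hginj : Function.Injective g := by
      intro o₁ o₂ h
      rw [hg] at h
      rcases o₁ with _ | ⟨a, w⟩ <;> rcases o₂ with _ | ⟨a', w'⟩
      · rfl
      · exfalso
        have h1 := congrArg Subtype.val h
        simp only [Option.elim] at h1
        apply w'.2
        apply Subtype.ext
        show ((w' : ↥C) : X) = 1
        calc ((w' : ↥C) : X)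
            = (a' : X)⁻¹ * ((a' : X) * ((w' : ↥C) : X) * (a' : X)⁻¹) * (a' : X) := by group
          _ = 1 := by rw [← h1]; simp
      · exfalso
        have h1 := congrArg Subtype.val h
        simp only [Option.elim] at h1
        apply w.2
        apply Subtype.ext
        show ((w : ↥C) : X) = 1
        calc ((w : ↥C) : X)
            = (a : X)⁻¹ * ((a : X) * ((w : ↥C) : X) * (a : X)⁻¹) * (a : X) := by group
          _ = 1 := by rw [h1]; simp
      · have h1 := congrArg Subtype.val h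
        simp only [Option.elim] at h1
        have heA : (a' : X)⁻¹ * (a : X) ∈ A := A.mul_mem (A.inv_mem a'.2) a.2
        have h2 : ((a' : X)⁻¹ * (a : X)) * ((w : ↥C) : X) * ((a' : X)⁻¹ * (a : X))⁻¹
            = ((w' : ↥C) : X) := by
          calc ((a' : X)⁻¹ * (a : X)) * ((w : ↥C) : X) * ((a' : X)⁻¹ * (a : X))⁻¹
              = (a' : X)⁻¹ * ((a : X) * ((w : ↥C) : X) * (a : X)⁻¹) * (a' : X) := by group
            _ = ((w' : ↥C) : X) := by rw [h1]; group
        have h3 : (a' : X)⁻¹ * (a : X) = 1 := by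
          by_contra hne
          apply hKC _ heA hne ((w : ↥C) : X) (w : ↥C).2 (fun h => w.2 (Subtype.ext h))
          rw [h2]
          exact (w' : ↥C).2
        have h4 : (a : X) = (a' : X) := by
          calc (a : X) = (a' : X) * ((a' : X)⁻¹ * (a : X)) := by group
            _ = (a' : X) := by rw [h3, mul_one]
        rw [h3] at h2
        have h5 : ((w : ↥C) : X) = ((w' : ↥C) : X) := by simpa using h2
        have h6 : a = a' := Subtype.ext h4
        have h7 : w = w' := Subtype.ext (Subtype.ext h5)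
        rw [h6, h7]
    have h1 := Nat.card_le_card_of_injective g hginj
    rw [Finite.card_option, Nat.card_prod] at h1
    have h2 : Nat.card {w : ↥C // w ≠ 1} = Nat.card C - 1 := by
      haveI : Fintype ↥C := Fintype.ofFinite _
      rw [Nat.card_eq_fintype_card, Nat.card_eq_fintype_card, Fintype.card_subtype_compl,
        Fintype.card_subtype_eq]
    rw [h2] at h1
    exact h1
  obtain ⟨π, hπ⟩ : ∃ π : X →* X ⧸ H, π = QuotientGroup.mk' H := ⟨_, rfl⟩
  have hπ1 : ∀ y : X, π y = 1 ↔ y ∈ H := by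
    intro y; rw [hπ]; exact QuotientGroup.eq_one_iff y
  have hYodd : ∀ S : Subgroup (X ⧸ H), Odd (Nat.card S) := by
    intro S
    apply Odd.of_dvd_nat hodd
    refine dvd_trans (Subgroup.card_subgroup_dvd_card S) ?_
    exact ⟨Nat.card H, Subgroup.card_eq_card_quotient_mul_card_subgroup H⟩
  have hAH : ∀ a ∈ A, a ∈ H → a = 1 := by
    intro a ha haH
    obtain ⟨i, hi'⟩ := hHo a haH
    have h1 : orderOf a ∣ Nat.card A := by
      have h4 := orderOf_dvd_natCard (⟨a, ha⟩ : A)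
      rwa [Subgroup.orderOf_mk] at h4
    have h2 : orderOf a ∣ Nat.gcd (Nat.card A) (p ^ i) := Nat.dvd_gcd h1 (by rw [hi'])
    have h3 : Nat.gcd (Nat.card A) (p ^ i) = 1 := Nat.Coprime.pow_right i hAcop
    rw [h3, Nat.dvd_one, orderOf_eq_one_iff] at h2
    exact h2
  have hii : 2 * Nat.card (E.map π) + 1 ≤ Nat.card A := by
    have h1 : 2 * Nat.card (E.map π) + 1 ≤ Nat.card (A.map π) := by
      apply free_conj_card (A.map π) (E.map π)
      · intro hb
        apply hA1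
        rw [Subgroup.eq_bot_iff_forall]
        intro a ha
        have h2 : π a ∈ A.map π := Subgroup.mem_map_of_mem π ha
        rw [hb, Subgroup.mem_bot, hπ1] at h2
        exact hAH a ha h2
      · rintro _ ⟨e, he, rfl⟩ _ ⟨a, ha, rfl⟩
        have h2 : e * a * e⁻¹ ∈ H ⊔ A := hKn.conj_mem _ ((le_sup_right : A ≤ _) ha) e
        obtain ⟨h, hh, a', ha', hha⟩ := Subgroup.mem_sup_of_normal_left.mp h2
        refine ⟨a', ha', ?_⟩
        rw [← map_inv, ← map_mul, ← map_mul, ← hha, map_mul, (hπ1 h).mpr hh, one_mul]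
      · rintro _ ⟨e, he, rfl⟩ he1 _ ⟨a, ha, rfl⟩ ha1 hc
        have heH : e ∉ H := fun h => he1 ((hπ1 e).mpr h)
        have ha1' : a ≠ 1 := by rintro rfl; exact ha1 (map_one π)
        apply hfrob e (hxK e he heH) a ha ha1'
        rw [← hπ1, map_mul, map_mul, map_mul, map_inv, map_inv, hc, mul_inv_cancel]
      · exact hYodd _
      · exact hYodd _
    exact le_trans h1 (Nat.le_of_dvd Nat.card_pos (Subgroup.card_map_dvd A π))
  obtain ⟨E₀, hE₀def⟩ : ∃ E₀ : Subgroup X, E₀ = E ⊓ H := ⟨_, rfl⟩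
  have hE₀E : E₀ ≤ E := by rw [hE₀def]; exact inf_le_left
  have hE₀H : E₀ ≤ H := by rw [hE₀def]; exact inf_le_right
  have hcardE : Nat.card E = Nat.card (E.map π) * Nat.card E₀ := by
    have h1 := Lead.relIndex_mul_card_of_le hE₀E
    have h2 := Subgroup.relIndex_ker (K := E) π
    have h3 : π.ker = H := by rw [hπ]; exact QuotientGroup.ker_mk' H
    rw [h3] at h2
    rw [← h1, ← h2, hE₀def, inf_comm, Subgroup.inf_relIndex_right]
  have hsup := Cfsg.Agent.Lib.Helper5.card_sup_mul_card_inf_of_le_normalizer E₀ V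
    (by rw [Subgroup.normalizer_eq_top]; exact le_top)
  have hinfC : E₀ ⊓ V ≤ C := by
    intro v hv
    rw [hCdef]
    exact ⟨hv.2, mem_cent_singleton.mpr (hEc x hxE v (hE₀E hv.1))⟩
  have hle : Nat.card ↥(E₀ ⊓ V) ≤ Nat.card C := Subgroup.card_le_of_le hinfC
  have hc2 : 1 < Nat.card C := (Subgroup.one_lt_card_iff_ne_bot C).mpr hC1
  refine ⟨E₀ ⊔ V, sup_le hE₀H hVH, ?_, ?_⟩
  · have h1 : E₀ ⊔ V ≤ Subgroup.centralizer ((E₀ ⊔ V : Subgroup X) : Set X) := by
      have hE₀c : E₀ ⊔ V ≤ Subgroup.centralizer (E₀ : Set X) := by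
        apply sup_le
        · intro y hy
          rw [Subgroup.mem_centralizer_iff]
          intro z hz
          exact hEc z (hE₀E hz) y (hE₀E hy)
        · intro v hv
          rw [Subgroup.mem_centralizer_iff]
          intro z hz
          exact hVc v hv z (hE₀H hz)
      have hVc' : E₀ ⊔ V ≤ Subgroup.centralizer (V : Set X) := by
        apply sup_le
        · intro y hy
          rw [Subgroup.mem_centralizer_iff]
          intro v hv
          exact (hVc v hv y (hE₀H hy)).symm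
        · intro v hv
          rw [Subgroup.mem_centralizer_iff]
          intro v' hv'
          exact hVc v hv v' (hVH hv')
      apply sup_le
      · exact Subgroup.le_centralizer_iff.mp hE₀c
      · exact Subgroup.le_centralizer_iff.mp hVc'
    intro y hy z hz
    exact (Subgroup.mem_centralizer_iff.mp (h1 hz)) y hy
  · obtain ⟨c', hc'⟩ : ∃ c' : ℕ, Nat.card C = c' + 2 := ⟨Nat.card C - 2, by omega⟩
    rw [hc'] at hi hle
    have he₀pos : 0 < Nat.card E₀ := Nat.card_pos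
    rw [hcardE]
    have h1 : (2 * Nat.card (E.map π) + 1) * (c' + 1) + 1 ≤ Nat.card V := by
      have h0 : c' + 2 - 1 = c' + 1 := by omega
      rw [h0] at hi
      exact le_trans (Nat.add_le_add_right (Nat.mul_le_mul_right _ hii) 1) hi
    have h2 : Nat.card (E.map π) * (c' + 2) < Nat.card V := by nlinarith
    have h3 : Nat.card ↥(E₀ ⊔ V) * Nat.card ↥(E₀ ⊓ V) ≤ Nat.card ↥(E₀ ⊔ V) * (c' + 2) :=
      Nat.mul_le_mul_left _ hle
    have h4 : Nat.card E₀ * (Nat.card (E.map π) * (c' + 2)) < Nat.card E₀ * Nat.card V :=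
      Nat.mul_lt_mul_of_pos_left h2 he₀pos
    have h5 : (Nat.card (E.map π) * Nat.card E₀) * (c' + 2) < Nat.card ↥(E₀ ⊔ V) * (c' + 2) := by
      calc (Nat.card (E.map π) * Nat.card E₀) * (c' + 2)
          = Nat.card E₀ * (Nat.card (E.map π) * (c' + 2)) := by ring
        _ < Nat.card E₀ * Nat.card V := h4
        _ = Nat.card ↥(E₀ ⊔ V) * Nat.card ↥(E₀ ⊓ V) := hsup.symm
        _ ≤ Nat.card ↥(E₀ ⊔ V) * (c' + 2) := h3
    exact lt_of_mul_lt_mul_right h5 (Nat.zero_le _)

end Cfsg.Agent.Lib.Helper6
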