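import Mathlib
import Cfsg.Agent.Lib.Helper6.CN6

set_option autoImplicit false

namespace Cfsg.Agent.Lib.Helper6

open Cfsg.Agent.S1473 Cfsg.Agent.S1477 Cfsg.Agent.S1474
open scoped Pointwise commutatorElement

universe u

/-- `E` is an abelian subgroup of `S` of maximal order -/
def IsMaxAb {G : Type u} [Group G] (S E : Subgroup G) : Prop :=
  E ≤ S ∧ (∀ x ∈ E, ∀ y ∈ E, x * y = y * x) ∧
    ∀ E' : Subgroup G, E' ≤ S → (∀ x ∈ E', ∀ y ∈ E', x * y = y * x) → Nat.card E' ≤ Nat.card E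

/-- the Thompson subgroup: the join of the abelian subgroups of maximal order -/
def Jsub {G : Type u} [Group G] (S : Subgroup G) : Subgroup G := sSup {E | IsMaxAb S E}

theorem jsub_def {G : Type u} [Group G] (S : Subgroup G) : Jsub S = sSup {E | IsMaxAb S E} := rfl

theorem isMaxAb_def {G : Type u} [Group G] (S E : Subgroup G) : IsMaxAb S E ↔
    (E ≤ S ∧ (∀ x ∈ E, ∀ y ∈ E, x * y = y * x) ∧
    ∀ E' : Subgroup G, E' ≤ S → (∀ x ∈ E', ∀ y ∈ E', x * y = y * x) → Nat.card E' ≤ Nat.card E) :=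
  Iff.rfl

theorem exists_isMaxAb {G : Type u} [Group G] [Finite G] (S : Subgroup G) : ∃ E, IsMaxAb S E := by
  classical
  haveI : Nonempty {E : Subgroup G // E ≤ S ∧ ∀ x ∈ E, ∀ y ∈ E, x * y = y * x} :=
    ⟨⟨⊥, bot_le, by
      intro x hx y hy
      rw [Subgroup.mem_bot] at hx hy
      rw [hx, hy]⟩⟩
  obtain ⟨E, hE⟩ := Finite.exists_max
    (fun E : {E : Subgroup G // E ≤ S ∧ ∀ x ∈ E, ∀ y ∈ E, x * y = y * x} =>
      Nat.card (E : Subgroup G))
  exact ⟨E.1, E.2.1, E.2.2, fun E' h1 h2 => hE ⟨E', h1, h2⟩⟩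

theorem jsub_le {G : Type u} [Group G] (S : Subgroup G) : Jsub S ≤ S :=
  sSup_le fun _ hE => hE.1

theorem jsub_ne_bot {G : Type u} [Group G] [Finite G] (S : Subgroup G) (hS : S ≠ ⊥) :
    Jsub S ≠ ⊥ := by
  obtain ⟨x, hxS, hx1⟩ : ∃ x ∈ S, x ≠ 1 := by
    by_contra hc
    apply hS
    rw [Subgroup.eq_bot_iff_forall]
    intro w hw
    by_contra hw1
    exact hc ⟨w, hw, hw1⟩
  obtain ⟨E, hE⟩ := exists_isMaxAb S
  have h1 : Nat.card (Subgroup.zpowers x) ≤ Nat.card E := by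
    apply hE.2.2 _ (Subgroup.zpowers_le.mpr hxS)
    intro a ha b hb
    obtain ⟨i, rfl⟩ := Subgroup.mem_zpowers_iff.mp ha
    obtain ⟨j, rfl⟩ := Subgroup.mem_zpowers_iff.mp hb
    rw [← zpow_add, ← zpow_add, add_comm]
  have h2 : 1 < Nat.card (Subgroup.zpowers x) := by
    rw [Subgroup.one_lt_card_iff_ne_bot]
    intro h
    apply hx1
    have h3 : x ∈ Subgroup.zpowers x := Subgroup.mem_zpowers x
    rw [h, Subgroup.mem_bot] at h3
    exact h3
  have h3 : E ≠ ⊥ := (Subgroup.one_lt_card_iff_ne_bot E).mp (lt_of_lt_of_le h2 h1)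
  intro h
  apply h3
  have h4 : E ≤ Jsub S := le_sSup hE
  rw [h] at h4
  exact le_bot_iff.mp h4

theorem map_symm_map_eq {G : Type u} [Group G] (φ : G ≃* G) (K : Subgroup G) :
    (K.map φ.toMonoidHom).map φ.symm.toMonoidHom = K := by
  ext x
  constructor
  · rintro ⟨_, ⟨y, hy, rfl⟩, rfl⟩
    simpa using hy
  · intro hx
    exact ⟨φ x, ⟨x, hx, rfl⟩, by simp⟩

theorem isMaxAb_map {G : Type u} [Group G] [Finite G] (φ : G ≃* G) (S E : Subgroup G)
    (h : IsMaxAb S E) : IsMaxAb (S.map φ.toMonoidHom) (E.map φ.toMonoidHom) := by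
  refine ⟨Subgroup.map_mono h.1, ?_, ?_⟩
  · rintro _ ⟨a, ha, rfl⟩ _ ⟨b, hb, rfl⟩
    rw [← map_mul, ← map_mul, h.2.1 a ha b hb]
  · intro E' hE'S hE'c
    have h1 : E'.map φ.symm.toMonoidHom ≤ S := by
      have h2 := Subgroup.map_mono (f := φ.symm.toMonoidHom) hE'S
      rwa [map_symm_map_eq] at h2
    have h3 : ∀ x ∈ E'.map φ.symm.toMonoidHom, ∀ y ∈ E'.map φ.symm.toMonoidHom,
        x * y = y * x := by
      rintro _ ⟨a, ha, rfl⟩ _ ⟨b, hb, rfl⟩
      rw [← map_mul, ← map_mul, hE'c a ha b hb]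
    have h4 := h.2.2 _ h1 h3
    rw [Subgroup.card_map_of_injective φ.symm.injective] at h4
    rw [Subgroup.card_map_of_injective φ.injective]
    exact h4

theorem jsub_map_le {G : Type u} [Group G] [Finite G] (φ : G ≃* G) (S : Subgroup G) :
    (Jsub S).map φ.toMonoidHom ≤ Jsub (S.map φ.toMonoidHom) := by
  rw [Subgroup.map_le_iff_le_comap]
  apply sSup_le
  intro E hE
  rw [← Subgroup.map_le_iff_le_comap]
  exact le_sSup (isMaxAb_map φ S E hE)

theorem jsub_map {G : Type u} [Group G] [Finite G] (φ : G ≃* G) (S : Subgroup G) :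
    Jsub (S.map φ.toMonoidHom) = (Jsub S).map φ.toMonoidHom := by
  apply le_antisymm _ (jsub_map_le φ S)
  have h1 := jsub_map_le φ.symm (S.map φ.toMonoidHom)
  rw [map_symm_map_eq] at h1
  have h2 := Subgroup.map_mono (f := φ.toMonoidHom) h1
  have h3 := map_symm_map_eq φ.symm (Jsub (S.map φ.toMonoidHom))
  rw [MulEquiv.symm_symm] at h3
  rwa [h3] at h2

theorem normalizer_le_jsub {G : Type u} [Group G] [Finite G] (S : Subgroup G) :
    Subgroup.normalizer (S : Set G) ≤ Subgroup.normalizer (Jsub S : Set G) := by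
  intro g hg
  rw [Subgroup.mem_normalizer_iff_map_conj_eq] at hg ⊢
  have h1 := jsub_map (MulAut.conj g) S
  have hg' : S.map (MulAut.conj g).toMonoidHom = S := hg
  rw [hg'] at h1
  exact h1.symm

theorem jsub_eq_of_le {G : Type u} [Group G] [Finite G] (H T : Subgroup G) (hHT : H ≤ T)
    (h : ∀ E, IsMaxAb T E → E ≤ H) : Jsub T = Jsub H := by
  rw [jsub_def, jsub_def]
  congr 1
  ext E
  constructor
  · intro hE
    exact ⟨h E hE, hE.2.1, fun E' h1 h2 => hE.2.2 E' (le_trans h1 hHT) h2⟩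
  · intro hE
    refine ⟨le_trans hE.1 hHT, hE.2.1, ?_⟩
    intro E' h1 h2
    obtain ⟨E₀, hE₀⟩ := exists_isMaxAb T
    exact le_trans (hE₀.2.2 E' h1 h2) (hE.2.2 E₀ (h E₀ hE₀) hE₀.2.1)

/-- `T` is a maximal `p`-subgroup of `N` -/
def IsMaxP {G : Type u} [Group G] (p : ℕ) (N T : Subgroup G) : Prop :=
  T ≤ N ∧ IsPGroup p T ∧ ∀ T' : Subgroup G, T' ≤ N → IsPGroup p T' → T ≤ T' → T' = T

theorem isMaxP_def {G : Type u} [Group G] (p : ℕ) (N T : Subgroup G) : IsMaxP p N T ↔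
    (T ≤ N ∧ IsPGroup p T ∧ ∀ T' : Subgroup G, T' ≤ N → IsPGroup p T' → T ≤ T' → T' = T) :=
  Iff.rfl

theorem exists_isMaxP_ge {G : Type u} [Group G] [Finite G] {p : ℕ} (N R : Subgroup G)
    (hRN : R ≤ N) (hR : IsPGroup p R) : ∃ T, IsMaxP p N T ∧ R ≤ T := by
  obtain ⟨T, hRT, hT⟩ := Finite.exists_le_maximal
    (p := fun K : Subgroup G => K ≤ N ∧ IsPGroup p K) ⟨hRN, hR⟩
  exact ⟨T, ⟨hT.1.1, hT.1.2, fun T' h1 h2 h3 => le_antisymm (hT.2 ⟨h1, h2⟩ h3) h3⟩, hRT⟩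

theorem isMaxP_sylow {G : Type u} [Group G] [Finite G] {p : ℕ} [Fact p.Prime] (N T : Subgroup G)
    (h : IsMaxP p N T) : ∃ R : Sylow p ↥N, (R : Subgroup ↥N).map N.subtype = T := by
  have h1 : IsPGroup p (T.subgroupOf N) := h.2.1.comap_subtype
  obtain ⟨R, hR⟩ := h1.exists_le_sylow
  refine ⟨R, ?_⟩
  apply h.2.2 _ (Subgroup.map_subtype_le _) (R.isPGroup'.map _)
  have h2 := Subgroup.map_mono (f := N.subtype) hR
  rwa [Subgroup.map_subgroupOf_eq_of_le h.1] at h2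

theorem isMaxP_normal_le {G : Type u} [Group G] [Finite G] {p : ℕ} (N T : Subgroup G)
    (h : IsMaxP p N T) (Q : Subgroup G) (hQN : Q ≤ N) (hQ : IsPGroup p Q)
    (hn : N ≤ Subgroup.normalizer (Q : Set G)) : Q ≤ T := by
  have h1 : IsPGroup p (Q ⊔ T : Subgroup G) :=
    IsPGroup.to_sup_of_normal_left' hQ h.2.1 (le_trans h.1 hn)
  have h2 := h.2.2 _ (sup_le hQN h.1) h1 le_sup_right
  rw [← h2]
  exact le_sup_left

theorem sylow_isMaxP {G : Type u} [Group G] {p : ℕ} (P : Sylow p G) (N : Subgroup G)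
    (hPN : (P : Subgroup G) ≤ N) : IsMaxP p N (P : Subgroup G) :=
  ⟨hPN, P.isPGroup', fun _ _ h2 h3 => P.is_maximal' h2 h3⟩

/-- Sylow's theorem inside a subgroup containing a Sylow subgroup of the whole group -/
theorem sylow_conj_in {G : Type u} [Group G] [Finite G] {p : ℕ} [Fact p.Prime] (M : Subgroup G)
    (P : Sylow p G) (hPM : (P : Subgroup G) ≤ M) (R : Subgroup G) (hRM : R ≤ M)
    (hR : IsPGroup p R) : ∃ m ∈ M, ∀ r ∈ R, m⁻¹ * r * m ∈ (P : Subgroup G) := by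
  have h1 : IsPGroup p (R.subgroupOf M) := hR.comap_subtype
  obtain ⟨Q', hQ'⟩ := h1.exists_le_sylow
  obtain ⟨m, hm⟩ := MulAction.exists_smul_eq ↥M (P.subtype hPM) Q'
  refine ⟨(m : G), m.2, ?_⟩
  intro r hr
  have h2 : (⟨r, hRM hr⟩ : ↥M) ∈ (Q' : Subgroup ↥M) := hQ' (Subgroup.mem_subgroupOf.mpr hr)
  rw [← hm, Sylow.coe_subgroup_smul, Lead.mem_conj_smul, Sylow.coe_subtype,
    Subgroup.mem_subgroupOf] at h2
  exact h2

end Cfsg.Agent.Lib.Helper6
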