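import Mathlib
import Cfsg.Agent.Lib.Helper6.CN7

set_option autoImplicit false

namespace Cfsg.Agent.Lib.Helper6

open Cfsg.Agent.S1473 Cfsg.Agent.S1477 Cfsg.Agent.S1474
open scoped Pointwise commutatorElement

universe u

theorem exists_ne_one_of_ne_bot {G : Type u} [Group G] (Q : Subgroup G) (hQ1 : Q ≠ ⊥) :
    ∃ x ∈ Q, x ≠ 1 := by
  by_contra hc
  apply hQ1
  rw [Subgroup.eq_bot_iff_forall]
  intro w hw
  by_contra hw1
  exact hc ⟨w, hw, hw1⟩

theorem orderOf_of_mem_pgroup {G : Type u} [Group G] {p : ℕ} [Fact p.Prime] {Q : Subgroup G}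
    (hQ : IsPGroup p Q) {x : G} (hx : x ∈ Q) : ∃ i : ℕ, orderOf x = p ^ i := by
  obtain ⟨k, hk⟩ := (IsPGroup.iff_orderOf.mp hQ) ⟨x, hx⟩
  exact ⟨k, by rw [← hk, Subgroup.orderOf_mk]⟩

theorem dvd_card_of_pelt {G : Type u} [Group G] [Finite G] {p : ℕ} [Fact p.Prime] {x : G}
    (hx1 : x ≠ 1) {i : ℕ} (hi : orderOf x = p ^ i) (H : Subgroup G) (hxH : x ∈ H) :
    p ∣ Nat.card H := by
  have hk0 : i ≠ 0 := by
    rintro rfl
    rw [pow_zero, orderOf_eq_one_iff] at hi
    exact hx1 hi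
  have h1 : orderOf x ∣ Nat.card H := by
    have h2 := orderOf_dvd_natCard (⟨x, hxH⟩ : H)
    rwa [Subgroup.orderOf_mk] at h2
  rw [hi] at h1
  exact dvd_trans (dvd_pow_self p hk0) h1

/-- a minimal simple group is not solvable, so no `p`-local subgroup is the whole group -/
theorem plocal_ne_top {G : Type u} [Group G] [Finite G] (hG : Cfsg.IsMinSimpleOddOrder G)
    {p : ℕ} [Fact p.Prime] (Q : Subgroup G) (hQ : IsPGroup p Q) (hQ1 : Q ≠ ⊥) :
    Subgroup.normalizer (Q : Set G) ≠ ⊤ := by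
  intro h
  haveI := hG.2.1
  have hQn : Q.Normal := Subgroup.normalizer_eq_top_iff.mp h
  rcases hQn.eq_bot_or_eq_top with h1 | h1
  · exact hQ1 h1
  · have hGp : IsPGroup p G := by
      intro g
      obtain ⟨k, hk⟩ := hQ ⟨g, by rw [h1]; trivial⟩
      refine ⟨k, ?_⟩
      have := congrArg Subtype.val hk
      simpa using this
    haveI := hGp.isNilpotent
    have hsolv : Group.IsSolvable G := inferInstance
    apply hG.2.2.1
    exact ⟨⟨fun a b => (IsSimpleGroup.comm_iff_isSolvable.mpr hsolv) a b⟩⟩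

theorem commutator_eq_top_of_minsimple {G : Type u} [Group G] [Finite G]
    (hG : Cfsg.IsMinSimpleOddOrder G) : commutator G = ⊤ := by
  haveI := hG.2.1
  have hn : (commutator G).Normal := inferInstance
  rcases hn.eq_bot_or_eq_top with h1 | h1
  · exfalso
    apply hG.2.2.1
    rw [commutator_def, Subgroup.commutator_eq_bot_iff_le_centralizer] at h1
    refine ⟨⟨fun a b => ?_⟩⟩
    have h2 := h1 (Subgroup.mem_top a)
    rw [Subgroup.mem_centralizer_iff] at h2
    exact (h2 b (Subgroup.mem_top b)).symm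
  · exact h1

/-- a `p`-local subgroup either has a normal Sylow `p`-subgroup or is a three-step group -/
theorem plocal_cases {G : Type u} [Group G] [Finite G] (hG : Cfsg.IsMinSimpleOddOrder G)
    (hCN : Cfsg.IsCNGroup G) {p : ℕ} [Fact p.Prime]
    (hCC : ∀ x y : G, x ≠ 1 → (∃ i : ℕ, orderOf x = p ^ i) → y ≠ 1 → (orderOf y).Coprime p →
      x * y ≠ y * x)
    (Q : Subgroup G) (hQ : IsPGroup p Q) (hQ1 : Q ≠ ⊥) (N : Subgroup G)
    (hN : N = Subgroup.normalizer (Q : Set G)) :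
    (∃ R : Sylow p ↥N, (R : Subgroup ↥N).Normal) ∨
    (Cfsg.IsThreeStepGroup p ↥N ∧ ∀ q : ℕ, q.Prime → q ≠ p → Cfsg.pCore q ↥N = ⊥) := by
  classical
  have hp : p.Prime := Fact.out
  have hNtop : N ≠ ⊤ := by rw [hN]; exact plocal_ne_top hG Q hQ hQ1
  haveI : Group.IsSolvable ↥N := hG.2.2.2 N hNtop
  have hCNN : Cfsg.IsCNGroup ↥N := cn_sub hCN N
  have hQN : Q ≤ N := by rw [hN]; exact Subgroup.le_normalizer
  obtain ⟨x, hxQ, hx1⟩ := exists_ne_one_of_ne_bot Q hQ1
  haveI : Nontrivial ↥N := ⟨⟨⟨x, hQN hxQ⟩, 1, fun h => hx1 (congrArg Subtype.val h)⟩⟩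
  have hQ'n : (Q.subgroupOf N).Normal :=
    (Subgroup.normal_subgroupOf_iff_le_normalizer hQN).mpr (by rw [hN])
  have hQ'p : IsPGroup p (Q.subgroupOf N) := hQ.comap_subtype
  have hxQ' : (⟨x, hQN hxQ⟩ : ↥N) ∈ Q.subgroupOf N := Subgroup.mem_subgroupOf.mpr hxQ
  have hcore : Cfsg.pCore p ↥N ≠ ⊥ := by
    intro h
    have h1 : Q.subgroupOf N ≤ Cfsg.pCore p ↥N := le_sSup ⟨hQ'n, hQ'p⟩
    rw [h] at h1
    have h2 := h1 hxQ'
    rw [Subgroup.mem_bot] at h2
    exact hx1 (congrArg Subtype.val h2)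
  by_cases hns : ∀ (q : ℕ) [Fact q.Prime] (S : Sylow q ↥N), (S : Subgroup ↥N).Normal →
      (S : Subgroup ↥N) = ⊥
  · right
    obtain ⟨p', hp', hts, huniq⟩ := cn_three_step hCNN hns
    have hpp : p' = p := by
      by_contra hne
      exact hcore (huniq p hp (Ne.symm hne))
    rw [hpp] at hts huniq
    exact ⟨hts, huniq⟩
  · left
    push_neg at hns
    obtain ⟨q, hqf, S, hSn, hS1⟩ := hns
    by_cases hqp : q = p
    · subst hqp
      exact ⟨S, hSn⟩
    · exfalso
      have hq : q.Prime := hqf.out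
      obtain ⟨y, hyS, hy1⟩ := exists_ne_one_of_ne_bot (S : Subgroup ↥N) hS1
      have hdisj : Disjoint (Q.subgroupOf N) (S : Subgroup ↥N) :=
        IsPGroup.disjoint_of_ne p q (Ne.symm hqp) _ _ hQ'p S.isPGroup'
      have hcomm := Subgroup.commute_of_normal_of_disjoint _ _ hQ'n hSn hdisj
        ⟨x, hQN hxQ⟩ y hxQ' hyS
      obtain ⟨i, hi⟩ := orderOf_of_mem_pgroup hQ hxQ
      obtain ⟨j, hj⟩ := (IsPGroup.iff_orderOf.mp S.isPGroup') ⟨y, hyS⟩
      rw [Subgroup.orderOf_mk] at hj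
      apply hCC x (y : G) hx1 ⟨i, hi⟩ (fun h => hy1 (Subtype.ext h)) _
        (congrArg Subtype.val hcomm.eq)
      rw [Subgroup.orderOf_coe, hj]
      exact Nat.Coprime.pow_left j ((Nat.coprime_primes hq hp).mpr hqp)

/-- a `p`-local subgroup normalizes the Thompson subgroup of its Sylow `p`-subgroups -/
theorem plocal_le_normalizer_jsub {G : Type u} [Group G] [Finite G]
    (hG : Cfsg.IsMinSimpleOddOrder G) (hCN : Cfsg.IsCNGroup G) {p : ℕ} [Fact p.Prime]
    (hCC : ∀ x y : G, x ≠ 1 → (∃ i : ℕ, orderOf x = p ^ i) → y ≠ 1 → (orderOf y).Coprime p →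
      x * y ≠ y * x)
    (Q : Subgroup G) (hQ : IsPGroup p Q) (hQ1 : Q ≠ ⊥) (N : Subgroup G)
    (hN : N = Subgroup.normalizer (Q : Set G)) (T : Subgroup G) (hT : IsMaxP p N T) :
    N ≤ Subgroup.normalizer (Jsub T : Set G) := by
  classical
  have hp : p.Prime := Fact.out
  obtain ⟨R, hR⟩ := isMaxP_sylow N T hT
  rcases plocal_cases hG hCN hCC Q hQ hQ1 N hN with ⟨R', hR'n⟩ | ⟨hts, huniq⟩
  · have hRR' : R = R' := by
      obtain ⟨g, hg⟩ := MulAction.exists_smul_eq ↥N R' R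
      rw [← hg]
      haveI := hR'n
      exact Sylow.smul_eq_of_normal
    have hNT : N ≤ Subgroup.normalizer (T : Set G) := by
      intro n hn
      apply mem_normalizer_of_conj_mem
      intro t ht
      rw [← hR] at ht ⊢
      obtain ⟨t', ht', rfl⟩ := ht
      refine ⟨⟨n, hn⟩ * t' * ⟨n, hn⟩⁻¹, ?_, rfl⟩
      rw [hRR'] at ht' ⊢
      exact hR'n.conj_mem t' ht' ⟨n, hn⟩
    exact le_trans hNT (normalizer_le_jsub T)
  · have hCNN : Cfsg.IsCNGroup ↥N := cn_sub hCN N
    have hcore : Cfsg.pCore p ↥N ≠ ⊥ := hts.1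
    obtain ⟨H, hHdef⟩ : ∃ H : Subgroup G, H = (Cfsg.pCore p ↥N).map N.subtype := ⟨_, rfl⟩
    have hHT : H ≤ T := by
      rw [hHdef, ← hR]
      exact Subgroup.map_mono (Lead.pCore_le_sylow' R)
    have hNH : N ≤ Subgroup.normalizer (H : Set G) := by
      intro n hn
      apply mem_normalizer_of_conj_mem
      intro h hh
      rw [hHdef] at hh ⊢
      obtain ⟨h', hh', rfl⟩ := hh
      exact ⟨⟨n, hn⟩ * h' * ⟨n, hn⟩⁻¹, (Lead.pCore_normal p ↥N).conj_mem h' hh' ⟨n, hn⟩, rfl⟩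
    have hkey : ∀ E, IsMaxAb T E → E ≤ H := by
      intro E hE
      by_contra hEH
      have hET : E ≤ T := hE.1
      have hEN : E ≤ N := le_trans hET hT.1
      have hE'p : IsPGroup p (E.subgroupOf N) := (hT.2.1.to_le hET).comap_subtype
      have hE'c : ∀ x ∈ E.subgroupOf N, ∀ y ∈ E.subgroupOf N, x * y = y * x := by
        intro x hx y hy
        exact Subtype.ext (hE.2.1 x (Subgroup.mem_subgroupOf.mp hx) y
          (Subgroup.mem_subgroupOf.mp hy))
      have hE'H : ¬ E.subgroupOf N ≤ Cfsg.pCore p ↥N := by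
        intro hle
        apply hEH
        intro e he
        rw [hHdef]
        exact ⟨⟨e, hEN he⟩, hle (Subgroup.mem_subgroupOf.mpr he), rfl⟩
      have hoddN : Odd (Nat.card ↥N) :=
        Odd.of_dvd_nat hG.1 (Subgroup.card_subgroup_dvd_card N)
      obtain ⟨E'', hE''H, hE''c, hlt⟩ := ts_abelian_bigger hoddN hts
        (fun x y hx1 ⟨i, hi⟩ hy1 hyo => cn_no_comm hCNN hcore huniq x y hx1 hi hy1 hyo)
        (E.subgroupOf N) hE'p hE'c hE'H
      have h1 : E''.map N.subtype ≤ T :=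
        le_trans (by rw [hHdef]; exact Subgroup.map_mono hE''H) hHT
      have h2 : ∀ x ∈ E''.map N.subtype, ∀ y ∈ E''.map N.subtype, x * y = y * x := by
        rintro _ ⟨a, ha, rfl⟩ _ ⟨b, hb, rfl⟩
        rw [← map_mul, ← map_mul, hE''c a ha b hb]
      have h3 := hE.2.2 _ h1 h2
      rw [Subgroup.card_map_of_injective N.subtype_injective] at h3
      have h4 : Nat.card (E.subgroupOf N) = Nat.card E := Lead.card_subgroupOf_of_le hEN
      omega
    rw [jsub_eq_of_le H T hHT hkey]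
    exact le_trans hNH (normalizer_le_jsub H)

/-- every `p`-local subgroup normalizes the Thompson subgroup of a Sylow `p`-subgroup of `G`
containing a given Sylow `p`-subgroup of the local subgroup -/
theorem plocal_le_sylow_jsub {G : Type u} [Group G] [Finite G]
    (hG : Cfsg.IsMinSimpleOddOrder G) (hCN : Cfsg.IsCNGroup G) {p : ℕ} [Fact p.Prime]
    (hCC : ∀ x y : G, x ≠ 1 → (∃ i : ℕ, orderOf x = p ^ i) → y ≠ 1 → (orderOf y).Coprime p →
      x * y ≠ y * x) :
    ∀ (n : ℕ) (Q T N : Subgroup G), IsPGroup p Q → Q ≠ ⊥ → N = Subgroup.normalizer (Q : Set G) →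
      IsMaxP p N T → Nat.card G - Nat.card T = n →
      ∃ P : Sylow p G, T ≤ (P : Subgroup G) ∧
        N ≤ Subgroup.normalizer (Jsub (P : Subgroup G) : Set G) := by
  intro n
  induction n using Nat.strong_induction_on with
  | _ n ih =>
    intro Q T N hQ hQ1 hN hT hn
    have hA0 := plocal_le_normalizer_jsub hG hCN hCC Q hQ hQ1 N hN T hT
    obtain ⟨P', hTP'⟩ := hT.2.1.exists_le_sylow
    by_cases hTP : T = (P' : Subgroup G)
    · exact ⟨P', hTP', by rw [← hTP]; exact hA0⟩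
    · have hlt : T < (P' : Subgroup G) := lt_of_le_of_ne hTP' hTP
      obtain ⟨x, hxP, hxN, hxT⟩ :=
        Cfsg.Agent.Lib.Helper6.exists_mem_normalizer_not_mem P'.isPGroup' hlt
      have hQT : Q ≤ T :=
        isMaxP_normal_le N T hT Q (by rw [hN]; exact Subgroup.le_normalizer) hQ (by rw [hN])
      have hT1 : T ≠ ⊥ := by
        intro h
        rw [h] at hQT
        exact hQ1 (le_bot_iff.mp hQT)
      have hJ1 : Jsub T ≠ ⊥ := jsub_ne_bot T hT1
      have hJp : IsPGroup p (Jsub T) := hT.2.1.to_le (jsub_le T)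
      obtain ⟨R, hRdef⟩ : ∃ R : Subgroup G, R = T ⊔ Subgroup.zpowers x := ⟨_, rfl⟩
      have hRP : R ≤ (P' : Subgroup G) := by
        rw [hRdef]; exact sup_le hTP' (Subgroup.zpowers_le.mpr hxP)
      have hRp : IsPGroup p R := P'.isPGroup'.to_le hRP
      have hRN : R ≤ Subgroup.normalizer (Jsub T : Set G) := by
        rw [hRdef]
        apply sup_le
        · exact le_trans Subgroup.le_normalizer (normalizer_le_jsub T)
        · exact Subgroup.zpowers_le.mpr (normalizer_le_jsub T hxN)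
      obtain ⟨T₂, hT₂, hRT₂⟩ :=
        exists_isMaxP_ge (Subgroup.normalizer (Jsub T : Set G)) R hRN hRp
      have hTT₂ : T ≤ T₂ := le_trans (by rw [hRdef]; exact le_sup_left) hRT₂
      have hxT₂ : x ∈ T₂ := hRT₂ (by
        rw [hRdef]
        exact (le_sup_right : Subgroup.zpowers x ≤ _) (Subgroup.mem_zpowers x))
      have hcard : Nat.card T < Nat.card T₂ := by
        by_contra hc
        have h1 := Subgroup.eq_of_le_of_card_ge hTT₂ (not_lt.mp hc)
        rw [← h1] at hxT₂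
        exact hxT hxT₂
      have hcard2 : Nat.card T₂ ≤ Nat.card G := Subgroup.card_le_card_group T₂
      obtain ⟨P, hT₂P, hle⟩ := ih (Nat.card G - Nat.card T₂) (by omega) (Jsub T) T₂ _ hJp hJ1 rfl
        hT₂ rfl
      exact ⟨P, le_trans hTT₂ hT₂P, le_trans hA0 hle⟩

end Cfsg.Agent.Lib.Helper6
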