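import Mathlib
import Cfsg.Agent.Lib.Helper6.CN8

set_option autoImplicit false

namespace Cfsg.Agent.Lib.Helper6

open Cfsg.Agent.S1473 Cfsg.Agent.S1477 Cfsg.Agent.S1474
open scoped Pointwise commutatorElement

universe u

theorem sylow_smul_mem {G : Type u} [Group G] {p : ℕ} (m : G) (P : Sylow p G) (y : G) :
    y ∈ ((m • P : Sylow p G) : Subgroup G) ↔ m⁻¹ * y * m ∈ (P : Subgroup G) := by
  rw [Sylow.coe_subgroup_smul]
  exact Lead.mem_conj_smul

theorem sylow_smul_eq_map {G : Type u} [Group G] {p : ℕ} (m : G) (P : Sylow p G) :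
    ((m • P : Sylow p G) : Subgroup G) = (P : Subgroup G).map (MulAut.conj m).toMonoidHom := by
  ext y
  rw [sylow_smul_mem, Subgroup.mem_map]
  constructor
  · intro h
    exact ⟨m⁻¹ * y * m, h, by show m * (m⁻¹ * y * m) * m⁻¹ = y; group⟩
  · rintro ⟨z, hz, rfl⟩
    show m⁻¹ * (m * z * m⁻¹) * m ∈ _
    have e : m⁻¹ * (m * z * m⁻¹) * m = z := by group
    rw [e]
    exact hz

/-- Sylow `p`-subgroups meeting nontrivially have Thompson subgroups with the same normalizer -/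
theorem jsub_normalizer_eq {G : Type u} [Group G] [Finite G]
    (hG : Cfsg.IsMinSimpleOddOrder G) (hCN : Cfsg.IsCNGroup G) {p : ℕ} [Fact p.Prime]
    (hCC : ∀ x y : G, x ≠ 1 → (∃ i : ℕ, orderOf x = p ^ i) → y ≠ 1 → (orderOf y).Coprime p →
      x * y ≠ y * x) :
    ∀ (n : ℕ) (P₁ P₂ : Sylow p G), (P₁ : Subgroup G) ⊓ (P₂ : Subgroup G) ≠ ⊥ →
      Nat.card G - Nat.card ↥((P₁ : Subgroup G) ⊓ (P₂ : Subgroup G)) = n →
      Subgroup.normalizer (Jsub (P₁ : Subgroup G) : Set G)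
        = Subgroup.normalizer (Jsub (P₂ : Subgroup G) : Set G) := by
  intro n
  induction n using Nat.strong_induction_on with
  | _ n ih =>
    intro P₁ P₂ hne hn
    by_cases heq : (P₁ : Subgroup G) = (P₂ : Subgroup G)
    · rw [heq]
    obtain ⟨D, hDdef⟩ : ∃ D : Subgroup G, D = (P₁ : Subgroup G) ⊓ (P₂ : Subgroup G) := ⟨_, rfl⟩
    rw [← hDdef] at hne hn
    have hD₁ : D ≤ (P₁ : Subgroup G) := by rw [hDdef]; exact inf_le_left
    have hD₂ : D ≤ (P₂ : Subgroup G) := by rw [hDdef]; exact inf_le_right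
    have hDp : IsPGroup p D := P₁.isPGroup'.to_le hD₁
    have hlt₁ : D < (P₁ : Subgroup G) := by
      refine lt_of_le_of_ne hD₁ ?_
      intro h
      apply heq
      have h1 : (P₁ : Subgroup G) ≤ (P₂ : Subgroup G) := by rw [← h]; exact hD₂
      exact (P₁.is_maximal' P₂.isPGroup' h1).symm
    have hlt₂ : D < (P₂ : Subgroup G) := by
      refine lt_of_le_of_ne hD₂ ?_
      intro h
      apply heq
      have h1 : (P₂ : Subgroup G) ≤ (P₁ : Subgroup G) := by rw [← h]; exact hD₁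
      exact P₂.is_maximal' P₁.isPGroup' h1
    obtain ⟨x₁, hx₁P, hx₁N, hx₁D⟩ :=
      Cfsg.Agent.Lib.Helper6.exists_mem_normalizer_not_mem P₁.isPGroup' hlt₁
    obtain ⟨x₂, hx₂P, hx₂N, hx₂D⟩ :=
      Cfsg.Agent.Lib.Helper6.exists_mem_normalizer_not_mem P₂.isPGroup' hlt₂
    obtain ⟨D₁, hD₁def⟩ : ∃ D₁ : Subgroup G, D₁ = D ⊔ Subgroup.zpowers x₁ := ⟨_, rfl⟩
    have hD₁P : D₁ ≤ (P₁ : Subgroup G) := by
      rw [hD₁def]; exact sup_le hD₁ (Subgroup.zpowers_le.mpr hx₁P)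
    have hD₁N : D₁ ≤ Subgroup.normalizer (D : Set G) := by
      rw [hD₁def]; exact sup_le Subgroup.le_normalizer (Subgroup.zpowers_le.mpr hx₁N)
    obtain ⟨T₁, hT₁, hD₁T₁⟩ := exists_isMaxP_ge (Subgroup.normalizer (D : Set G)) D₁ hD₁N
      (P₁.isPGroup'.to_le hD₁P)
    obtain ⟨P₃, hT₁P₃, hNP₃⟩ := plocal_le_sylow_jsub hG hCN hCC _ D T₁ _ hDp hne rfl hT₁ rfl
    have hcardlt : ∀ (P P' : Sylow p G) (x : G), D ≤ (P : Subgroup G) ⊓ (P' : Subgroup G) →
        x ∈ (P : Subgroup G) ⊓ (P' : Subgroup G) → x ∉ D →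
        Nat.card D < Nat.card ↥((P : Subgroup G) ⊓ (P' : Subgroup G)) := by
      intro P P' x hle hx hxD
      by_contra hc
      have h1 := Subgroup.eq_of_le_of_card_ge hle (not_lt.mp hc)
      rw [← h1] at hx
      exact hxD hx
    have hnebot : ∀ (K : Subgroup G), Nat.card D < Nat.card K → K ≠ ⊥ := by
      intro K hK h
      rw [h, Subgroup.card_bot] at hK
      have := Nat.card_pos (α := D)
      omega
    have hGcard : ∀ K : Subgroup G, Nat.card K ≤ Nat.card G := fun K =>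
      Subgroup.card_le_card_group K
    have hx₁T₁ : x₁ ∈ T₁ := hD₁T₁ (by
      rw [hD₁def]
      exact (le_sup_right : Subgroup.zpowers x₁ ≤ _) (Subgroup.mem_zpowers x₁))
    have hDT₁ : D ≤ T₁ := le_trans (by rw [hD₁def]; exact le_sup_left) hD₁T₁
    have h31 : Nat.card D < Nat.card ↥((P₃ : Subgroup G) ⊓ (P₁ : Subgroup G)) :=
      hcardlt P₃ P₁ x₁ (le_inf (le_trans hDT₁ hT₁P₃) hD₁) ⟨hT₁P₃ hx₁T₁, hx₁P⟩ hx₁D
    have e31 := ih (Nat.card G - Nat.card ↥((P₃ : Subgroup G) ⊓ (P₁ : Subgroup G)))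
      (by have := hGcard ((P₃ : Subgroup G) ⊓ (P₁ : Subgroup G)); omega) P₃ P₁
      (hnebot _ h31) rfl
    obtain ⟨D₂, hD₂def⟩ : ∃ D₂ : Subgroup G, D₂ = D ⊔ Subgroup.zpowers x₂ := ⟨_, rfl⟩
    have hD₂P : D₂ ≤ (P₂ : Subgroup G) := by
      rw [hD₂def]; exact sup_le hD₂ (Subgroup.zpowers_le.mpr hx₂P)
    have hD₂M : D₂ ≤ Subgroup.normalizer (Jsub (P₃ : Subgroup G) : Set G) := by
      refine le_trans ?_ hNP₃
      rw [hD₂def]; exact sup_le Subgroup.le_normalizer (Subgroup.zpowers_le.mpr hx₂N)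
    have hP₃M : (P₃ : Subgroup G) ≤ Subgroup.normalizer (Jsub (P₃ : Subgroup G) : Set G) :=
      le_trans Subgroup.le_normalizer (normalizer_le_jsub _)
    obtain ⟨m, hmM, hm⟩ := sylow_conj_in _ P₃ hP₃M D₂ hD₂M (P₂.isPGroup'.to_le hD₂P)
    have hJ5 : Jsub ((m • P₃ : Sylow p G) : Subgroup G) = Jsub (P₃ : Subgroup G) := by
      rw [sylow_smul_eq_map, jsub_map]
      exact Subgroup.mem_normalizer_iff_map_conj_eq.mp hmM
    have hD₂P₅ : D₂ ≤ ((m • P₃ : Sylow p G) : Subgroup G) := fun r hr =>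
      (sylow_smul_mem m P₃ r).mpr (hm r hr)
    have hx₂D₂ : x₂ ∈ D₂ := by
      rw [hD₂def]
      exact (le_sup_right : Subgroup.zpowers x₂ ≤ _) (Subgroup.mem_zpowers x₂)
    have hDD₂ : D ≤ D₂ := by rw [hD₂def]; exact le_sup_left
    have h52 : Nat.card D
        < Nat.card ↥(((m • P₃ : Sylow p G) : Subgroup G) ⊓ (P₂ : Subgroup G)) :=
      hcardlt (m • P₃) P₂ x₂ (le_inf (le_trans hDD₂ hD₂P₅) hD₂) ⟨hD₂P₅ hx₂D₂, hx₂P⟩ hx₂D
    have e52 := ih (Nat.card G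
        - Nat.card ↥(((m • P₃ : Sylow p G) : Subgroup G) ⊓ (P₂ : Subgroup G)))
      (by
        have := hGcard (((m • P₃ : Sylow p G) : Subgroup G) ⊓ (P₂ : Subgroup G))
        omega) (m • P₃) P₂ (hnebot _ h52) rfl
    rw [← e31, ← e52, hJ5]

/-- the normalizer of the Thompson subgroup of a Sylow `p`-subgroup controls fusion -/
theorem jsub_control_fusion {G : Type u} [Group G] [Finite G]
    (hG : Cfsg.IsMinSimpleOddOrder G) (hCN : Cfsg.IsCNGroup G) {p : ℕ} [Fact p.Prime]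
    (hCC : ∀ x y : G, x ≠ 1 → (∃ i : ℕ, orderOf x = p ^ i) → y ≠ 1 → (orderOf y).Coprime p →
      x * y ≠ y * x)
    (P : Sylow p G) (x : G) (hxP : x ∈ (P : Subgroup G)) (hx1 : x ≠ 1) (u : G)
    (hu : u * x * u⁻¹ ∈ (P : Subgroup G)) :
    u ∈ Subgroup.normalizer (Jsub (P : Subgroup G) : Set G) := by
  have hmem₂ : ∀ y : G, y ∈ ((u⁻¹ • P : Sylow p G) : Subgroup G) ↔
      u * y * u⁻¹ ∈ (P : Subgroup G) := by
    intro y
    rw [sylow_smul_mem, inv_inv]
  have hne : (P : Subgroup G) ⊓ ((u⁻¹ • P : Sylow p G) : Subgroup G) ≠ ⊥ := by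
    intro h
    have h1 : x ∈ (P : Subgroup G) ⊓ ((u⁻¹ • P : Sylow p G) : Subgroup G) :=
      ⟨hxP, (hmem₂ x).mpr hu⟩
    rw [h, Subgroup.mem_bot] at h1
    exact hx1 h1
  have heq := jsub_normalizer_eq hG hCN hCC _ P (u⁻¹ • P) hne rfl
  have hPM : (P : Subgroup G) ≤ Subgroup.normalizer (Jsub (P : Subgroup G) : Set G) :=
    le_trans Subgroup.le_normalizer (normalizer_le_jsub _)
  have hP₂M : ((u⁻¹ • P : Sylow p G) : Subgroup G)
      ≤ Subgroup.normalizer (Jsub (P : Subgroup G) : Set G) := by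
    rw [heq]
    exact le_trans Subgroup.le_normalizer (normalizer_le_jsub _)
  obtain ⟨m, hmM, hm⟩ := sylow_conj_in _ P hPM _ hP₂M (u⁻¹ • P : Sylow p G).isPGroup'
  have h1 : m⁻¹ * u⁻¹ ∈ Subgroup.normalizer ((P : Subgroup G) : Set G) := by
    apply mem_normalizer_of_conj_mem
    intro y hy
    have h2 : u⁻¹ * y * u ∈ ((u⁻¹ • P : Sylow p G) : Subgroup G) := by
      rw [hmem₂]
      have e : u * (u⁻¹ * y * u) * u⁻¹ = y := by group
      rw [e]
      exact hy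
    have h3 := hm _ h2
    have e : m⁻¹ * u⁻¹ * y * (m⁻¹ * u⁻¹)⁻¹ = m⁻¹ * (u⁻¹ * y * u) * m := by group
    rw [e]
    exact h3
  have h2 : m⁻¹ * u⁻¹ ∈ Subgroup.normalizer (Jsub (P : Subgroup G) : Set G) :=
    normalizer_le_jsub _ h1
  have h3 : u⁻¹ ∈ Subgroup.normalizer (Jsub (P : Subgroup G) : Set G) := by
    have e : u⁻¹ = m * (m⁻¹ * u⁻¹) := by group
    rw [e]
    exact Subgroup.mul_mem _ hmM h2
  have h4 := Subgroup.inv_mem _ h3
  rwa [inv_inv] at h4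

/-- a Sylow `p`-subgroup lies in the commutator subgroup of the normalizer of its Thompson
subgroup -/
theorem sylow_le_commutator_map {G : Type u} [Group G] [Finite G]
    (hG : Cfsg.IsMinSimpleOddOrder G) (hCN : Cfsg.IsCNGroup G) {p : ℕ} [Fact p.Prime]
    (hCC : ∀ x y : G, x ≠ 1 → (∃ i : ℕ, orderOf x = p ^ i) → y ≠ 1 → (orderOf y).Coprime p →
      x * y ≠ y * x)
    (P : Sylow p G) (M : Subgroup G)
    (hM : M = Subgroup.normalizer (Jsub (P : Subgroup G) : Set G)) :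
    (P : Subgroup G) ≤ (commutator ↥M).map M.subtype := by
  have hPM : (P : Subgroup G) ≤ M := by
    rw [hM]; exact le_trans Subgroup.le_normalizer (normalizer_le_jsub _)
  have h1 := Subgroup.commutator_inf_eq_focalSubgroup P
  rw [commutator_eq_top_of_minsimple hG, top_inf_eq] at h1
  rw [h1, Subgroup.focalSubgroup_def, Subgroup.closure_le]
  rintro g ⟨hgP, x, hxP, u, rfl⟩
  by_cases hx1 : x = 1
  · rw [hx1, commutatorElement_def]
    simp
  · have hu : u ∈ M := by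
      rw [hM]
      apply jsub_control_fusion hG hCN hCC P x⁻¹ (Subgroup.inv_mem _ hxP)
        (fun h => hx1 (inv_eq_one.mp h)) u
      have e : u * x⁻¹ * u⁻¹ = x⁻¹ * ⁅x, u⁆ := by
        rw [commutatorElement_def]; group
      rw [e]
      exact Subgroup.mul_mem _ (Subgroup.inv_mem _ hxP) hgP
    refine ⟨⁅(⟨x, hPM hxP⟩ : ↥M), (⟨u, hu⟩ : ↥M)⁆, ?_, ?_⟩
    · rw [SetLike.mem_coe, commutator_def]
      exact Subgroup.commutator_mem_commutator (Subgroup.mem_top _) (Subgroup.mem_top _)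
    · rw [commutatorElement_def, commutatorElement_def]
      rfl

end Cfsg.Agent.Lib.Helper6
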