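import Mathlib
import Cfsg.Agent.Lib.Helper6.CN9

set_option autoImplicit false

namespace Cfsg.Agent.Lib.Helper6

open Cfsg.Agent.S1473 Cfsg.Agent.S1477 Cfsg.Agent.S1474
open scoped Pointwise commutatorElement

universe u

/-- if a subgroup `M₀` with nontrivial `p`-core has no nontrivial normal Sylow subgroup, then
no nonidentity `p'`-element centralizes a Sylow `p`-subgroup of `G` containing one of `M₀` -/
theorem cc1_of_bad {G : Type u} [Group G] [Finite G] (hCN : Cfsg.IsCNGroup G) {p : ℕ}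
    [Fact p.Prime] (M₀ : Subgroup G)
    (hns : ∀ (q : ℕ) [Fact q.Prime] (S : Sylow q ↥M₀), (S : Subgroup ↥M₀).Normal →
      (S : Subgroup ↥M₀) = ⊥)
    (hcore : Cfsg.pCore p ↥M₀ ≠ ⊥) (S₀ : Sylow p ↥M₀) (P : Sylow p G)
    (hSP : (S₀ : Subgroup ↥M₀).map M₀.subtype ≤ (P : Subgroup G)) (u : G) (hu1 : u ≠ 1)
    (huo : (orderOf u).Coprime p) (huc : ∀ x ∈ (P : Subgroup G), x * u = u * x) : False := by
  classical
  have hp : p.Prime := Fact.out
  obtain ⟨L, hCL, hLnil, hLmax⟩ := exists_maxnilp_ge _ (hCN u hu1)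
  have hPL : (P : Subgroup G) ≤ L := fun x hx =>
    hCL (mem_cent_singleton.mpr (huc x hx).symm)
  have huL : u ∈ L := hCL (mem_cent_singleton.mpr rfl)
  obtain ⟨h', hh', hh'1⟩ := exists_ne_one_of_ne_bot _ hcore
  have hcoreS : Cfsg.pCore p ↥M₀ ≤ (S₀ : Subgroup ↥M₀) := Lead.pCore_le_sylow' S₀
  have hcoreL : ∀ c ∈ Cfsg.pCore p ↥M₀, (c : G) ∈ L := fun c hc =>
    hPL (hSP ⟨c, hcoreS hc, rfl⟩)
  have hh1 : (h' : G) ≠ 1 := fun h => hh'1 (Subtype.ext h)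
  obtain ⟨i, hi⟩ := orderOf_of_mem_pgroup P.isPGroup' (hSP ⟨h', hcoreS hh', rfl⟩)
  have hpL : p ∣ Nat.card L := dvd_card_of_pelt hh1 hi L (hcoreL h' hh')
  have hnpp : ¬ IsPrimePow (Nat.card L) := by
    intro hpp
    rw [isPrimePow_nat_iff] at hpp
    obtain ⟨r, k, hr, hk, hrk⟩ := hpp
    have hpr : p = r := by
      rw [← hrk] at hpL
      exact (Nat.prime_dvd_prime_iff_eq hp hr).mp (hp.dvd_of_dvd_pow hpL)
    have h1 : orderOf u ∣ Nat.card L := by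
      have h2 := orderOf_dvd_natCard (⟨u, huL⟩ : L)
      rwa [Subgroup.orderOf_mk] at h2
    rw [← hrk, ← hpr] at h1
    have h2 : orderOf u ∣ Nat.gcd (orderOf u) (p ^ k) := Nat.dvd_gcd dvd_rfl h1
    have h3 : Nat.gcd (orderOf u) (p ^ k) = 1 := Nat.Coprime.pow_right k huo
    rw [h3, Nat.dvd_one, orderOf_eq_one_iff] at h2
    exact hu1 h2
  have hcard1 : Nat.card L ≠ 1 := by
    intro h
    rw [Subgroup.card_eq_one] at h
    rw [h, Subgroup.mem_bot] at huL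
    exact hu1 huL
  have hTI := (Cfsg.Agent.S1477.result hCN L hLnil hLmax).2.1 hnpp hcard1
  have hconj : ∀ m : ↥M₀, L.map (MulAut.conj (m : G)).toMonoidHom = L := by
    intro m
    by_contra hne
    have h1 := hTI (m : G) hne
    have h2 : (h' : G) ∈ L ⊓ L.map (MulAut.conj (m : G)).toMonoidHom := by
      refine ⟨hcoreL h' hh', ?_⟩
      have h3 : m⁻¹ * h' * m⁻¹⁻¹ ∈ Cfsg.pCore p ↥M₀ :=
        (Lead.pCore_normal p ↥M₀).conj_mem h' hh' m⁻¹
      refine ⟨((m⁻¹ * h' * m⁻¹⁻¹ : ↥M₀) : G), hcoreL _ h3, ?_⟩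
      show (m : G) * ((m⁻¹ * h' * m⁻¹⁻¹ : ↥M₀) : G) * (m : G)⁻¹ = (h' : G)
      push_cast
      group
    rw [h1, Subgroup.mem_bot] at h2
    exact hh1 h2
  haveI hDn : (L.subgroupOf M₀).Normal := by
    constructor
    intro d hd g
    rw [Subgroup.mem_subgroupOf] at hd ⊢
    have h1 : (g : G) * (d : G) * (g : G)⁻¹ ∈ L.map (MulAut.conj (g : G)).toMonoidHom :=
      ⟨(d : G), hd, rfl⟩
    rw [hconj g] at h1
    simpa using h1
  have hDnil : Group.IsNilpotent ↥(L.subgroupOf M₀) := by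
    have h1 : Group.IsNilpotent ↥(L ⊓ M₀) := nilp_of_le hLnil inf_le_left
    have h2 : L.subgroupOf M₀ = (L ⊓ M₀).subgroupOf M₀ := (Subgroup.inf_subgroupOf_right L M₀).symm
    rw [h2]
    haveI := h1
    exact Group.nilpotent_of_mulEquiv (Subgroup.subgroupOfEquivOfLe (inf_le_right : L ⊓ M₀ ≤ M₀)).symm
  have hSD : (S₀ : Subgroup ↥M₀) ≤ L.subgroupOf M₀ := by
    intro s hs
    rw [Subgroup.mem_subgroupOf]
    exact hPL (hSP ⟨s, hs, rfl⟩)
  have hSn : (S₀ : Subgroup ↥M₀).Normal := sylow_normal_of_le_nilp S₀ (L.subgroupOf M₀) hDnil hSD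
  have hS1 := hns p S₀ hSn
  rw [hS1] at hcoreS
  exact hcore (le_bot_iff.mp hcoreS)

/-- if a subgroup `M₀` with nontrivial `p`-core has no nontrivial normal Sylow subgroup, then
no nonidentity `p`-element of `G` commutes with a nonidentity `p'`-element -/
theorem cc_of_bad {G : Type u} [Group G] [Finite G] (hCN : Cfsg.IsCNGroup G) {p : ℕ}
    [Fact p.Prime] (M₀ : Subgroup G)
    (hns : ∀ (q : ℕ) [Fact q.Prime] (S : Sylow q ↥M₀), (S : Subgroup ↥M₀).Normal →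
      (S : Subgroup ↥M₀) = ⊥)
    (hcore : Cfsg.pCore p ↥M₀ ≠ ⊥) :
    ∀ x y : G, x ≠ 1 → (∃ i : ℕ, orderOf x = p ^ i) → y ≠ 1 → (orderOf y).Coprime p →
      x * y ≠ y * x := by
  intro x y hx1 ⟨i, hi⟩ hy1 hyo hxy
  obtain ⟨S₀⟩ : Nonempty (Sylow p ↥M₀) := inferInstance
  obtain ⟨P, hP⟩ := (S₀.isPGroup'.map M₀.subtype).exists_le_sylow
  obtain ⟨L, hCL, hLnil, hLmax⟩ := exists_maxnilp_ge _ (hCN y hy1)
  have hxL : x ∈ L := hCL (mem_cent_singleton.mpr hxy.symm)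
  have hyL : y ∈ L := hCL (mem_cent_singleton.mpr rfl)
  have hpL : p ∣ Nat.card L := dvd_card_of_pelt hx1 hi L hxL
  obtain ⟨P', hP'L⟩ := sylow_le_maxnilp hCN L hLnil hLmax p hpL
  obtain ⟨g, hg⟩ := MulAction.exists_smul_eq G P' P
  apply cc1_of_bad hCN M₀ hns hcore S₀ P hP (g * y * g⁻¹)
  · intro h
    apply hy1
    calc y = g⁻¹ * (g * y * g⁻¹) * g := by group
      _ = 1 := by rw [h]; group
  · rw [orderOf_conj_eq]
    exact hyo
  · intro z hz
    have hz' : g⁻¹ * z * g ∈ (P' : Subgroup G) := by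
      rw [← hg] at hz
      exact (sylow_smul_mem g P' z).mp hz
    obtain ⟨k, hk⟩ := orderOf_mem_sylow P' hz'
    have h1 := commute_in_nilp hLnil (p := p) (hP'L hz') hyL hk hyo
    calc z * (g * y * g⁻¹) = g * ((g⁻¹ * z * g) * y) * g⁻¹ := by group
      _ = g * (y * (g⁻¹ * z * g)) * g⁻¹ := by rw [h1]
      _ = g * y * g⁻¹ * z := by group

end Cfsg.Agent.Lib.Helper6
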