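import Mathlib
import Cfsg.Agent.Lib.Helper6.CN10
import Cfsg.Agent.S1478

set_option autoImplicit false

namespace Cfsg.Agent.Lib.Helper6

open Cfsg.Agent.S1473 Cfsg.Agent.S1477 Cfsg.Agent.S1474
open scoped Pointwise commutatorElement

universe u

/-- when no `p`-element commutes with a `p'`-element, distinct Sylow `p`-subgroups of a minimal
simple CN-group of odd order meet trivially -/
theorem sylow_ti_aux {G : Type u} [Group G] [Finite G]
    (hG : Cfsg.IsMinSimpleOddOrder G) (hCN : Cfsg.IsCNGroup G) {p : ℕ} [Fact p.Prime]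
    (hCC : ∀ x y : G, x ≠ 1 → (∃ i : ℕ, orderOf x = p ^ i) → y ≠ 1 → (orderOf y).Coprime p →
      x * y ≠ y * x) :
    ∀ (n : ℕ) (P₁ P₂ : Sylow p G), (P₁ : Subgroup G) ⊓ (P₂ : Subgroup G) ≠ ⊥ →
      Nat.card G - Nat.card ↥((P₁ : Subgroup G) ⊓ (P₂ : Subgroup G)) = n →
      (P₁ : Subgroup G) = (P₂ : Subgroup G) := by
  intro n
  induction n using Nat.strong_induction_on with
  | _ n ih =>
    intro P₁ P₂ hne hn
    by_contra heq
    obtain ⟨D, hDdef⟩ : ∃ D : Subgroup G, D = (P₁ : Subgroup G) ⊓ (P₂ : Subgroup G) := ⟨_, rfl⟩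
    rw [← hDdef] at hne hn
    have hD₁ : D ≤ (P₁ : Subgroup G) := by rw [hDdef]; exact inf_le_left
    have hD₂ : D ≤ (P₂ : Subgroup G) := by rw [hDdef]; exact inf_le_right
    have hDp : IsPGroup p D := P₁.isPGroup'.to_le hD₁
    have hlt₁ : D < (P₁ : Subgroup G) := by
      refine lt_of_le_of_ne hD₁ ?_
      intro h
      apply heq
      have h1 : (P₁ : Subgroup G) ≤ (P₂ : Subgroup G) := by rw [← h]; exact hD₂
      exact (P₁.is_maximal' P₂.isPGroup' h1).symm
    have hlt₂ : D < (P₂ : Subgroup G) := by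
      refine lt_of_le_of_ne hD₂ ?_
      intro h
      apply heq
      have h1 : (P₂ : Subgroup G) ≤ (P₁ : Subgroup G) := by rw [← h]; exact hD₁
      exact P₂.is_maximal' P₁.isPGroup' h1
    obtain ⟨x₁, hx₁P, hx₁N, hx₁D⟩ :=
      Cfsg.Agent.Lib.Helper6.exists_mem_normalizer_not_mem P₁.isPGroup' hlt₁
    obtain ⟨x₂, hx₂P, hx₂N, hx₂D⟩ :=
      Cfsg.Agent.Lib.Helper6.exists_mem_normalizer_not_mem P₂.isPGroup' hlt₂
    obtain ⟨N, hNdef⟩ : ∃ N : Subgroup G, N = Subgroup.normalizer (D : Set G) := ⟨_, rfl⟩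
    have hDN : D ≤ N := by rw [hNdef]; exact Subgroup.le_normalizer
    rcases plocal_cases hG hCN hCC D hDp hne N hNdef with ⟨R, hRn⟩ | ⟨hts, -⟩
    · have hRall : ∀ Q' : Subgroup ↥N, IsPGroup p Q' → Q' ≤ (R : Subgroup ↥N) := by
        intro Q' hQ'
        obtain ⟨R', hR'⟩ := hQ'.exists_le_sylow
        have hRR' : R' = R := by
          obtain ⟨g, hg⟩ := MulAction.exists_smul_eq ↥N R R'
          rw [← hg]
          haveI := hRn
          exact Sylow.smul_eq_of_normal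
        rw [← hRR']
        exact hR'
      have hTp : IsPGroup p ((R : Subgroup ↥N).map N.subtype) := R.isPGroup'.map _
      obtain ⟨P₃, hTP₃⟩ := hTp.exists_le_sylow
      have hmemT : ∀ y : G, y ∈ N → (∃ P : Sylow p G, y ∈ (P : Subgroup G)) →
          y ∈ (P₃ : Subgroup G) := by
        intro y hyN ⟨P, hyP⟩
        apply hTP₃
        have h1 : IsPGroup p ((Subgroup.zpowers y).subgroupOf N) :=
          (P.isPGroup'.to_le (Subgroup.zpowers_le.mpr hyP)).comap_subtype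
        have h2 := hRall _ h1
        exact ⟨⟨y, hyN⟩, h2 (Subgroup.mem_subgroupOf.mpr (Subgroup.mem_zpowers y)), rfl⟩
      have hDP₃ : D ≤ (P₃ : Subgroup G) := fun d hd => hmemT d (hDN hd) ⟨P₁, hD₁ hd⟩
      have hx₁P₃ : x₁ ∈ (P₃ : Subgroup G) := hmemT x₁ (by rw [hNdef]; exact hx₁N) ⟨P₁, hx₁P⟩
      have hx₂P₃ : x₂ ∈ (P₃ : Subgroup G) := hmemT x₂ (by rw [hNdef]; exact hx₂N) ⟨P₂, hx₂P⟩
      have hcardlt : ∀ (P P' : Sylow p G) (x : G), D ≤ (P : Subgroup G) ⊓ (P' : Subgroup G) →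
          x ∈ (P : Subgroup G) ⊓ (P' : Subgroup G) → x ∉ D →
          Nat.card D < Nat.card ↥((P : Subgroup G) ⊓ (P' : Subgroup G)) := by
        intro P P' x hle hx hxD
        by_contra hc
        have h1 := Subgroup.eq_of_le_of_card_ge hle (not_lt.mp hc)
        rw [← h1] at hx
        exact hxD hx
      have hnebot : ∀ (K : Subgroup G), Nat.card D < Nat.card K → K ≠ ⊥ := by
        intro K hK h
        rw [h, Subgroup.card_bot] at hK
        have := Nat.card_pos (α := D)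
        omega
      have hGcard : ∀ K : Subgroup G, Nat.card K ≤ Nat.card G := fun K =>
        Subgroup.card_le_card_group K
      have h31 : Nat.card D < Nat.card ↥((P₃ : Subgroup G) ⊓ (P₁ : Subgroup G)) :=
        hcardlt P₃ P₁ x₁ (le_inf hDP₃ hD₁) ⟨hx₁P₃, hx₁P⟩ hx₁D
      have h32 : Nat.card D < Nat.card ↥((P₃ : Subgroup G) ⊓ (P₂ : Subgroup G)) :=
        hcardlt P₃ P₂ x₂ (le_inf hDP₃ hD₂) ⟨hx₂P₃, hx₂P⟩ hx₂D
      have e31 := ih (Nat.card G - Nat.card ↥((P₃ : Subgroup G) ⊓ (P₁ : Subgroup G)))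
        (by have := hGcard ((P₃ : Subgroup G) ⊓ (P₁ : Subgroup G)); omega) P₃ P₁
        (hnebot _ h31) rfl
      have e32 := ih (Nat.card G - Nat.card ↥((P₃ : Subgroup G) ⊓ (P₂ : Subgroup G)))
        (by have := hGcard ((P₃ : Subgroup G) ⊓ (P₂ : Subgroup G)); omega) P₃ P₂
        (hnebot _ h32) rfl
      exact heq (e31.symm.trans e32)
    · exact Cfsg.Agent.S1478.result hG hCN N p hts

/-- every maximal nilpotent subgroup of a minimal simple CN-group of odd order is a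
TI-subgroup -/
theorem maxnilp_ti {G : Type u} [Group G] [Finite G]
    (hG : Cfsg.IsMinSimpleOddOrder G) (hCN : Cfsg.IsCNGroup G) (H : Subgroup G)
    (hH : Group.IsNilpotent H)
    (hmax : ∀ L : Subgroup G, Group.IsNilpotent L → H ≤ L → L = H) :
    ∀ g : G, H.map (MulAut.conj g).toMonoidHom ≠ H →
      H ⊓ H.map (MulAut.conj g).toMonoidHom = ⊥ := by
  classical
  by_cases hpp : IsPrimePow (Nat.card H)
  · obtain ⟨r, k, hr, hk, hrk⟩ := (isPrimePow_nat_iff _).mp hpp
    haveI : Fact r.Prime := ⟨hr⟩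
    have hrH : r ∣ Nat.card H := by rw [← hrk]; exact dvd_pow_self r hk.ne'
    obtain ⟨P, hPH⟩ := sylow_le_maxnilp hCN H hH hmax r hrH
    have hHr : IsPGroup r H := IsPGroup.of_card hrk.symm
    have hHP : H = (P : Subgroup G) := P.is_maximal' hHr hPH
    have hCC : ∀ x y : G, x ≠ 1 → (∃ i : ℕ, orderOf x = r ^ i) → y ≠ 1 →
        (orderOf y).Coprime r → x * y ≠ y * x := by
      intro x y hx1 ⟨i, hi⟩ hy1 hyo hxy
      obtain ⟨L, hCL, hLnil, hLmax⟩ := exists_maxnilp_ge _ (hCN y hy1)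
      have hxL : x ∈ L := hCL (mem_cent_singleton.mpr hxy.symm)
      have hyL : y ∈ L := hCL (mem_cent_singleton.mpr rfl)
      have hrL : r ∣ Nat.card L := dvd_card_of_pelt hx1 hi L hxL
      obtain ⟨g, hg⟩ := maxnilp_conj_of_dvd hCN H L hH hmax hLnil hLmax r hrH hrL
      have hcard : Nat.card L = r ^ k := by
        rw [hg, Subgroup.card_map_of_injective (MulAut.conj g).injective, hrk]
      have h1 : orderOf y ∣ Nat.card L := by
        have h2 := orderOf_dvd_natCard (⟨y, hyL⟩ : L)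
        rwa [Subgroup.orderOf_mk] at h2
      rw [hcard] at h1
      have h2 : orderOf y ∣ Nat.gcd (orderOf y) (r ^ k) := Nat.dvd_gcd dvd_rfl h1
      have h3 : Nat.gcd (orderOf y) (r ^ k) = 1 := Nat.Coprime.pow_right k hyo
      rw [h3, Nat.dvd_one, orderOf_eq_one_iff] at h2
      exact hy1 h2
    intro g hne
    by_contra hbot
    rw [hHP] at hne hbot
    rw [← sylow_smul_eq_map] at hne hbot
    exact hne (sylow_ti_aux hG hCN hCC _ P (g • P) hbot rfl).symm
  · by_cases h1 : Nat.card H = 1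
    · intro g _
      rw [Subgroup.card_eq_one.mp h1]
      exact bot_inf_eq _
    · exact (Cfsg.Agent.S1477.result hCN H hH hmax).2.1 hpp h1

end Cfsg.Agent.Lib.Helper6
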