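import Mathlib
import Cfsg.Agent.Lib.Helper6.CN11
import Cfsg.Agent.S0092

set_option autoImplicit false

namespace Cfsg.Agent.Lib.Helper6

open Cfsg.Agent.S1473 Cfsg.Agent.S1477 Cfsg.Agent.S1474
open scoped Pointwise commutatorElement

universe u

theorem minsimple_not_nilp {G : Type u} [Group G] [Finite G] (hG : Cfsg.IsMinSimpleOddOrder G) :
    ¬ Group.IsNilpotent G := by
  intro h
  haveI := h
  haveI := hG.2.1
  have hsolv : Group.IsSolvable G := inferInstance
  exact hG.2.2.1 ⟨⟨fun a b => (IsSimpleGroup.comm_iff_isSolvable.mpr hsolv) a b⟩⟩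

theorem minsimple_not_nilp_top {G : Type u} [Group G] [Finite G]
    (hG : Cfsg.IsMinSimpleOddOrder G) (H : Subgroup G) (hH : Group.IsNilpotent H) : H ≠ ⊤ := by
  intro h
  apply minsimple_not_nilp hG
  rw [h] at hH
  haveI := hH
  exact Group.nilpotent_of_mulEquiv Subgroup.topEquiv

theorem maxnilp_ne_bot {G : Type u} [Group G] [Finite G] (hG : Cfsg.IsMinSimpleOddOrder G)
    (hCN : Cfsg.IsCNGroup G) (H : Subgroup G)
    (hmax : ∀ L : Subgroup G, Group.IsNilpotent L → H ≤ L → L = H) : H ≠ ⊥ := by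
  haveI := hG.2.1
  obtain ⟨x, hx⟩ := exists_ne (1 : G)
  intro h
  have h1 := hmax _ (hCN x hx) (by rw [h]; exact bot_le)
  have h2 : x ∈ Subgroup.centralizer ({x} : Set G) := mem_cent_singleton.mpr rfl
  rw [h1, h, Subgroup.mem_bot] at h2
  exact hx h2

theorem normalizer_ne_top_of_minsimple {G : Type u} [Group G] [Finite G]
    (hG : Cfsg.IsMinSimpleOddOrder G) (H : Subgroup G) (hH1 : H ≠ ⊥) (hHtop : H ≠ ⊤) :
    Subgroup.normalizer (H : Set G) ≠ ⊤ := by
  intro h
  haveI := hG.2.1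
  have hHn : H.Normal := Subgroup.normalizer_eq_top_iff.mp h
  rcases hHn.eq_bot_or_eq_top with h1 | h1
  · exact hH1 h1
  · exact hHtop h1

/-- an element conjugating a nonidentity element of a TI-subgroup into it normalizes it -/
theorem ti_normalizer {G : Type u} [Group G] (H : Subgroup G)
    (hTI : ∀ g : G, H.map (MulAut.conj g).toMonoidHom ≠ H →
      H ⊓ H.map (MulAut.conj g).toMonoidHom = ⊥)
    (x : G) (hx : x ∈ H) (hx1 : x ≠ 1) (u : G) (hu : u * x * u⁻¹ ∈ H) :
    u ∈ Subgroup.normalizer (H : Set G) := by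
  have h1 : H.map (MulAut.conj u⁻¹).toMonoidHom = H := by
    by_contra hne
    have h2 := hTI u⁻¹ hne
    have h3 : x ∈ H ⊓ H.map (MulAut.conj u⁻¹).toMonoidHom := by
      refine ⟨hx, u * x * u⁻¹, hu, ?_⟩
      show u⁻¹ * (u * x * u⁻¹) * u⁻¹⁻¹ = x
      group
    rw [h2, Subgroup.mem_bot] at h3
    exact hx1 h3
  have h4 : u⁻¹ ∈ Subgroup.normalizer (H : Set G) :=
    Subgroup.mem_normalizer_iff_map_conj_eq.mpr h1
  have h5 := Subgroup.inv_mem _ h4
  rwa [inv_inv] at h5

/-- a maximal nilpotent subgroup of a minimal simple CN-group of odd order is not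
self-normalizing -/
theorem maxnilp_normalizer_not_le {G : Type u} [Group G] [Finite G]
    (hG : Cfsg.IsMinSimpleOddOrder G) (hCN : Cfsg.IsCNGroup G) (H : Subgroup G)
    (hH : Group.IsNilpotent H)
    (hmax : ∀ L : Subgroup G, Group.IsNilpotent L → H ≤ L → L = H) :
    ¬ Subgroup.normalizer (H : Set G) ≤ H := by
  intro hNH
  classical
  have hH1 := maxnilp_ne_bot hG hCN H hmax
  have hcard : Nat.card H ≠ 1 := fun h => hH1 (Subgroup.card_eq_one.mp h)
  obtain ⟨r, hr, hrH⟩ := Nat.exists_prime_and_dvd hcard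
  haveI : Fact r.Prime := ⟨hr⟩
  obtain ⟨P, hPH⟩ := sylow_le_maxnilp hCN H hH hmax r hrH
  have hTI := maxnilp_ti hG hCN H hH hmax
  haveI := hH
  have hsyl := ((Group.isNilpotent_of_finite_tfae (G := H)).out 0 3).mp hH
  have hQn : ((P.subtype hPH : Sylow r H) : Subgroup H).Normal := hsyl r inferInstance _
  have h1 := Subgroup.commutator_inf_eq_focalSubgroup P
  rw [commutator_eq_top_of_minsimple hG, top_inf_eq] at h1
  have hfoc : (P : Subgroup G).focalSubgroup
      ≤ (commutator ↥(P : Subgroup G)).map (P : Subgroup G).subtype := by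
    rw [Subgroup.focalSubgroup_def, Subgroup.closure_le]
    rintro g ⟨hgP, x, hxP, u, rfl⟩
    by_cases hx1 : x = 1
    · rw [hx1, commutatorElement_def]
      simp
    · have huN : u ∈ Subgroup.normalizer (H : Set G) := by
        apply ti_normalizer H hTI x⁻¹ (hPH (Subgroup.inv_mem _ hxP))
          (fun h => hx1 (inv_eq_one.mp h)) u
        have e : u * x⁻¹ * u⁻¹ = x⁻¹ * ⁅x, u⁆ := by
          rw [commutatorElement_def]; group
        rw [e]
        exact hPH (Subgroup.mul_mem _ (Subgroup.inv_mem _ hxP) hgP)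
      have huH : u ∈ H := hNH huN
      obtain ⟨a, b, hab, haz, hbz, ⟨k, hak⟩, hbq⟩ := exists_p_decomp' r hr u
      have haH : a ∈ H := (Subgroup.zpowers_le.mpr huH) haz
      have hbH : b ∈ H := (Subgroup.zpowers_le.mpr huH) hbz
      have haP : a ∈ (P : Subgroup G) := by
        have h2 := mem_sylow_of_normal_of_orderOf (P.subtype hPH) hQn ⟨a, haH⟩ k
          (by rw [Subgroup.orderOf_mk]; exact hak)
        rw [Sylow.coe_subtype, Subgroup.mem_subgroupOf] at h2
        exact h2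
      obtain ⟨i, hi⟩ := orderOf_mem_sylow P hxP
      have hxb : x * b = b * x := commute_in_nilp hH (p := r) (hPH hxP) hbH hi hbq
      have e : ⁅x, u⁆ = ⁅x, a⁆ := by
        rw [commutatorElement_def, commutatorElement_def, ← hab]
        have h2 : b * x⁻¹ * b⁻¹ = x⁻¹ := by
          calc b * x⁻¹ * b⁻¹ = x⁻¹ * (x * b) * x⁻¹ * b⁻¹ := by group
            _ = x⁻¹ * (b * x) * x⁻¹ * b⁻¹ := by rw [hxb]
            _ = x⁻¹ := by group
        calc x * (a * b) * x⁻¹ * (a * b)⁻¹ = x * a * (b * x⁻¹ * b⁻¹) * a⁻¹ := by group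
          _ = x * a * x⁻¹ * a⁻¹ := by rw [h2]
      rw [e]
      refine ⟨⁅(⟨x, hxP⟩ : ↥(P : Subgroup G)), ⟨a, haP⟩⁆, ?_, ?_⟩
      · rw [SetLike.mem_coe, commutator_def]
        exact Subgroup.commutator_mem_commutator (Subgroup.mem_top _) (Subgroup.mem_top _)
      · rw [commutatorElement_def, commutatorElement_def]
        rfl
  have hP1 : (P : Subgroup G) ≠ ⊥ :=
    Sylow.ne_bot_of_dvd_card P (dvd_trans hrH (Subgroup.card_subgroup_dvd_card H))
  haveI : Nontrivial ↥(P : Subgroup G) := (Subgroup.nontrivial_iff_ne_bot _).mpr hP1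
  haveI := P.isPGroup'.isNilpotent
  have hlt : commutator ↥(P : Subgroup G) < ⊤ :=
    Group.IsSolvable.commutator_lt_top_of_nontrivial _
  apply hlt.ne
  rw [eq_top_iff]
  intro y _
  have hy : (y : G) ∈ (P : Subgroup G).focalSubgroup := by
    rw [← h1]; exact y.2
  obtain ⟨c, hc, hcy⟩ := hfoc hy
  have h2 : c = y := Subtype.ext hcy
  rw [← h2]
  exact hc

/-- complements of subgroups containing the centralizers of their nonidentity elements act
fixed-point-freely -/
theorem frob_compl_of_cent {G : Type u} [Group G] [Finite G] (H N : Subgroup G)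
    (hcent : ∀ x ∈ H, x ≠ 1 → Subgroup.centralizer ({x} : Set G) ≤ H)
    (hcop : (Nat.card H).Coprime H.index) (hHN : H ≤ N)
    (hNn : N ≤ Subgroup.normalizer (H : Set G)) (hne : ¬ N ≤ H) :
    ∃ E : Subgroup G, Cfsg.IsComplIn H E N ∧ E ≠ ⊥ ∧
      ∀ e ∈ E, e ≠ 1 → H ⊓ Subgroup.centralizer ({e} : Set G) = ⊥ := by
  obtain ⟨E, hEN, hdisj, hfac, -⟩ := Cfsg.Agent.S0092.sz_internal H N hHN hNn
    (Nat.Coprime.coprime_dvd_right (Subgroup.relIndex_dvd_index_of_le hHN) hcop)
  refine ⟨E, (⟨hHN, hEN, hdisj, hfac⟩ : H ≤ N ∧ E ≤ N ∧ H ⊓ E = ⊥ ∧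
    ∀ m ∈ N, ∃ a ∈ H, ∃ b ∈ E, m = a * b), ?_, ?_⟩
  · intro hE
    apply hne
    intro n hn
    obtain ⟨q, hq, l, hl, rfl⟩ := hfac n hn
    rw [hE, Subgroup.mem_bot] at hl
    rw [hl, mul_one]
    exact hq
  · intro e he he1
    rw [eq_bot_iff]
    rintro h ⟨hh, hc⟩
    rw [Subgroup.mem_bot]
    by_contra hh1
    have hc' : h ∈ Subgroup.centralizer ({e} : Set G) := hc
    have h1 : e ∈ Subgroup.centralizer ({h} : Set G) := by
      rw [mem_cent_singleton]
      exact (mem_cent_singleton.mp hc').symm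
    have h2 : e ∈ H ⊓ E := ⟨hcent h hh hh1 h1, he⟩
    rw [hdisj, Subgroup.mem_bot] at h2
    exact he1 h2

/-- the structure of the maximal subgroups of a minimal simple CN-group of odd order -/
theorem coatom_structure {G : Type u} [Group G] [Finite G]
    (hG : Cfsg.IsMinSimpleOddOrder G) (hCN : Cfsg.IsCNGroup G) (M : Subgroup G)
    (hM : IsCoatom M) :
    Group.IsNilpotent ↥(Cfsg.fittingHallOf M) ∧
      (∀ L : Subgroup G, Group.IsNilpotent L → Cfsg.fittingHallOf M ≤ L →
        L = Cfsg.fittingHallOf M) ∧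
      M = Subgroup.normalizer (Cfsg.fittingHallOf M : Set G) ∧ Cfsg.fittingHallOf M ≠ ⊥ ∧
      ¬ M ≤ Cfsg.fittingHallOf M ∧
      ∀ K : Subgroup G, K ≤ M → K ⊓ Cfsg.fittingHallOf M = ⊥ → Group.IsNilpotent K := by
  classical
  have hMtop : M ≠ ⊤ := hM.1
  haveI : Group.IsSolvable ↥M := hG.2.2.2 M hMtop
  have hCNM := cn_sub hCN M
  have hMbot : M ≠ ⊥ := by
    intro h
    haveI := hG.2.1
    obtain ⟨x, hx⟩ := exists_ne (1 : G)
    have h1 : Subgroup.centralizer ({x} : Set G) = ⊤ := by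
      apply hM.2
      rw [h]
      apply bot_lt_iff_ne_bot.mpr
      intro hb
      have h2 : x ∈ Subgroup.centralizer ({x} : Set G) := mem_cent_singleton.mpr rfl
      rw [hb, Subgroup.mem_bot] at h2
      exact hx h2
    exact minsimple_not_nilp_top hG _ (hCN x hx) h1
  haveI : Nontrivial ↥M := (Subgroup.nontrivial_iff_ne_bot M).mpr hMbot
  have hnn : ¬ Group.IsNilpotent ↥M := by
    intro hnil
    obtain ⟨L, hML, hLnil, hLmax⟩ := exists_maxnilp_ge M hnil
    have hLtop : L ≠ ⊤ := minsimple_not_nilp_top hG L hLnil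
    have hLM : L = M := by
      by_contra hne
      exact hLtop (hM.2 L (lt_of_le_of_ne hML (Ne.symm hne)))
    rw [hLM] at hLmax
    apply maxnilp_normalizer_not_le hG hCN M hnil hLmax
    by_contra hc
    have h1 : Subgroup.normalizer (M : Set G) = ⊤ :=
      hM.2 _ (lt_of_le_not_ge Subgroup.le_normalizer hc)
    exact normalizer_ne_top_of_minsimple hG M hMbot hMtop h1
  have hex : ∃ (q : ℕ) (_ : Fact q.Prime) (Q : Sylow q ↥M), (Q : Subgroup ↥M).Normal ∧
      (Q : Subgroup ↥M) ≠ ⊥ := by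
    by_contra hc
    have hns : ∀ (q : ℕ) [Fact q.Prime] (S : Sylow q ↥M), (S : Subgroup ↥M).Normal →
        (S : Subgroup ↥M) = ⊥ := by
      intro q hq S hS
      by_contra h
      exact hc ⟨q, hq, S, hS, h⟩
    obtain ⟨p, hp, hts, -⟩ := cn_three_step hCNM hns
    exact Cfsg.Agent.S1478.result hG hCN M p hts
  obtain ⟨q, hqf, Q, hQn, hQ1⟩ := hex
  obtain ⟨hF1, hFtop, -, hquot⟩ := Cfsg.Agent.S1474.result hCNM hnn q Q hQ1 hQn
  have hFnil' := fittingHall_nilp hCNM q Q hQ1 hQn
  obtain ⟨F, hFdef⟩ : ∃ F : Subgroup G, F = Cfsg.fittingHallOf M := ⟨_, rfl⟩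
  rw [← hFdef]
  have hFmap : F = (Cfsg.fittingHall ↥M).map M.subtype := hFdef
  have hFnil : Group.IsNilpotent ↥F := by
    rw [hFmap]
    haveI := hFnil'
    exact Group.nilpotent_of_mulEquiv
      (Subgroup.equivMapOfInjective _ M.subtype M.subtype_injective)
  have hFM : F ≤ M := by rw [hFmap]; exact Subgroup.map_subtype_le _
  have hF1' : F ≠ ⊥ := by
    rw [hFmap]
    intro h
    exact hF1 ((Subgroup.map_eq_bot_iff_of_injective _ M.subtype_injective).mp h)
  have hMF : M ≤ Subgroup.normalizer (F : Set G) := by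
    intro n hn
    apply mem_normalizer_of_conj_mem
    intro h hh
    rw [hFmap] at hh ⊢
    obtain ⟨h', hh', rfl⟩ := hh
    exact ⟨⟨n, hn⟩ * h' * ⟨n, hn⟩⁻¹,
      (Cfsg.fittingHall_normal ↥M).conj_mem h' hh' ⟨n, hn⟩, rfl⟩
  obtain ⟨H, hFH, hHnil, hHmax⟩ := exists_maxnilp_ge F hFnil
  have hTI := maxnilp_ti hG hCN H hHnil hHmax
  have hMH : M ≤ Subgroup.normalizer (H : Set G) := by
    intro m hm
    obtain ⟨f, hfF, hf1⟩ := exists_ne_one_of_ne_bot F hF1'
    apply ti_normalizer H hTI f (hFH hfF) hf1 m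
    exact hFH ((Subgroup.mem_normalizer_iff.mp (hMF hm) f).mp hfF)
  have hHtop : H ≠ ⊤ := minsimple_not_nilp_top hG H hHnil
  have hH1 : H ≠ ⊥ := by
    intro h
    rw [h] at hFH
    exact hF1' (le_bot_iff.mp hFH)
  have hNtop := normalizer_ne_top_of_minsimple hG H hH1 hHtop
  have hMeq : M = Subgroup.normalizer (H : Set G) := by
    by_contra hne
    exact hNtop (hM.2 _ (lt_of_le_of_ne hMH hne))
  have hHM : H ≤ M := by rw [hMeq]; exact Subgroup.le_normalizer
  have hcop := (Cfsg.Agent.S1477.result hCN H hHnil hHmax).1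
  have hHF : H ≤ F := by
    have hmem : H.subgroupOf M ≤ Cfsg.fittingHall ↥M := by
      apply le_sSup
      refine ⟨(Subgroup.normal_subgroupOf_iff_le_normalizer hHM).mpr hMH, ?_, ?_⟩
      · haveI := hHnil
        exact Group.nilpotent_of_mulEquiv (Subgroup.subgroupOfEquivOfLe hHM).symm
      · rw [Lead.card_subgroupOf_of_le hHM]
        exact Nat.Coprime.coprime_dvd_right (Subgroup.relIndex_dvd_index_of_le hHM) hcop
    intro h hh
    rw [hFmap]
    exact ⟨⟨h, hHM hh⟩, hmem (Subgroup.mem_subgroupOf.mpr hh), rfl⟩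
  have hFeq : H = F := le_antisymm hHF hFH
  rw [hFeq] at hHmax hMeq
  refine ⟨hFnil, hHmax, hMeq, hF1', ?_, ?_⟩
  · intro hle
    apply hFtop
    rw [eq_top_iff]
    intro m _
    have h1 := hle m.2
    rw [hFmap] at h1
    obtain ⟨m', hm', hmm⟩ := h1
    have h2 : m' = m := Subtype.ext hmm
    rw [← h2]
    exact hm'
  · intro K hKM hKF
    haveI := hquot
    apply Subgroup.isNilpotent_of_ker_le_center
      ((QuotientGroup.mk' (Cfsg.fittingHall ↥M)).comp (Subgroup.inclusion hKM))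
    intro x hx
    rw [MonoidHom.mem_ker, MonoidHom.comp_apply, QuotientGroup.mk'_apply,
      QuotientGroup.eq_one_iff] at hx
    have h1 : (x : G) ∈ K ⊓ F := by
      refine ⟨x.2, ?_⟩
      rw [hFmap]
      exact ⟨_, hx, rfl⟩
    rw [hKF, Subgroup.mem_bot] at h1
    have h2 : x = 1 := Subtype.ext h1
    rw [h2]
    exact Subgroup.one_mem _

/-- the normalizer of a maximal nilpotent subgroup of a minimal simple CN-group of odd order is
a maximal subgroup -/
theorem maxnilp_normalizer_coatom {G : Type u} [Group G] [Finite G]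
    (hG : Cfsg.IsMinSimpleOddOrder G) (hCN : Cfsg.IsCNGroup G) (H : Subgroup G)
    (hH : Group.IsNilpotent H)
    (hmax : ∀ L : Subgroup G, Group.IsNilpotent L → H ≤ L → L = H) :
    IsCoatom (Subgroup.normalizer (H : Set G)) := by
  have hH1 := maxnilp_ne_bot hG hCN H hmax
  have hHtop := minsimple_not_nilp_top hG H hH
  have hNtop := normalizer_ne_top_of_minsimple hG H hH1 hHtop
  obtain ⟨M, hM, hNM⟩ :=
    (eq_top_or_exists_le_coatom (Subgroup.normalizer (H : Set G))).resolve_left hNtop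
  obtain ⟨hFnil, hFmax, hMeq, hF1, hMF, hK⟩ := coatom_structure hG hCN M hM
  obtain ⟨F, hFdef⟩ : ∃ F : Subgroup G, F = Cfsg.fittingHallOf M := ⟨_, rfl⟩
  rw [← hFdef] at hFnil hFmax hMeq hF1 hMF hK
  have hHM : H ≤ M := le_trans Subgroup.le_normalizer hNM
  have hFM : F ≤ M := by rw [hMeq]; exact Subgroup.le_normalizer
  by_cases hcop : (Nat.card H).Coprime (Nat.card F)
  · exfalso
    have hTIF := maxnilp_ti hG hCN F hFnil hFmax
    have hcentF := (Cfsg.Agent.S1477.result hCN F hFnil hFmax).2.2 hTIF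
    have hHF : H ⊓ F = ⊥ := Subgroup.inf_eq_bot_of_coprime hcop
    have hNF : Subgroup.normalizer (H : Set G) ⊓ F = ⊥ := by
      rw [eq_bot_iff]
      rintro y ⟨hyN, hyF⟩
      rw [Subgroup.mem_bot]
      by_contra hy1
      have hHC : H ≤ Subgroup.centralizer ({y} : Set G) := by
        intro h hh
        rw [mem_cent_singleton]
        have h1 : y * h * y⁻¹ * h⁻¹ ∈ H :=
          H.mul_mem ((Subgroup.mem_normalizer_iff.mp hyN h).mp hh) (H.inv_mem hh)
        have hhN : h ∈ Subgroup.normalizer (F : Set G) := by rw [← hMeq]; exact hHM hh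
        have h2 : h * y⁻¹ * h⁻¹ ∈ F :=
          (Subgroup.mem_normalizer_iff.mp hhN y⁻¹).mp (F.inv_mem hyF)
        have h3 : y * h * y⁻¹ * h⁻¹ ∈ H ⊓ F := by
          refine ⟨h1, ?_⟩
          have e : y * h * y⁻¹ * h⁻¹ = y * (h * y⁻¹ * h⁻¹) := by group
          rw [e]
          exact F.mul_mem hyF h2
        rw [hHF, Subgroup.mem_bot] at h3
        calc y * h = (y * h * y⁻¹ * h⁻¹) * h * y := by group
          _ = h * y := by rw [h3, one_mul]
      have h4 : H ≤ F := le_trans hHC (hcentF y hyF hy1)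
      have h5 : H ≤ H ⊓ F := le_inf le_rfl h4
      rw [hHF] at h5
      exact hH1 (le_bot_iff.mp h5)
    have hNnil := hK _ hNM hNF
    have h6 := hmax _ hNnil Subgroup.le_normalizer
    exact maxnilp_normalizer_not_le hG hCN H hH hmax h6.le
  · obtain ⟨r, hr, hrH, hrF⟩ := Nat.Prime.not_coprime_iff_dvd.mp hcop
    haveI : Fact r.Prime := ⟨hr⟩
    obtain ⟨g, hg⟩ := maxnilp_conj_of_dvd hCN H F hH hmax hFnil hFmax r hrH hrF
    have hcard : Nat.card F = Nat.card H := by
      rw [hg]; exact Subgroup.card_map_of_injective (MulAut.conj g).injective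
    have hcopF := (Cfsg.Agent.S1477.result hCN F hFnil hFmax).1
    have hHF : H ≤ F := by
      intro h hh
      have h1 : h ^ Nat.card F = 1 := by
        rw [hcard]
        have h2 : orderOf h ∣ Nat.card H := by
          have h4 := orderOf_dvd_natCard (⟨h, hh⟩ : H)
          rwa [Subgroup.orderOf_mk] at h4
        exact orderOf_dvd_iff_pow_eq_one.mp h2
      have h2 : h ^ (F.relIndex M) ∈ F := by
        haveI : (F.subgroupOf M).Normal :=
          (Subgroup.normal_subgroupOf_iff_le_normalizer hFM).mpr (by rw [← hMeq])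
        have h3 := Subgroup.pow_index_mem (F.subgroupOf M) (⟨h, hHM hh⟩ : ↥M)
        rw [Subgroup.mem_subgroupOf] at h3
        have h4 : h ^ (F.subgroupOf M).index ∈ F := by simpa using h3
        exact h4
      exact mem_of_pow_mem_of_coprime
        (Nat.Coprime.coprime_dvd_right (Subgroup.relIndex_dvd_index_of_le hFM) hcopF)
        (by rw [h1]; exact F.one_mem) h2
    have hFH : F = H := hmax F hFnil hHF
    rw [← hFH, ← hMeq]
    exact hM

end Cfsg.Agent.Lib.Helper6
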