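import Mathlib
import Cfsg.Agent.Lib.Helper6.CN12

set_option autoImplicit false

namespace Cfsg.Agent.Lib.Helper6

open Cfsg.Agent.S1473 Cfsg.Agent.S1477 Cfsg.Agent.S1474
open scoped Pointwise commutatorElement

universe u

/-- the image of a maximal nilpotent subgroup under an automorphism is maximal nilpotent -/
theorem maxnilp_map {G : Type u} [Group G] (φ : G ≃* G) (H : Subgroup G)
    (hH : Group.IsNilpotent H)
    (hmax : ∀ L : Subgroup G, Group.IsNilpotent L → H ≤ L → L = H) :
    Group.IsNilpotent ↥(H.map φ.toMonoidHom) ∧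
      ∀ L : Subgroup G, Group.IsNilpotent L → H.map φ.toMonoidHom ≤ L →
        L = H.map φ.toMonoidHom := by
  constructor
  · haveI := hH
    exact Group.nilpotent_of_mulEquiv (Subgroup.equivMapOfInjective H φ.toMonoidHom φ.injective)
  · intro L hL hle
    have h1 : Group.IsNilpotent ↥(L.map φ.symm.toMonoidHom) := by
      haveI := hL
      exact Group.nilpotent_of_mulEquiv
        (Subgroup.equivMapOfInjective L φ.symm.toMonoidHom φ.symm.injective)
    have h2 : H ≤ L.map φ.symm.toMonoidHom := by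
      have h3 := Subgroup.map_mono (f := φ.symm.toMonoidHom) hle
      rwa [map_symm_map_eq] at h3
    have h4 := hmax _ h1 h2
    have h5 := map_symm_map_eq φ.symm L
    rw [MulEquiv.symm_symm] at h5
    rw [← h5, h4]

/-- a maximal nilpotent subgroup of a minimal simple CN-group of odd order is the largest normal
nilpotent Hall subgroup of its normalizer -/
theorem maxnilp_eq_fittingHallOf {G : Type u} [Group G] [Finite G]
    (hG : Cfsg.IsMinSimpleOddOrder G) (hCN : Cfsg.IsCNGroup G) (H : Subgroup G)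
    (hH : Group.IsNilpotent H)
    (hmax : ∀ L : Subgroup G, Group.IsNilpotent L → H ≤ L → L = H) :
    Cfsg.fittingHallOf (Subgroup.normalizer (H : Set G)) = H := by
  obtain ⟨M, hMdef⟩ : ∃ M : Subgroup G, M = Subgroup.normalizer (H : Set G) := ⟨_, rfl⟩
  rw [← hMdef]
  have hM : IsCoatom M := by rw [hMdef]; exact maxnilp_normalizer_coatom hG hCN H hH hmax
  obtain ⟨hFnil, hFmax, hMeq, hF1, hMF, hK⟩ := coatom_structure hG hCN M hM
  have hHM : H ≤ M := by rw [hMdef]; exact Subgroup.le_normalizer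
  have hcop := (Cfsg.Agent.S1477.result hCN H hH hmax).1
  have hmem : H.subgroupOf M ≤ Cfsg.fittingHall ↥M := by
    apply le_sSup
    refine ⟨(Subgroup.normal_subgroupOf_iff_le_normalizer hHM).mpr (by rw [hMdef]), ?_, ?_⟩
    · haveI := hH
      exact Group.nilpotent_of_mulEquiv (Subgroup.subgroupOfEquivOfLe hHM).symm
    · rw [Lead.card_subgroupOf_of_le hHM]
      exact Nat.Coprime.coprime_dvd_right (Subgroup.relIndex_dvd_index_of_le hHM) hcop
  apply hmax _ hFnil
  intro h hh
  exact ⟨⟨h, hHM hh⟩, hmem (Subgroup.mem_subgroupOf.mpr hh), rfl⟩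

/-- every element of a minimal simple CN-group of odd order is conjugate into the nilpotent
Hall part of a representative of the maximal subgroups -/
theorem conj_mem_fittingHallOf {G : Type u} [Group G] [Finite G]
    (hG : Cfsg.IsMinSimpleOddOrder G) (hCN : Cfsg.IsCNGroup G) {ι : Type*}
    (Mrep : ι → Subgroup G)
    (hall : ∀ M : Subgroup G, IsCoatom M →
      ∃ i, ∃ g : G, M = (Mrep i).map (MulAut.conj g).toMonoidHom) (x : G) :
    ∃ i, ∃ g : G, g * x * g⁻¹ ∈ Cfsg.fittingHallOf (Mrep i) := by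
  obtain ⟨H, hxH, hH, hmax⟩ : ∃ H : Subgroup G, x ∈ H ∧ Group.IsNilpotent H ∧
      ∀ L : Subgroup G, Group.IsNilpotent L → H ≤ L → L = H := by
    obtain ⟨H, hle, hH, hmax⟩ := exists_maxnilp_ge (Subgroup.zpowers x) (by
      haveI : IsCyclic ↥(Subgroup.zpowers x) := Subgroup.isCyclic_zpowers x
      letI := IsCyclic.commGroup (α := ↥(Subgroup.zpowers x))
      exact CommGroup.isNilpotent)
    exact ⟨H, hle (Subgroup.mem_zpowers x), hH, hmax⟩
  have hM := maxnilp_normalizer_coatom hG hCN H hH hmax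
  obtain ⟨i, g, hg⟩ := hall _ hM
  refine ⟨i, g⁻¹, ?_⟩
  obtain ⟨φ, hφ⟩ : ∃ φ : G ≃* G, φ = MulAut.conj g := ⟨_, rfl⟩
  rw [← hφ] at hg
  obtain ⟨hH', hmax'⟩ := maxnilp_map φ.symm H hH hmax
  have hN : Subgroup.normalizer ((H.map φ.symm.toMonoidHom : Subgroup G) : Set G) = Mrep i := by
    rw [← Subgroup.map_equiv_normalizer_eq, hg, map_symm_map_eq]
  have h1 := maxnilp_eq_fittingHallOf hG hCN _ hH' hmax'
  rw [hN] at h1
  rw [h1]
  refine ⟨x, hxH, ?_⟩
  rw [hφ]
  show g⁻¹ * x * g = g⁻¹ * x * g⁻¹⁻¹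
  rw [inv_inv]

end Cfsg.Agent.Lib.Helper6
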