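import Mathlib
import Cfsg.Agent.Lib.Lead.Galois
import Cfsg.Agent.Lib.Helper7.GalConj

/-!
A character value fixed by all Galois conjugations (power maps) is a rational integer.
-/

set_option autoImplicit false

namespace Cfsg.Agent.Lib.Helper6

open Cfsg.Agent.Lib

theorem char_rational {G : Type*} [Group G] [Finite G] (f : G → ℂ) (hf : Cfsg.IsCharacter G f)
    (g : G) (h : ∀ j : ℕ, j.Coprime (Nat.card G) → f (g ^ j) = f g) : ∃ n : ℤ, f g = n := by
  obtain ⟨d, ρ, rfl⟩ := hf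
  haveI : NeZero (Nat.card G) := ⟨Nat.card_pos.ne'⟩
  let φ₀ : CyclotomicField (Nat.card G) ℚ →ₐ[ℚ] ℂ := IsAlgClosed.lift
  obtain ⟨x, hx, hint, hσ⟩ := Lead.char_galois (Nat.card G) ρ (fun g => pow_card_eq_one') φ₀ g
  haveI : IsGalois ℚ (CyclotomicField (Nat.card G) ℚ) :=
    IsCyclotomicExtension.isGalois {Nat.card G} ℚ _
  haveI : FiniteDimensional ℚ (CyclotomicField (Nat.card G) ℚ) :=
    IsCyclotomicExtension.finiteDimensional {Nat.card G} ℚ _
  have hfix : ∀ τ : (CyclotomicField (Nat.card G) ℚ) ≃ₐ[ℚ] (CyclotomicField (Nat.card G) ℚ),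
      τ x = x := by
    intro τ
    obtain ⟨m, hm, hm'⟩ := Lead.cyc_embed_pow (Nat.card G) φ₀ (φ₀.comp τ.toAlgHom)
    have h1 := hσ (φ₀.comp τ.toAlgHom) m hm'
    rw [h m hm, ← hx] at h1
    exact φ₀.toRingHom.injective h1
  obtain ⟨q, hq⟩ := (IsGalois.mem_range_algebraMap_iff_fixed x).mpr hfix
  rw [← hq] at hint
  have hqi : IsIntegral ℤ q :=
    (isIntegral_algebraMap_iff (algebraMap ℚ (CyclotomicField (Nat.card G) ℚ)).injective).mp hint
  obtain ⟨n, hn⟩ := IsIntegrallyClosed.isIntegral_iff.mp hqi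
  refine ⟨n, ?_⟩
  rw [← hx, ← hq, ← hn]
  simp

end Cfsg.Agent.Lib.Helper6
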