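import Mathlib
import Cfsg.Agent.Lib.Lead.Char15
import Cfsg.Agent.Lib.Lead.Taketa
import Cfsg.Agent.Lib.Lead.Hall

set_option autoImplicit false

namespace Cfsg.Agent.Lib.Helper6

open Cfsg.Agent.Lib

theorem extendByZero_sum_smul {G : Type*} [Group G] (H : Subgroup G) {ι : Type*} (s : Finset ι)
    (c : ι → ℂ) (f : ι → H → ℂ) (y : G) :
    Cfsg.extendByZero H (∑ i ∈ s, c i • f i) y = ∑ i ∈ s, c i * Cfsg.extendByZero H (f i) y := by
  by_cases hy : y ∈ H
  · rw [Lead.extendByZero_mem' _ _ hy, Finset.sum_apply]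
    apply Finset.sum_congr rfl
    intro i _
    rw [Lead.extendByZero_mem' _ _ hy, Pi.smul_apply, smul_eq_mul]
  · rw [Lead.extendByZero_not_mem _ _ hy]
    symm
    apply Finset.sum_eq_zero
    intro i _
    rw [Lead.extendByZero_not_mem _ _ hy, mul_zero]

theorem indFun_sum_smul {G : Type*} [Group G] [Fintype G] (H : Subgroup G) {ι : Type*}
    (s : Finset ι) (c : ι → ℂ) (f : ι → H → ℂ) :
    Cfsg.indFun H (∑ i ∈ s, c i • f i) = ∑ i ∈ s, c i • Cfsg.indFun H (f i) := by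
  funext g
  rw [Lead.indFun_apply, Finset.sum_apply]
  simp only [extendByZero_sum_smul, Pi.smul_apply, smul_eq_mul, Lead.indFun_apply]
  rw [Finset.sum_comm, Finset.mul_sum]
  apply Finset.sum_congr rfl
  intro i _
  rw [← Finset.mul_sum]; ring

theorem eq_zero_of_classInner_self {G : Type*} [Group G] [Fintype G] (F : G → ℂ)
    (h : Cfsg.classInner F F = 0) : F = 0 := by
  unfold Cfsg.classInner at h
  have hG : (Nat.card G : ℂ)⁻¹ ≠ 0 := inv_ne_zero (by exact_mod_cast Nat.card_pos.ne')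
  have h1 : ∑ g : G, F g * (starRingEnd ℂ) (F g) = 0 := by
    rcases mul_eq_zero.mp h with h | h
    · exact absurd h hG
    · exact h
  have h2 : ∑ g : G, (Complex.normSq (F g) : ℂ) = 0 := by
    rw [← h1]; apply Finset.sum_congr rfl; intro g _; rw [Complex.mul_conj]
  rw [← Complex.ofReal_sum] at h2
  have h3 : ∑ g : G, Complex.normSq (F g) = 0 := by exact_mod_cast h2
  have h4 := (Finset.sum_eq_zero_iff_of_nonneg (fun g _ => Complex.normSq_nonneg (F g))).mp h3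
  funext g
  exact Complex.normSq_eq_zero.mp (h4 g (Finset.mem_univ g))

/-- numerical core of the Clifford correspondence -/
theorem nat_diag_lemma {ι : Type*} [Fintype ι] [DecidableEq ι] (a : ι → ℕ) (n : ι → ι → ℕ)
    (hn : ∀ i, 1 ≤ n i i)
    (h : ∑ i, ∑ j, a i * a j * n i j = ∑ i, a i ^ 2) :
    (∀ i, a i ≠ 0 → n i i = 1) ∧ (∀ i j, a i ≠ 0 → a j ≠ 0 → i ≠ j → n i j = 0) := by
  have h1 : ∀ i, a i ^ 2 ≤ a i * a i * n i i := fun i => by nlinarith [hn i, Nat.zero_le (a i * a i)]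
  have h2 : ∀ i, a i * a i * n i i ≤ ∑ j, a i * a j * n i j := fun i =>
    Finset.single_le_sum (f := fun j => a i * a j * n i j) (fun j _ => Nat.zero_le _)
      (Finset.mem_univ i)
  have h3 : ∀ i, a i ^ 2 ≤ ∑ j, a i * a j * n i j := fun i => (h1 i).trans (h2 i)
  have h4 := (Finset.sum_eq_sum_iff_of_le (fun i _ => h3 i)).mp h.symm
  constructor
  · intro i hi
    have h5 := h4 i (Finset.mem_univ i)
    have h6 : a i * a i * n i i = a i ^ 2 := le_antisymm (by rw [h5]; exact h2 i) (h1 i)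
    have h7 : a i * a i * n i i = a i * a i * 1 := by rw [h6]; ring
    exact Nat.eq_of_mul_eq_mul_left (Nat.mul_pos (Nat.pos_of_ne_zero hi) (Nat.pos_of_ne_zero hi)) h7
  · intro i j hi hj hij
    have h5 := h4 i (Finset.mem_univ i)
    rw [← Finset.add_sum_erase Finset.univ (fun j => a i * a j * n i j) (Finset.mem_univ i)] at h5
    have h7 : ∑ j ∈ Finset.univ.erase i, a i * a j * n i j = 0 := by
      have := h1 i
      omega
    have h8 := (Finset.sum_eq_zero_iff.mp h7) j (Finset.mem_erase.mpr ⟨hij.symm, Finset.mem_univ j⟩)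
    rcases Nat.mul_eq_zero.mp h8 with h9 | h9
    · rcases Nat.mul_eq_zero.mp h9 with h | h
      · exact absurd h hi
      · exact absurd h hj
    · exact h9

/-- **Clifford correspondence** (norm form): the irreducible constituents of `θ^T`, `T` the inertia
group of `θ`, induce irreducibly and pairwise orthogonally to `G`. -/
theorem clifford_corr {G : Type*} [Group G] [Fintype G] (H T : Subgroup G) [hN : H.Normal]
    [Fintype T] (θ : H → ℂ) (hθ : Cfsg.IsIrrCharacter H θ)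
    (hT : ∀ g : G, g ∈ T ↔ ∀ h : H, θ ⟨g * h * g⁻¹, hN.conj_mem h h.2 g⟩ = θ h) (hHT : H ≤ T) :
    (∀ ψ : Cfsg.IrrCharacter T,
      Cfsg.classInner (Cfsg.indFun (H.subgroupOf T)
        (fun x => θ ⟨(x : T), Subgroup.mem_subgroupOf.mp x.2⟩)) ψ.1 ≠ 0 →
      Cfsg.classInner (Cfsg.indFun T ψ.1) (Cfsg.indFun T ψ.1) = 1) ∧
    (∀ ψ ψ' : Cfsg.IrrCharacter T,
      Cfsg.classInner (Cfsg.indFun (H.subgroupOf T)
        (fun x => θ ⟨(x : T), Subgroup.mem_subgroupOf.mp x.2⟩)) ψ.1 ≠ 0 →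
      Cfsg.classInner (Cfsg.indFun (H.subgroupOf T)
        (fun x => θ ⟨(x : T), Subgroup.mem_subgroupOf.mp x.2⟩)) ψ'.1 ≠ 0 → ψ ≠ ψ' →
      Cfsg.classInner (Cfsg.indFun T ψ.1) (Cfsg.indFun T ψ'.1) = 0) := by
  classical
  haveI : Fintype H := Fintype.ofFinite H
  haveI : Fintype (Cfsg.IrrCharacter T) := Fintype.ofFinite _
  obtain ⟨θ', hθ'def⟩ : ∃ θ' : H.subgroupOf T → ℂ,
      θ' = fun x : H.subgroupOf T => θ ⟨(x : T), Subgroup.mem_subgroupOf.mp x.2⟩ := ⟨_, rfl⟩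
  rw [← hθ'def]
  have hθ'irr : Cfsg.IsIrrCharacter (H.subgroupOf T) θ' := by
    rw [hθ'def]
    exact Lead.isIrrCharacter_comp_surj (Subgroup.subgroupOfEquivOfLe hHT).toMonoidHom
      (Subgroup.subgroupOfEquivOfLe hHT).surjective hθ
  obtain ⟨Θ, hΘdef⟩ : ∃ Θ : T → ℂ, Θ = Cfsg.indFun (H.subgroupOf T) θ' := ⟨_, rfl⟩
  rw [← hΘdef]
  have hΘchar : Cfsg.IsCharacter T Θ := by
    rw [hΘdef]; exact Lead.isCharacter_indFun _ _ (Lead.isCharacter_of_irr hθ'irr)
  obtain ⟨m, hm⟩ := Lead.isCharacter_decomp hΘchar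
  have hcardH' : Nat.card (H.subgroupOf T) = Nat.card H := Lead.card_subgroupOf_of_le hHT
  have hHne : (Nat.card H : ℂ) ≠ 0 := by exact_mod_cast Nat.card_pos.ne'
  have hnT : (Nat.card H : ℂ) * Cfsg.classInner Θ Θ = (Nat.card T : ℂ) := by
    have h1 := Lead.card_mul_inner_ind_normal (H.subgroupOf T) θ' hθ'irr
    rw [hcardH', ← hΘdef] at h1
    rw [h1]
    congr 1
    apply Nat.card_congr
    refine (Equiv.subtypeUnivEquiv ?_)
    intro t h
    rw [hθ'def]
    exact (hT t).mp t.2 ⟨(h : T), Subgroup.mem_subgroupOf.mp h.2⟩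
  have hnG : (Nat.card H : ℂ) * Cfsg.classInner (Cfsg.indFun H θ) (Cfsg.indFun H θ)
      = (Nat.card T : ℂ) := by
    rw [Lead.card_mul_inner_ind_normal H θ hθ]
    congr 1
    exact Nat.card_congr (Equiv.subtypeEquivRight (fun g => (hT g).symm))
  have hnorm_eq : Cfsg.classInner (Cfsg.indFun H θ) (Cfsg.indFun H θ) = Cfsg.classInner Θ Θ :=
    mul_left_cancel₀ hHne (hnG.trans hnT.symm)
  have hind : Cfsg.indFun H θ = ∑ χ : Cfsg.IrrCharacter T, (m χ : ℂ) • Cfsg.indFun T χ.1 := by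
    rw [← Lead.indFun_trans H T hHT θ, ← hθ'def, ← hΘdef, hm, indFun_sum_smul]
  have hnat : ∀ χ χ' : Cfsg.IrrCharacter T, ∃ n : ℕ,
      Cfsg.classInner (Cfsg.indFun T χ.1) (Cfsg.indFun T χ'.1) = (n : ℂ) := fun χ χ' =>
    Lead.classInner_char_nat (Lead.isCharacter_indFun T _ (Lead.isCharacter_of_irr χ.2))
      (Lead.isCharacter_indFun T _ (Lead.isCharacter_of_irr χ'.2))
  choose n hn using hnat
  have hn1 : ∀ χ, 1 ≤ n χ χ := by
    intro χ
    by_contra hlt
    have h0 : n χ χ = 0 := by omega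
    have h1 := hn χ χ
    rw [h0, Nat.cast_zero] at h1
    have h2 := eq_zero_of_classInner_self _ h1
    have h3 := congrFun h2 1
    rw [Lead.indFun_one_eq] at h3
    have hχ1 := Lead.irr_deg_ne_zero χ
    have hTne : (Nat.card T : ℂ)⁻¹ ≠ 0 := inv_ne_zero (by exact_mod_cast Nat.card_pos.ne')
    have hGne : (Fintype.card G : ℂ) ≠ 0 := by exact_mod_cast Fintype.card_ne_zero
    exact mul_ne_zero hTne (mul_ne_zero hGne hχ1) h3
  have hΘΘ : Cfsg.classInner Θ Θ = ((∑ χ : Cfsg.IrrCharacter T, m χ ^ 2 : ℕ) : ℂ) := by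
    conv_lhs => rw [hm]
    rw [Lead.classInner_sum_right]
    push_cast
    apply Finset.sum_congr rfl
    intro ψ _
    rw [Lead.classInner_smul_right, Lead.classInner_nat_comb (fun χ => (m χ : ℂ)) ψ,
      Complex.conj_natCast]; ring
  have hGG : Cfsg.classInner (Cfsg.indFun H θ) (Cfsg.indFun H θ)
      = ((∑ χ : Cfsg.IrrCharacter T, ∑ χ' : Cfsg.IrrCharacter T, m χ * m χ' * n χ χ' : ℕ) : ℂ) := by
    rw [hind, Lead.classInner_sum_left]
    push_cast
    apply Finset.sum_congr rfl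
    intro χ _
    rw [Lead.classInner_smul_left, Lead.classInner_sum_right, Finset.mul_sum]
    apply Finset.sum_congr rfl
    intro χ' _
    rw [Lead.classInner_smul_right, Complex.conj_natCast, hn]; ring
  have hkey : ∑ χ : Cfsg.IrrCharacter T, ∑ χ' : Cfsg.IrrCharacter T, m χ * m χ' * n χ χ'
      = ∑ χ : Cfsg.IrrCharacter T, m χ ^ 2 := by
    have := hGG.symm.trans (hnorm_eq.trans hΘΘ)
    exact_mod_cast this
  obtain ⟨hd1, hd2⟩ := nat_diag_lemma m n hn1 hkey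
  have hmψ : ∀ ψ : Cfsg.IrrCharacter T, Cfsg.classInner Θ ψ.1 ≠ 0 → m ψ ≠ 0 := by
    intro ψ hψ h0
    apply hψ
    rw [hm, Lead.classInner_nat_comb (fun χ => (m χ : ℂ)) ψ, h0, Nat.cast_zero]
  constructor
  · intro ψ hψ
    rw [hn, hd1 ψ (hmψ ψ hψ), Nat.cast_one]
  · intro ψ ψ' hψ hψ' hne
    rw [hn, hd2 ψ ψ' (hmψ ψ hψ) (hmψ ψ' hψ') hne, Nat.cast_zero]

end Cfsg.Agent.Lib.Helper6
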