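import Mathlib
import Cfsg.Agent.Lib.Helper6.CliffCorr
import Cfsg.Agent.Lib.Helper7.LinTwist
import Cfsg.Agent.Lib.Lead.Char10

set_option autoImplicit false

namespace Cfsg.Agent.Lib.Helper6

open Cfsg.Agent.Lib

theorem irr_deg_one_of_comm {A : Type*} [Group A] [Finite A] (hA : ∀ a b : A, a * b = b * a)
    (ψ : Cfsg.IrrCharacter A) : ψ.1 1 = 1 := by
  obtain ⟨n, ρ, hρ, hρχ⟩ := ψ.2
  haveI := hρ
  have h1 := Lead.deg_le_index_abelian ρ ⊤ (fun a _ b _ => hA a b)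
  rw [Subgroup.index_top] at h1
  have h2 : 0 < Module.finrank ℂ (Fin n → ℂ) := by
    have := ((Lead.irr_iff ρ).mp hρ).1
    exact Module.finrank_pos
  rw [← hρχ, Representation.char_one]
  have : Module.finrank ℂ (Fin n → ℂ) = 1 := by omega
  rw [this]; simp

/-- an invariant irreducible character `θ` of a normal subgroup `K` with `T/K` abelian: `θ^T` is
`e` times a sum of distinct irreducible characters, each restricting to `e θ`. -/
theorem inv_abelian_decomp {T : Type*} [Group T] [Fintype T] (K : Subgroup T) [hK : K.Normal]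
    (θ : K → ℂ) (hθ : Cfsg.IsIrrCharacter K θ)
    (hinv : ∀ (t : T) (k : K), θ ⟨t * k * t⁻¹, hK.conj_mem k k.2 t⟩ = θ k)
    (hab : ∀ x y : T, x * y * x⁻¹ * y⁻¹ ∈ K) :
    ∃ (e : ℕ) (P : Finset (Cfsg.IrrCharacter T)), 0 < e ∧
      Cfsg.indFun K θ = (e : ℂ) • ∑ ψ ∈ P, (ψ : T → ℂ) ∧
      (∀ ψ ∈ P, (ψ : T → ℂ) 1 = (e : ℂ) * θ 1) ∧
      e ^ 2 * P.card * Nat.card K = Nat.card T ∧
      (∀ ψ ∈ P, Cfsg.classInner (Cfsg.indFun K θ) ψ.1 ≠ 0) := by
  classical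
  haveI : Fintype K := Fintype.ofFinite K
  haveI : Fintype (Cfsg.IrrCharacter T) := Fintype.ofFinite _
  haveI : Fintype (Cfsg.IrrCharacter K) := Fintype.ofFinite _
  obtain ⟨Θ, hΘdef⟩ : ∃ Θ : T → ℂ, Θ = Cfsg.indFun K θ := ⟨_, rfl⟩
  rw [← hΘdef]
  have hKne : (Nat.card K : ℂ) ≠ 0 := by exact_mod_cast Nat.card_pos.ne'
  have hTne : (Nat.card T : ℂ) ≠ 0 := by exact_mod_cast Nat.card_pos.ne'
  have hθ1 := Lead.irr_deg_ne_zero (⟨θ, hθ⟩ : Cfsg.IrrCharacter K)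
  have hΘchar : Cfsg.IsCharacter T Θ := by
    rw [hΘdef]; exact Lead.isCharacter_indFun _ _ (Lead.isCharacter_of_irr hθ)
  obtain ⟨m, hm⟩ := Lead.isCharacter_decomp hΘchar
  have hmψ : ∀ ψ : Cfsg.IrrCharacter T, Cfsg.classInner Θ ψ.1 = (m ψ : ℂ) := by
    intro ψ
    conv_lhs => rw [hm]
    exact Lead.classInner_nat_comb (fun χ => (m χ : ℂ)) ψ
  have hres : ∀ k : K, Θ (k : T) = (Nat.card K : ℂ)⁻¹ * (Nat.card T : ℂ) * θ k := by
    intro k
    have h1 := congrFun (Lead.indFun_restrict_normal K θ) k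
    rw [← hΘdef] at h1
    rw [h1, Pi.smul_apply, Finset.sum_apply, smul_eq_mul]
    have h2 : ∀ x : T, Lead.conjFun K θ x k = θ k := fun x => hinv x k
    rw [Finset.sum_congr rfl (fun x _ => h2 x), Finset.sum_const, Finset.card_univ, nsmul_eq_mul,
      Nat.card_eq_fintype_card (α := T)]
    ring
  have hoff : ∀ t : T, t ∉ K → Θ t = 0 := by
    intro t ht
    rw [hΘdef, Lead.indFun_apply]
    rw [Finset.sum_eq_zero, mul_zero]
    intro x _
    apply Lead.extendByZero_not_mem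
    intro hmem
    apply ht
    have := hK.conj_mem _ hmem x
    have e : x * (x⁻¹ * t * x) * x⁻¹ = t := by group
    rwa [e] at this
  have hresχ : ∀ ψ : Cfsg.IrrCharacter T, Cfsg.IsCharacter K (fun k : K => ψ.1 k) := fun ψ =>
    Lead.isCharacter_restrict K (Lead.isCharacter_of_irr ψ.2)
  have hcnat : ∀ (ψ : Cfsg.IrrCharacter T) (ξ : Cfsg.IrrCharacter K), ∃ c : ℕ,
      Cfsg.classInner (fun k : K => ψ.1 k) ξ.1 = (c : ℂ) := fun ψ ξ =>
    Lead.classInner_char_nat (hresχ ψ) (Lead.isCharacter_of_irr ξ.2)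
  choose c hc using hcnat
  have hd0 : ∀ (ξ : Cfsg.IrrCharacter K), ξ.1 ≠ θ → ∀ ψ : Cfsg.IrrCharacter T, m ψ ≠ 0 →
      c ψ ξ = 0 := by
    intro ξ hξ ψ hψ
    have h1 : Cfsg.classInner (fun k : K => Θ k) ξ.1 = 0 := by
      have e1 : (fun k : K => Θ k) = ((Nat.card K : ℂ)⁻¹ * (Nat.card T : ℂ)) • θ := by
        funext k; rw [hres k]; rfl
      rw [e1, Lead.classInner_smul_left]
      have e2 := Lead.irr_inner_ne (χ := (⟨θ, hθ⟩ : Cfsg.IrrCharacter K)) (ψ := ξ)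
        (fun h => hξ (congrArg Subtype.val h).symm)
      rw [e2, mul_zero]
    have h2 : (fun k : K => Θ k)
        = ∑ ψ : Cfsg.IrrCharacter T, (m ψ : ℂ) • (fun k : K => ψ.1 k) := by
      funext k
      show Θ (k : T) = _
      rw [hm]
      simp only [Finset.sum_apply, Pi.smul_apply]
    rw [h2, Lead.classInner_sum_left] at h1
    have h3 : ∑ ψ : Cfsg.IrrCharacter T, m ψ * c ψ ξ = 0 := by
      have e3 : ∑ ψ : Cfsg.IrrCharacter T, ((m ψ * c ψ ξ : ℕ) : ℂ) = 0 := by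
        rw [← h1]
        apply Finset.sum_congr rfl
        intro ψ _
        rw [Lead.classInner_smul_left, hc]; push_cast; ring
      exact_mod_cast e3
    have h4 := (Finset.sum_eq_zero_iff.mp h3) ψ (Finset.mem_univ ψ)
    rcases Nat.mul_eq_zero.mp h4 with h | h
    · exact absurd h hψ
    · exact h
  have hd : ∀ ψ : Cfsg.IrrCharacter T, m ψ ≠ 0 → ∀ k : K, ψ.1 (k : T) = (m ψ : ℂ) * θ k := by
    intro ψ hψ k
    have hcf : Cfsg.IsClassFunction K (fun k : K => ψ.1 k) :=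
      Lead.isClassFunction_of_char (hresχ ψ)
    have hexp := Lead.class_fn_expand' _ hcf
    have h1 : ψ.1 (k : T) = _ := congrFun hexp k
    rw [Finset.sum_apply, Finset.sum_eq_single (⟨θ, hθ⟩ : Cfsg.IrrCharacter K)] at h1
    · have h2 : Cfsg.classInner (fun k : K => ψ.1 k) θ = (m ψ : ℂ) := by
        rw [← Lead.classInner_conj_symm,
          ← Lead.frobenius_reciprocity K θ ψ.1 (Lead.isClassFunction_of_irr ψ), ← hΘdef, hmψ,
          Complex.conj_natCast]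
      rw [h1, Pi.smul_apply, smul_eq_mul, h2]
    · intro ξ _ hξ
      rw [hc, hd0 ξ (fun h => hξ (Subtype.ext h)) ψ hψ]; simp
    · intro h; exact absurd (Finset.mem_univ _) h
  -- linear characters of T/K
  haveI : Fintype (T ⧸ K) := Fintype.ofFinite _
  haveI : Fintype (Cfsg.IrrCharacter (T ⧸ K)) := Fintype.ofFinite _
  have hQcomm : ∀ a b : T ⧸ K, a * b = b * a := by
    intro a b
    obtain ⟨x, rfl⟩ := QuotientGroup.mk_surjective a
    obtain ⟨y, rfl⟩ := QuotientGroup.mk_surjective b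
    rw [← QuotientGroup.mk_mul, ← QuotientGroup.mk_mul, QuotientGroup.eq]
    have h1 := hab y⁻¹ x⁻¹
    have e : (x * y)⁻¹ * (y * x) = y⁻¹ * x⁻¹ * y⁻¹⁻¹ * x⁻¹⁻¹ := by group
    rw [e]; exact h1
  have hlin1 : ∀ χ : Cfsg.IrrCharacter (T ⧸ K), χ.1 1 = 1 := fun χ =>
    irr_deg_one_of_comm hQcomm χ
  have hinfl : ∀ χ : Cfsg.IrrCharacter (T ⧸ K),
      Cfsg.IsIrrCharacter T (fun t => χ.1 (QuotientGroup.mk' K t)) := fun χ =>
    Lead.isIrrCharacter_comp_surj (QuotientGroup.mk' K) (QuotientGroup.mk'_surjective K) χ.2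
  have hsumlin : ∀ t : T, ∑ χ : Cfsg.IrrCharacter (T ⧸ K), χ.1 (QuotientGroup.mk' K t)
      = if t ∈ K then (Nat.card (T ⧸ K) : ℂ) else 0 := by
    intro t
    have h1 := congrFun (Lead.regular_char_expand (G := T ⧸ K)) (QuotientGroup.mk' K t)
    rw [finsum_eq_sum_of_fintype, Finset.sum_apply, Lead.regular_char] at h1
    rw [show (∑ χ : Cfsg.IrrCharacter (T ⧸ K), χ.1 (QuotientGroup.mk' K t))
        = ∑ χ : Cfsg.IrrCharacter (T ⧸ K), (χ.1 1 • χ.1) (QuotientGroup.mk' K t) from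
      Finset.sum_congr rfl (fun χ _ => by rw [Pi.smul_apply, hlin1 χ, one_smul])]
    rw [← h1]
    by_cases ht : t ∈ K
    · rw [if_pos ht, if_pos (show QuotientGroup.mk' K t = 1 from (QuotientGroup.eq_one_iff t).mpr ht)]
    · rw [if_neg ht, if_neg (show ¬ QuotientGroup.mk' K t = 1 from
        fun h => ht ((QuotientGroup.eq_one_iff t).mp h))]
  have hcardQ : (Nat.card (T ⧸ K) : ℂ) = (Nat.card T : ℂ) / (Nat.card K : ℂ) := by
    rw [Subgroup.card_eq_card_quotient_mul_card_subgroup K]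
    push_cast
    field_simp
  have hf : ∀ ψ : Cfsg.IrrCharacter T, m ψ ≠ 0 → ∀ t : T, (m ψ : ℂ) * Θ t
      = ∑ χ : Cfsg.IrrCharacter (T ⧸ K), χ.1 (QuotientGroup.mk' K t) * ψ.1 t := by
    intro ψ hψ t
    rw [← Finset.sum_mul, hsumlin]
    by_cases ht : t ∈ K
    · rw [if_pos ht, show Θ t = _ from hres ⟨t, ht⟩, show ψ.1 t = _ from hd ψ hψ ⟨t, ht⟩, hcardQ]
      field_simp
    · rw [if_neg ht, hoff t ht]; simp
  have hg : ∀ ψ ψ' : Cfsg.IrrCharacter T, m ψ ≠ 0 → m ψ' ≠ 0 → m ψ' = m ψ := by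
    intro ψ ψ' hψ hψ'
    have h1 : Cfsg.classInner ((m ψ : ℂ) • Θ) ψ'.1 = (m ψ : ℂ) * (m ψ' : ℂ) := by
      rw [Lead.classInner_smul_left, hmψ]
    have h2 : (m ψ : ℂ) • Θ = ∑ χ : Cfsg.IrrCharacter (T ⧸ K),
        (fun t => χ.1 (QuotientGroup.mk' K t)) * ψ.1 := by
      funext t
      rw [Pi.smul_apply, smul_eq_mul, hf ψ hψ t, Finset.sum_apply]
      rfl
    rw [h2, Lead.classInner_sum_left] at h1
    have h3 : ∃ χ : Cfsg.IrrCharacter (T ⧸ K),
        Cfsg.classInner ((fun t => χ.1 (QuotientGroup.mk' K t)) * ψ.1) ψ'.1 ≠ 0 := by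
      by_contra hcon
      push Not at hcon
      rw [Finset.sum_eq_zero (fun χ _ => hcon χ)] at h1
      have h4 : (m ψ : ℂ) * (m ψ' : ℂ) ≠ 0 :=
        mul_ne_zero (by exact_mod_cast hψ) (by exact_mod_cast hψ')
      exact h4 h1.symm
    obtain ⟨χ, hχ⟩ := h3
    have hirr := Cfsg.Agent.Lib.Helper7.LT.irr_linear_twist
      (⟨_, hinfl χ⟩ : Cfsg.IrrCharacter T) ψ
      (by show χ.1 (QuotientGroup.mk' K 1) = 1
          rw [map_one]; exact hlin1 χ)
    have hin := Lead.irr_inner (⟨_, hirr⟩ : Cfsg.IrrCharacter T) ψ'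
    have heq : (fun t => χ.1 (QuotientGroup.mk' K t)) * ψ.1 = ψ'.1 := by
      by_contra hne
      apply hχ
      rw [hin, if_neg]
      intro h; exact hne (congrArg Subtype.val h)
    have h4 := congrFun heq 1
    rw [Pi.mul_apply, map_one, hlin1, one_mul] at h4
    have h5 : ψ.1 1 = (m ψ : ℂ) * θ 1 := hd ψ hψ 1
    have h6 : ψ'.1 1 = (m ψ' : ℂ) * θ 1 := hd ψ' hψ' 1
    have h7 : (m ψ : ℂ) * θ 1 = (m ψ' : ℂ) * θ 1 := by rw [← h5, ← h6]; exact h4
    have h8 := mul_right_cancel₀ hθ1 h7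
    exact_mod_cast h8.symm
  have hΘ1 : Θ 1 ≠ 0 := by
    have h1 : Θ 1 = _ := hres 1
    rw [h1]
    exact mul_ne_zero (mul_ne_zero (inv_ne_zero hKne) hTne) hθ1
  have hexψ : ∃ ψ₀ : Cfsg.IrrCharacter T, m ψ₀ ≠ 0 := by
    by_contra hcon
    push Not at hcon
    apply hΘ1
    rw [hm, Finset.sum_apply]
    apply Finset.sum_eq_zero
    intro ψ _
    rw [hcon ψ]; simp
  obtain ⟨ψ₀, hψ₀⟩ := hexψ
  refine ⟨m ψ₀, Finset.univ.filter (fun ψ => m ψ ≠ 0), Nat.pos_of_ne_zero hψ₀, ?_, ?_, ?_, ?_⟩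
  · rw [Finset.smul_sum, Finset.sum_filter]
    conv_lhs => rw [hm]
    apply Finset.sum_congr rfl
    intro ψ _
    by_cases hψ : m ψ ≠ 0
    · rw [if_pos hψ, hg ψ₀ ψ hψ₀ hψ]
    · rw [if_neg hψ]; push Not at hψ; rw [hψ]; simp
  · intro ψ hψ
    have hψ' := (Finset.mem_filter.mp hψ).2
    have h1 : ψ.1 1 = (m ψ : ℂ) * θ 1 := hd ψ hψ' 1
    rw [← hg ψ₀ ψ hψ₀ hψ']; exact h1
  · have hnT : (Nat.card K : ℂ) * Cfsg.classInner Θ Θ = (Nat.card T : ℂ) := by
      have h1 := Lead.card_mul_inner_ind_normal K θ hθ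
      rw [← hΘdef] at h1
      rw [h1]
      congr 1
      apply Nat.card_congr
      exact Equiv.subtypeUnivEquiv (fun t k => hinv t k)
    have hΘΘ : Cfsg.classInner Θ Θ = ((∑ χ : Cfsg.IrrCharacter T, m χ ^ 2 : ℕ) : ℂ) := by
      conv_lhs => rw [hm]
      rw [Lead.classInner_sum_right]
      push_cast
      apply Finset.sum_congr rfl
      intro ψ _
      rw [Lead.classInner_smul_right, Lead.classInner_nat_comb (fun χ => (m χ : ℂ)) ψ,
        Complex.conj_natCast]; ring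
    have hsum : ∑ χ : Cfsg.IrrCharacter T, m χ ^ 2
        = (Finset.univ.filter (fun ψ => m ψ ≠ 0)).card * m ψ₀ ^ 2 := by
      rw [← Finset.sum_filter_add_sum_filter_not Finset.univ (fun ψ => m ψ ≠ 0)]
      rw [Finset.sum_congr rfl (fun ψ hψ => by
        rw [hg ψ₀ ψ hψ₀ (Finset.mem_filter.mp hψ).2] :
          ∀ ψ ∈ Finset.univ.filter (fun ψ => m ψ ≠ 0), m ψ ^ 2 = m ψ₀ ^ 2)]
      rw [Finset.sum_const, smul_eq_mul]
      rw [Finset.sum_eq_zero (fun ψ hψ => by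
        have h := (Finset.mem_filter.mp hψ).2
        push Not at h
        rw [h]; rfl), add_zero]
    rw [hΘΘ, hsum] at hnT
    have h2 : Nat.card K * ((Finset.univ.filter (fun ψ => m ψ ≠ 0)).card * m ψ₀ ^ 2)
        = Nat.card T := by exact_mod_cast hnT
    rw [← h2]; ring
  · intro ψ hψ
    rw [hmψ]
    exact_mod_cast (Finset.mem_filter.mp hψ).2

end Cfsg.Agent.Lib.Helper6
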