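import Mathlib
import Cfsg.Prelude.Def_OddOrderChar
import Cfsg.Agent.Lib.Helper6.Coh

/-!
# Coherence, part 2: equal degrees and coherence systems
-/

set_option autoImplicit false

namespace Cfsg.Agent.Lib.Helper6

open Cfsg.Agent.Lib

section orth

variable {X : Type*} [Group X] [Fintype X]

theorem span_orth {A B : Set (X → ℂ)} (h : ∀ a ∈ A, ∀ b ∈ B, Cfsg.classInner a b = 0)
    {F F' : X → ℂ} (hF : F ∈ Submodule.span ℂ A) (hF' : F' ∈ Submodule.span ℂ B) :
    Cfsg.classInner F F' = 0 := by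
  refine Submodule.span_induction (p := fun F _ => Cfsg.classInner F F' = 0) ?_ ?_ ?_ ?_ hF
  · intro a ha
    refine Submodule.span_induction (p := fun F' _ => Cfsg.classInner a F' = 0) ?_ ?_ ?_ ?_ hF'
    · exact fun b hb => h a ha b hb
    · exact Lead.classInner_zero_right _
    · intro x y _ _ hx hy; rw [Lead.classInner_add_right, hx, hy, add_zero]
    · intro c x _ hx; rw [Lead.classInner_smul_right, hx, mul_zero]
  · exact Lead.classInner_zero_left _
  · intro x y _ _ hx hy; rw [Lead.classInner_add_left, hx, hy, add_zero]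
  · intro c x _ hx; rw [Lead.classInner_smul_left, hx, mul_zero]

omit [Group X] [Fintype X] in
theorem sum_mem_span_self (I : Finset (X → ℂ)) :
    (∑ α ∈ I, α) ∈ Submodule.span ℂ (↑I : Set (X → ℂ)) :=
  Submodule.sum_mem _ (fun _ hα => Submodule.subset_span (Finset.mem_coe.mpr hα))

open Classical in
theorem on_sum_inner {I : Finset (X → ℂ)}
    (hI : ∀ α ∈ I, ∀ β ∈ I, Cfsg.classInner α β = if α = β then 1 else 0)
    {A B : Finset (X → ℂ)} (hA : A ⊆ I) (hB : B ⊆ I) :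
    Cfsg.classInner (∑ α ∈ A, α) (∑ β ∈ B, β) = ((A ∩ B).card : ℂ) := by
  rw [Lead.classInner_sum_left]
  have h1 : ∀ α ∈ A, Cfsg.classInner α (∑ β ∈ B, β) = if α ∈ B then 1 else 0 := by
    intro α hα
    rw [Lead.classInner_sum_right]
    rw [Finset.sum_congr rfl (fun β hβ => hI α (hA hα) β (hB hβ))]
    rw [Finset.sum_ite_eq]
  rw [Finset.sum_congr rfl h1, Finset.sum_boole, Finset.filter_mem_eq_inter]

theorem classInner_conjFun_self (φ : X → ℂ) :
    Cfsg.classInner (Cfsg.conjFun φ) (Cfsg.conjFun φ) = Cfsg.classInner φ φ := by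
  unfold Cfsg.classInner Cfsg.conjFun
  congr 1
  apply Finset.sum_congr rfl
  intro g _
  rw [Complex.conj_conj, mul_comm]

omit [Group X] [Fintype X] in
theorem conjFun_conjFun (φ : X → ℂ) : Cfsg.conjFun (Cfsg.conjFun φ) = φ := by
  funext x
  simp [Cfsg.conjFun]

omit [Fintype X] in
theorem char_one_ne_zero {χ : X → ℂ} (h : Cfsg.IsCharacter X χ) (hne : χ ≠ 0) : χ 1 ≠ 0 := by
  obtain ⟨k, ρ, rfl⟩ := h
  intro h1
  apply hne
  rw [Representation.char_one] at h1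
  have hk : k = 0 := by
    have : (Module.finrank ℂ (Fin k → ℂ) : ℂ) = 0 := h1
    simpa using this
  subst hk
  funext g
  have : ρ g = 0 := Subsingleton.elim _ _
  simp [Representation.character, this]

theorem inner_comb_add (a c : ℤ) (u u' v v' : X → ℂ) :
    Cfsg.classInner (a • u + u') (c • v + v')
      = a * c * Cfsg.classInner u v + a * Cfsg.classInner u v'
        + c * Cfsg.classInner u' v + Cfsg.classInner u' v' := by
  simp only [Lead.classInner_add_left, Lead.classInner_add_right, classInner_zsmul_left,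
    classInner_zsmul_right]
  ring

end orth

section eqdeg

variable {L : Type*} [Group L] [Fintype L] {G : Type*} [Group G] [Fintype G]

/-- the multiplier `n` with `γ 1 = n * d` -/
noncomputable def degMul (d : ℂ) (γ : L → ℂ) : ℤ :=
  open Classical in if h : ∃ n : ℤ, γ 1 = (n : ℂ) * d then Classical.choose h else 0

omit [Fintype L] in
theorem degMul_eq {d : ℂ} (hd : d ≠ 0) {γ : L → ℂ} {n : ℤ} (h : γ 1 = (n : ℂ) * d) :
    degMul d γ = n := by
  unfold degMul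
  have hex : ∃ n : ℤ, γ 1 = (n : ℂ) * d := ⟨n, h⟩
  rw [dif_pos hex]
  have h2 := Classical.choose_spec hex
  have h3 := mul_right_cancel₀ hd (h2.symm.trans h)
  exact_mod_cast h3

/-- A set of functions of equal degree `d ≠ 0` is coherent as soon as one member `χ` has a
candidate image `X` compatible with `τ`. -/
theorem coherent_of_equal_deg {S : Set (L → ℂ)} {τ : (L → ℂ) → (G → ℂ)}
    (hτ : Cfsg.IsLinearIsometryOn (Cfsg.zspanOn S {1}ᶜ) τ) {χ : L → ℂ} (hχ : χ ∈ S)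
    {d : ℂ} (hd0 : d ≠ 0) (hd : ∀ s ∈ S, s 1 = d) {X : G → ℂ}
    (hXgen : Cfsg.IsGeneralizedCharacter G X)
    (hXX : Cfsg.classInner X X = Cfsg.classInner χ χ)
    (hXs : ∀ s ∈ S, Cfsg.classInner X (τ (s - χ)) = Cfsg.classInner χ (s - χ))
    (hne : ∃ α ∈ Cfsg.zspanOn S {1}ᶜ, α ≠ 0) : Cfsg.IsCoherent S {1}ᶜ τ := by
  have hE := zclosed_zspanOn S ({1}ᶜ : Set L)
  have hresn : ∀ (a : L → ℂ) (n : ℤ), a ∈ Cfsg.zspan S → a 1 = (n : ℂ) * d →
      a - n • χ ∈ Cfsg.zspanOn S {1}ᶜ := by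
    intro a n ha hn
    apply mem_zspanOn_one (zspan_sub ha (zspan_zsmul (zspan_mem hχ) n))
    rw [Pi.sub_apply, zsmul_fun_apply, hn, hd χ hχ, sub_self]
  have hdeg : ∀ γ ∈ Cfsg.zspan S, ∃ n : ℤ, γ 1 = (n : ℂ) * d ∧
      Cfsg.classInner X (τ (γ - n • χ)) = Cfsg.classInner χ (γ - n • χ) := by
    intro γ hγ
    refine Submodule.span_induction (R := ℤ) (s := S)
      (p := fun a _ => ∃ n : ℤ, a 1 = (n : ℂ) * d ∧
        Cfsg.classInner X (τ (a - n • χ)) = Cfsg.classInner χ (a - n • χ)) ?_ ?_ ?_ ?_ hγ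
    · intro a ha
      refine ⟨1, by rw [hd a ha]; simp, ?_⟩
      rw [one_smul]; exact hXs a ha
    · refine ⟨0, by simp, ?_⟩
      rw [zero_smul, sub_zero, lin_zero hE hτ, Lead.classInner_zero_right,
        Lead.classInner_zero_right]
    · rintro a b ha hb ⟨n, hn, hn'⟩ ⟨m, hm, hm'⟩
      refine ⟨n + m, by rw [Pi.add_apply, hn, hm]; push_cast; ring, ?_⟩
      have hae := hresn a n ha hn
      have hbe := hresn b m hb hm
      have e : a + b - (n + m) • χ = (a - n • χ) + (b - m • χ) := by rw [add_smul]; abel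
      rw [e, hτ.1 _ hae _ hbe, Lead.classInner_add_right, Lead.classInner_add_right, hn', hm']
    · rintro k a ha ⟨n, hn, hn'⟩
      refine ⟨k * n, by rw [zsmul_fun_apply, hn]; push_cast; ring, ?_⟩
      have hae := hresn a n ha hn
      have e : k • a - (k * n) • χ = k • (a - n • χ) := by rw [smul_sub, mul_smul]
      rw [e, hτ.2.1 _ hae, classInner_zsmul_right, classInner_zsmul_right, hn']
  have hK : ∀ γ ∈ Cfsg.zspanOn S {1}ᶜ, Cfsg.classInner X (τ γ) = Cfsg.classInner χ γ := by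
    intro γ hγ
    obtain ⟨n, hn, hn'⟩ := hdeg γ hγ.1
    have hn0 : n = 0 := by
      rw [zspanOn_one_apply hγ] at hn
      have := (mul_eq_zero.mp hn.symm).resolve_right hd0
      exact_mod_cast this
    rw [hn0, zero_smul, sub_zero] at hn'
    exact hn'
  have hK' : ∀ γ ∈ Cfsg.zspanOn S {1}ᶜ, Cfsg.classInner (τ γ) X = Cfsg.classInner γ χ := by
    intro γ hγ
    rw [← Lead.classInner_conj_symm, hK γ hγ, Lead.classInner_conj_symm]
  have hmul : ∀ γ ∈ Cfsg.zspan S, γ 1 = (degMul d γ : ℂ) * d := by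
    intro γ hγ
    obtain ⟨n, hn, _⟩ := hdeg γ hγ
    rw [degMul_eq hd0 hn]; exact hn
  have hres : ∀ γ ∈ Cfsg.zspan S, γ - degMul d γ • χ ∈ Cfsg.zspanOn S {1}ᶜ :=
    fun γ hγ => hresn γ _ hγ (hmul γ hγ)
  refine ⟨hne, fun γ => degMul d γ • X + τ (γ - degMul d γ • χ), ⟨?_, ?_, ?_, ?_⟩, ?_⟩
  · intro α hα β hβ
    have hm : degMul d (α + β) = degMul d α + degMul d β := by
      apply degMul_eq hd0
      rw [Pi.add_apply, hmul α hα, hmul β hβ]; push_cast; ring
    show degMul d (α + β) • X + τ (α + β - degMul d (α + β) • χ)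
      = (degMul d α • X + τ (α - degMul d α • χ)) + (degMul d β • X + τ (β - degMul d β • χ))
    have e : α + β - (degMul d α + degMul d β) • χ
        = (α - degMul d α • χ) + (β - degMul d β • χ) := by rw [add_smul]; abel
    rw [hm, e, hτ.1 _ (hres α hα) _ (hres β hβ), add_smul]
    abel
  · intro α hα k
    have hm : degMul d (k • α) = k * degMul d α := by
      apply degMul_eq hd0
      rw [zsmul_fun_apply, hmul α hα]; push_cast; ring
    show degMul d (k • α) • X + τ (k • α - degMul d (k • α) • χ)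
      = k • (degMul d α • X + τ (α - degMul d α • χ))
    have e : k • α - (k * degMul d α) • χ = k • (α - degMul d α • χ) := by
      rw [smul_sub, mul_smul]
    rw [hm, e, hτ.2.1 _ (hres α hα), smul_add, mul_smul]
  · intro α hα β hβ
    show Cfsg.classInner (degMul d α • X + τ (α - degMul d α • χ))
      (degMul d β • X + τ (β - degMul d β • χ)) = Cfsg.classInner α β
    have hsplit : Cfsg.classInner α β = Cfsg.classInner (degMul d α • χ + (α - degMul d α • χ))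
        (degMul d β • χ + (β - degMul d β • χ)) := by
      congr 1 <;> abel
    rw [hsplit, inner_comb_add, inner_comb_add, hXX, hK _ (hres β hβ), hK' _ (hres α hα),
      hτ.2.2.1 _ (hres α hα) _ (hres β hβ)]
  · intro α hα
    exact Lead.isGen_add (isGen_zsmul hXgen _) (hτ.2.2.2 _ (hres α hα))
  · intro α hα
    have hm : degMul d α = 0 := by
      apply degMul_eq hd0
      rw [zspanOn_one_apply hα]; simp
    show degMul d α • X + τ (α - degMul d α • χ) = τ α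
    rw [hm, zero_smul, zero_smul, sub_zero, zero_add]

end eqdeg

section sys

variable {L : Type*} [Group L] [Fintype L] {G : Type*} [Group G] [Fintype G]

theorem coh_sys_orth {S : Set (L → ℂ)} {τ : (L → ℂ) → (G → ℂ)} {R : (L → ℂ) → Finset (G → ℂ)}
    (hS : Cfsg.IsCoherenceSystem S τ R) {φ ψ : L → ℂ} (hφ : φ ∈ S) (hψ : ψ ∈ S) (h1 : φ ≠ ψ)
    (h2 : φ ≠ Cfsg.conjFun ψ) : ∀ α ∈ R φ, ∀ β ∈ R ψ, Cfsg.classInner α β = 0 :=
  hS.disjoint ψ hψ φ hφ (hS.orthogonal φ hφ ψ hψ h1)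
    (hS.orthogonal φ hφ _ (hS.conj_mem ψ hψ) h2)

/-- In a coherence system, `τ (χ - ξ)` splits as a part in the span of `R χ` of norm `⟨χ, χ⟩`
and a part in the span of `R ξ`. -/
theorem coh_sys_split {S : Set (L → ℂ)} {τ : (L → ℂ) → (G → ℂ)} {R : (L → ℂ) → Finset (G → ℂ)}
    (hS : Cfsg.IsCoherenceSystem S τ R) {χ ξ : L → ℂ} (hχ : χ ∈ S) (hξ : ξ ∈ S) (hne : ξ ≠ χ)
    (hne' : ξ ≠ Cfsg.conjFun χ)
    (hmem : χ - ξ ∈ Cfsg.zspanOn S {1}ᶜ) (hmemχ : χ - Cfsg.conjFun χ ∈ Cfsg.zspanOn S {1}ᶜ)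
    (hmemξ : ξ - Cfsg.conjFun ξ ∈ Cfsg.zspanOn S {1}ᶜ) :
    ∃ X Y : G → ℂ, τ (χ - ξ) = X + Y ∧ X ∈ Submodule.span ℂ (↑(R χ) : Set (G → ℂ)) ∧
      Y ∈ Submodule.span ℂ (↑(R ξ) : Set (G → ℂ)) ∧ Cfsg.IsGeneralizedCharacter G X ∧
      Cfsg.classInner X X = Cfsg.classInner χ χ ∧
      Cfsg.classInner X (∑ α ∈ R χ, α) = Cfsg.classInner χ χ := by
  classical
  have hτ := hS.isometry
  have hχc := hS.conj_mem χ hχ
  have hξc := hS.conj_mem ξ hξ
  have hχξc : χ ≠ Cfsg.conjFun ξ := fun h => hne' (by rw [h, conjFun_conjFun])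
  have o1 : Cfsg.classInner χ (Cfsg.conjFun χ) = 0 :=
    hS.orthogonal χ hχ _ hχc (Ne.symm (hS.conj_ne χ hχ))
  have o2 : Cfsg.classInner ξ χ = 0 := hS.orthogonal ξ hξ χ hχ hne
  have o3 : Cfsg.classInner ξ (Cfsg.conjFun χ) = 0 := hS.orthogonal ξ hξ _ hχc hne'
  have o4 : Cfsg.classInner χ ξ = 0 := hS.orthogonal χ hχ ξ hξ (Ne.symm hne)
  have o5 : Cfsg.classInner χ (Cfsg.conjFun ξ) = 0 := hS.orthogonal χ hχ _ hξc hχξc
  have o6 : Cfsg.classInner ξ (Cfsg.conjFun ξ) = 0 :=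
    hS.orthogonal ξ hξ _ hξc (Ne.symm (hS.conj_ne ξ hξ))
  obtain ⟨n, hn⟩ := gen_norm_nat (Lead.isGen_of_char (hS.isCharacter χ hχ))
  obtain ⟨m, hm⟩ := gen_norm_nat (Lead.isGen_of_char (hS.isCharacter ξ hξ))
  have hDgen : Cfsg.IsGeneralizedCharacter G (τ (χ - ξ)) := hτ.2.2.2 _ hmem
  have hDχ : Cfsg.classInner (τ (χ - ξ)) (∑ α ∈ R χ, α) = (n : ℂ) := by
    rw [← hS.sum_eq χ hχ, hτ.2.2.1 _ hmem _ hmemχ, Lead.classInner_sub_left,
      Lead.classInner_sub_right, Lead.classInner_sub_right, o1, o2, o3, hn]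
    ring
  have hDξ : Cfsg.classInner (τ (χ - ξ)) (∑ β ∈ R ξ, β) = -(m : ℂ) := by
    rw [← hS.sum_eq ξ hξ, hτ.2.2.1 _ hmem _ hmemξ, Lead.classInner_sub_left,
      Lead.classInner_sub_right, Lead.classInner_sub_right, o4, o5, o6, hm]
    ring
  have hDD : Cfsg.classInner (τ (χ - ξ)) (τ (χ - ξ)) = (n : ℂ) + m := by
    rw [hτ.2.2.1 _ hmem _ hmem, Lead.classInner_sub_left, Lead.classInner_sub_right,
      Lead.classInner_sub_right, o2, o4, hn, hm]
    ring
  have hRo := coh_sys_orth hS hχ hξ (Ne.symm hne) hχξc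
  have hRo' := coh_sys_orth hS hξ hχ hne hne'
  have hdisj : Disjoint (R χ) (R ξ) := by
    rw [Finset.disjoint_left]
    intro a ha hb
    have h1 := hS.orthonormal χ hχ a ha a ha
    rw [if_pos rfl, hRo a ha a hb] at h1
    exact zero_ne_one h1
  have hu : ∀ i ∈ R χ ∪ R ξ, ∀ j ∈ R χ ∪ R ξ,
      Cfsg.classInner (id i) (id j) = if i = j then 1 else 0 := by
    intro i hi j hj
    rcases Finset.mem_union.mp hi with h1 | h1 <;> rcases Finset.mem_union.mp hj with h2 | h2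
    · exact hS.orthonormal χ hχ i h1 j h2
    · rw [if_neg (fun h : i = j => Finset.disjoint_left.mp hdisj h1 (h ▸ h2))]
      exact hRo i h1 j h2
    · rw [if_neg (fun h : i = j => Finset.disjoint_left.mp hdisj h2 (h ▸ h1))]
      exact hRo' i h1 j h2
    · exact hS.orthonormal ξ hξ i h1 j h2
  have hgenI : ∀ i ∈ R χ ∪ R ξ, Cfsg.IsGeneralizedCharacter G i := by
    intro i hi
    rcases Finset.mem_union.mp hi with h1 | h1
    · exact hS.virtual χ hχ i h1
    · exact hS.virtual ξ hξ i h1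
  have hc : ∀ α : G → ℂ, ∃ c : ℤ, α ∈ R χ ∪ R ξ →
      Cfsg.classInner (τ (χ - ξ)) α = (c : ℂ) := by
    intro α
    by_cases hα : α ∈ R χ ∪ R ξ
    · obtain ⟨c, hc⟩ := gen_inner_int hDgen (hgenI α hα)
      exact ⟨c, fun _ => hc⟩
    · exact ⟨0, fun h => absurd h hα⟩
  choose c hc using hc
  have hB := bessel_norm (R χ ∪ R ξ) id hu (τ (χ - ξ))
  have hBgen : Cfsg.IsGeneralizedCharacter G
      (τ (χ - ξ) - ∑ i ∈ R χ ∪ R ξ, Cfsg.classInner (τ (χ - ξ)) (id i) • id i) := by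
    apply Lead.isGen_sub hDgen
    refine Lead.isGen_sum _ _ (fun i hi => ?_)
    show Cfsg.IsGeneralizedCharacter G (Cfsg.classInner (τ (χ - ξ)) i • i)
    rw [hc i hi, ← zsmul_fun_eq]
    exact isGen_zsmul (hgenI i hi) _
  obtain ⟨k, hk⟩ := gen_norm_nat hBgen
  rw [hk, hDD] at hB
  have hsq : ∑ i ∈ R χ ∪ R ξ, Cfsg.classInner (τ (χ - ξ)) (id i)
        * (starRingEnd ℂ) (Cfsg.classInner (τ (χ - ξ)) (id i))
      = ((∑ i ∈ R χ, c i ^ 2 + ∑ i ∈ R ξ, c i ^ 2 : ℤ) : ℂ) := by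
    rw [Finset.sum_union hdisj]
    push_cast
    congr 1
    · apply Finset.sum_congr rfl
      intro i hi
      show Cfsg.classInner (τ (χ - ξ)) i * (starRingEnd ℂ) (Cfsg.classInner (τ (χ - ξ)) i)
        = (c i : ℂ) ^ 2
      rw [hc i (Finset.mem_union_left _ hi), map_intCast]; ring
    · apply Finset.sum_congr rfl
      intro i hi
      show Cfsg.classInner (τ (χ - ξ)) i * (starRingEnd ℂ) (Cfsg.classInner (τ (χ - ξ)) i)
        = (c i : ℂ) ^ 2
      rw [hc i (Finset.mem_union_right _ hi), map_intCast]; ring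
  have hsum1 : ∑ i ∈ R χ, c i = (n : ℤ) := by
    have h1 : ((∑ i ∈ R χ, c i : ℤ) : ℂ) = (n : ℂ) := by
      rw [← hDχ, Lead.classInner_sum_right]
      push_cast
      apply Finset.sum_congr rfl
      intro i hi
      rw [hc i (Finset.mem_union_left _ hi)]
    exact_mod_cast h1
  have hsum2 : ∑ i ∈ R ξ, c i = -(m : ℤ) := by
    have h1 : ((∑ i ∈ R ξ, c i : ℤ) : ℂ) = -(m : ℂ) := by
      rw [← hDξ, Lead.classInner_sum_right]
      push_cast
      apply Finset.sum_congr rfl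
      intro i hi
      rw [hc i (Finset.mem_union_right _ hi)]
    exact_mod_cast h1
  have hint : (k : ℤ) + (∑ i ∈ R χ, c i ^ 2 + ∑ i ∈ R ξ, c i ^ 2) = n + m := by
    rw [hsq] at hB
    have h1 : ((k : ℤ) : ℂ) + ((∑ i ∈ R χ, c i ^ 2 + ∑ i ∈ R ξ, c i ^ 2 : ℤ) : ℂ)
        = ((n + m : ℤ) : ℂ) := by
      push_cast
      push_cast at hB
      linear_combination hB
    exact_mod_cast h1
  have hge1 : ∑ i ∈ R χ, c i ≤ ∑ i ∈ R χ, c i ^ 2 :=
    Finset.sum_le_sum (fun i _ => Int.le_self_sq (c i))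
  have hge2 : ∑ i ∈ R ξ, -c i ≤ ∑ i ∈ R ξ, c i ^ 2 :=
    Finset.sum_le_sum (fun i _ => by
      have h := Int.le_self_sq (-c i)
      rwa [neg_sq] at h)
  rw [Finset.sum_neg_distrib] at hge2
  have hk0 : (k : ℤ) = 0 := by
    have := Nat.cast_nonneg (α := ℤ) k
    linarith
  have hsq1 : ∑ i ∈ R χ, c i ^ 2 = (n : ℤ) := by linarith
  have hk' : k = 0 := by exact_mod_cast hk0
  rw [hk', Nat.cast_zero] at hk
  have hZ := coh_norm_eq_zero _ hk
  obtain ⟨X, hX⟩ : ∃ X : G → ℂ, X = ∑ i ∈ R χ, Cfsg.classInner (τ (χ - ξ)) i • i := ⟨_, rfl⟩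
  obtain ⟨Y, hY⟩ : ∃ Y : G → ℂ, Y = ∑ i ∈ R ξ, Cfsg.classInner (τ (χ - ξ)) i • i := ⟨_, rfl⟩
  have hXα : ∀ α ∈ R χ, Cfsg.classInner X α = (c α : ℂ) := by
    intro α hα
    have h1 := bessel_orth (R χ) id (fun i hi j hj => hS.orthonormal χ hχ i hi j hj)
      (τ (χ - ξ)) α hα
    rw [Lead.classInner_sub_left, sub_eq_zero] at h1
    rw [hX, ← hc α (Finset.mem_union_left _ hα)]
    exact h1.symm
  have hFX : ∀ F : G → ℂ, Cfsg.classInner F X = ∑ i ∈ R χ, (c i : ℂ) * Cfsg.classInner F i := by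
    intro F
    rw [hX, Lead.classInner_sum_right]
    apply Finset.sum_congr rfl
    intro i hi
    rw [Lead.classInner_smul_right, hc i (Finset.mem_union_left _ hi), map_intCast]
  refine ⟨X, Y, ?_, ?_, ?_, ?_, ?_, ?_⟩
  · rw [hX, hY, ← Finset.sum_union hdisj]
    exact sub_eq_zero.mp hZ
  · rw [hX]
    exact Submodule.sum_mem _ (fun i hi =>
      Submodule.smul_mem _ _ (Submodule.subset_span (Finset.mem_coe.mpr hi)))
  · rw [hY]
    exact Submodule.sum_mem _ (fun i hi =>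
      Submodule.smul_mem _ _ (Submodule.subset_span (Finset.mem_coe.mpr hi)))
  · rw [hX]
    refine Lead.isGen_sum _ _ (fun i hi => ?_)
    rw [hc i (Finset.mem_union_left _ hi), ← zsmul_fun_eq]
    exact isGen_zsmul (hS.virtual χ hχ i hi) _
  · rw [hFX X, Finset.sum_congr rfl (fun i hi => by rw [hXα i hi]), hn]
    have h1 : ((∑ i ∈ R χ, c i ^ 2 : ℤ) : ℂ) = (n : ℂ) := by exact_mod_cast hsq1
    rw [← h1]
    push_cast
    apply Finset.sum_congr rfl
    intro i _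
    ring
  · rw [Lead.classInner_sum_right, Finset.sum_congr rfl hXα, hn]
    have h1 : ((∑ i ∈ R χ, c i : ℤ) : ℂ) = (n : ℂ) := by exact_mod_cast hsum1
    rw [← h1]
    push_cast
    rfl

end sys

end Cfsg.Agent.Lib.Helper6
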