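import Mathlib
import Cfsg.Prelude.Def_OddOrderChar
import Cfsg.Agent.Lib.Helper6.Coh2

/-!
# Coherence, part 3: Bessel inequalities with orthonormal sets of virtual characters
-/

set_option autoImplicit false

namespace Cfsg.Agent.Lib.Helper6

open Cfsg.Agent.Lib

section bessel

variable {X : Type*} [Group X] [Fintype X]

theorem classInner_self_real (F : X → ℂ) :
    ∃ r : ℝ, 0 ≤ r ∧ Cfsg.classInner F F = (r : ℂ) := by
  refine ⟨(Nat.card X : ℝ)⁻¹ * ∑ g : X, Complex.normSq (F g), ?_, ?_⟩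
  · apply mul_nonneg (inv_nonneg.mpr (Nat.cast_nonneg _))
    exact Finset.sum_nonneg (fun g _ => Complex.normSq_nonneg _)
  · unfold Cfsg.classInner
    push_cast
    congr 1
    apply Finset.sum_congr rfl
    intro g _
    rw [Complex.mul_conj]

theorem bessel_lower {I : Finset (X → ℂ)}
    (hI : ∀ α ∈ I, ∀ β ∈ I, Cfsg.classInner α β = if α = β then 1 else 0) (F : X → ℂ)
    (c : (X → ℂ) → ℤ) (hc : ∀ α ∈ I, Cfsg.classInner F α = (c α : ℂ)) :
    ∃ r : ℝ, 0 ≤ r ∧ Cfsg.classInner F F = (r : ℂ) + ((∑ α ∈ I, c α ^ 2 : ℤ) : ℂ) ∧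
      (r = 0 → F = ∑ α ∈ I, (c α : ℂ) • α) := by
  classical
  have hB := bessel_norm I id (fun i hi j hj => hI i hi j hj) F
  obtain ⟨r, hr0, hr⟩ := classInner_self_real (F - ∑ i ∈ I, Cfsg.classInner F (id i) • id i)
  refine ⟨r, hr0, ?_, ?_⟩
  · rw [hr] at hB
    have h1 : ∑ i ∈ I, Cfsg.classInner F (id i) * (starRingEnd ℂ) (Cfsg.classInner F (id i))
        = ((∑ α ∈ I, c α ^ 2 : ℤ) : ℂ) := by
      push_cast
      apply Finset.sum_congr rfl
      intro i hi
      show Cfsg.classInner F i * (starRingEnd ℂ) (Cfsg.classInner F i) = (c i : ℂ) ^ 2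
      rw [hc i hi, map_intCast]; ring
    rw [h1] at hB
    linear_combination -hB
  · intro h0
    rw [h0, Complex.ofReal_zero] at hr
    have hZ := coh_norm_eq_zero _ hr
    have h2 : F = ∑ i ∈ I, Cfsg.classInner F (id i) • id i := sub_eq_zero.mp hZ
    refine h2.trans ?_
    apply Finset.sum_congr rfl
    intro i hi
    show Cfsg.classInner F i • i = (c i : ℂ) • i
    rw [hc i hi]

/-- a virtual character `F` with `⟨F, F⟩ = N = ⟨F, Σ I⟩` for an orthonormal set `I` of virtual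
characters lies in the span of `I` -/
theorem on_span_of_sum {I : Finset (X → ℂ)}
    (hI : ∀ α ∈ I, ∀ β ∈ I, Cfsg.classInner α β = if α = β then 1 else 0)
    (hgen : ∀ α ∈ I, Cfsg.IsGeneralizedCharacter X α) {F : X → ℂ}
    (hF : Cfsg.IsGeneralizedCharacter X F) {N : ℕ} (hFF : Cfsg.classInner F F = (N : ℂ))
    (hFI : Cfsg.classInner F (∑ α ∈ I, α) = (N : ℂ)) :
    F ∈ Submodule.span ℂ (↑I : Set (X → ℂ)) := by
  classical
  have hc : ∀ α : X → ℂ, ∃ c : ℤ, α ∈ I → Cfsg.classInner F α = (c : ℂ) := by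
    intro α
    by_cases hα : α ∈ I
    · obtain ⟨c, hc⟩ := gen_inner_int hF (hgen α hα)
      exact ⟨c, fun _ => hc⟩
    · exact ⟨0, fun h => absurd h hα⟩
  choose c hc using hc
  obtain ⟨r, hr0, hr, hr'⟩ := bessel_lower hI F c hc
  have hsum : ((∑ α ∈ I, c α : ℤ) : ℂ) = (N : ℂ) := by
    rw [← hFI, Lead.classInner_sum_right]
    push_cast
    exact Finset.sum_congr rfl (fun i hi => (hc i hi).symm)
  have hsum' : ∑ α ∈ I, c α = (N : ℤ) := by exact_mod_cast hsum
  have hge : (N : ℤ) ≤ ∑ α ∈ I, c α ^ 2 := by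
    rw [← hsum']
    exact Finset.sum_le_sum (fun i _ => Int.le_self_sq (c i))
  rw [hFF] at hr
  have hreal : (N : ℝ) = r + ((∑ α ∈ I, c α ^ 2 : ℤ) : ℝ) := by exact_mod_cast hr
  have hge' : (N : ℝ) ≤ ((∑ α ∈ I, c α ^ 2 : ℤ) : ℝ) := by exact_mod_cast hge
  have hr00 : r = 0 := by linarith
  rw [hr' hr00]
  exact Submodule.sum_mem _ (fun i hi =>
    Submodule.smul_mem _ _ (Submodule.subset_span (Finset.mem_coe.mpr hi)))

end bessel

end Cfsg.Agent.Lib.Helper6
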