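import Mathlib
import Cfsg.Agent.Lib.Helper6.LinChar2
import Cfsg.Agent.Lib.Helper6.CharRat
import Cfsg.Agent.Lib.Helper6.RealElt
import Cfsg.Agent.S1503
import Cfsg.Prelude.Def_OddOrderChar

/-!
Galois conjugation on the character family of a self-normalising cyclic subgroup.
-/

set_option autoImplicit false

namespace Cfsg.Agent.Lib.Helper6

open Cfsg.Agent.Lib

theorem exists_coprime_lift (N a m j : ℕ) (hN : 0 < N) (ha : a ∣ N) (hm : m ∣ N)
    (ham : a.Coprime m) (hj : j.Coprime N) :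
    ∃ k : ℕ, k.Coprime N ∧ k ≡ 1 [MOD a] ∧ k ≡ j [MOD m] := by
  haveI : NeZero N := ⟨hN.ne'⟩
  have hd : a * m ∣ N := ham.mul_dvd_of_dvd_of_dvd ha hm
  obtain ⟨k₀, hk₀a, hk₀m⟩ := Nat.chineseRemainder ham 1 j
  have hk₀ : k₀.Coprime (a * m) := by
    apply Nat.Coprime.mul_right
    · have h1 : Nat.gcd k₀ a = Nat.gcd 1 a := hk₀a.gcd_eq
      rw [Nat.Coprime, h1]; simp
    · have h1 : Nat.gcd k₀ m = Nat.gcd j m := hk₀m.gcd_eq
      rw [Nat.Coprime, h1]; exact Nat.Coprime.coprime_dvd_right hm hj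
  obtain ⟨v, hv⟩ := ZMod.unitsMap_surjective hd (ZMod.unitOfCoprime k₀ hk₀)
  have hcast : (((v : ZMod N).val : ℕ) : ZMod (a * m)) = (k₀ : ZMod (a * m)) := by
    have h1 := congrArg Units.val hv
    rw [ZMod.coe_unitOfCoprime] at h1
    rw [← h1]
    show _ = ZMod.castHom hd (ZMod (a * m)) (v : ZMod N)
    conv_rhs => rw [← ZMod.natCast_zmod_val (v : ZMod N)]
    rw [map_natCast]
  have hmod : (v : ZMod N).val ≡ k₀ [MOD a * m] := (ZMod.natCast_eq_natCast_iff _ _ _).mp hcast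
  refine ⟨(v : ZMod N).val, ZMod.val_coe_unit_coprime v, ?_, ?_⟩
  · exact (Nat.ModEq.of_mul_right m hmod).trans hk₀a
  · exact (Nat.ModEq.of_mul_left a hmod).trans hk₀m

/-- a linear character of `W` that is trivial off `W₁ ∪ W₂` is trivial (odd order) -/
theorem hom_eq_one_of_T {G : Type*} [Group G] [Finite G] (W₁ W₂ : Subgroup G)
    (hW : Cfsg.IsSelfNormalizingCyclic W₁ W₂) (hodd : Odd (Nat.card ↥(W₁ ⊔ W₂)))
    (η : ↥(W₁ ⊔ W₂) →* ℂˣ)
    (h : ∀ w : ↥(W₁ ⊔ W₂), (w : G) ∉ W₁ → (w : G) ∉ W₂ → η w = 1) : η = 1 := by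
  obtain ⟨h1, h2, hdisj, -, -, -⟩ := hW
  obtain ⟨a₀, ha₀⟩ := (Subgroup.ne_bot_iff_exists_ne_one).mp h1
  obtain ⟨b₀, hb₀⟩ := (Subgroup.ne_bot_iff_exists_ne_one).mp h2
  have key : ∀ a b : ↥(W₁ ⊔ W₂), (a : G) ∈ W₁ → a ≠ 1 → (b : G) ∈ W₂ → b ≠ 1 →
      η (a * b) = 1 := by
    intro a b ha ha1 hb hb1
    apply h
    · intro hab
      have hb' : (b : G) ∈ W₁ := by
        have h3 := W₁.mul_mem (W₁.inv_mem ha) hab
        simpa using h3
      have h4 : (b : G) ∈ W₁ ⊓ W₂ := ⟨hb', hb⟩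
      rw [hdisj, Subgroup.mem_bot] at h4
      exact hb1 (Subtype.ext h4)
    · intro hab
      have ha' : (a : G) ∈ W₂ := by
        have h3 := W₂.mul_mem hab (W₂.inv_mem hb)
        simpa using h3
      have h4 : (a : G) ∈ W₁ ⊓ W₂ := ⟨ha, ha'⟩
      rw [hdisj, Subgroup.mem_bot] at h4
      exact ha1 (Subtype.ext h4)
  have hsq : ∀ a : ↥(W₁ ⊔ W₂), a ≠ 1 → a ^ 2 ≠ 1 := by
    intro a ha1 hsq
    have h3 : orderOf a ∣ 2 := orderOf_dvd_of_pow_eq_one hsq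
    have h4 : orderOf a ∣ Nat.card ↥(W₁ ⊔ W₂) := orderOf_dvd_natCard a
    have h5 : orderOf a ∣ Nat.gcd 2 (Nat.card ↥(W₁ ⊔ W₂)) := Nat.dvd_gcd h3 h4
    have h6 : Nat.gcd 2 (Nat.card ↥(W₁ ⊔ W₂)) = 1 := Nat.coprime_two_left.mpr hodd
    rw [h6, Nat.dvd_one, orderOf_eq_one_iff] at h5
    exact ha1 h5
  let A₀ : ↥(W₁ ⊔ W₂) := ⟨a₀, (le_sup_left : W₁ ≤ W₁ ⊔ W₂) a₀.2⟩
  let B₀ : ↥(W₁ ⊔ W₂) := ⟨b₀, (le_sup_right : W₂ ≤ W₁ ⊔ W₂) b₀.2⟩
  have hA₀ : A₀ ≠ 1 := by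
    intro hh
    have h5 : ((A₀ : ↥(W₁ ⊔ W₂)) : G) = 1 := congrArg Subtype.val hh
    exact ha₀ (Subtype.ext h5)
  have hB₀ : B₀ ≠ 1 := by
    intro hh
    have h5 : ((B₀ : ↥(W₁ ⊔ W₂)) : G) = 1 := congrArg Subtype.val hh
    exact hb₀ (Subtype.ext h5)
  apply hom_eq_one_of_trivial W₁ W₂
  · intro w hw
    by_cases hw1 : w = 1
    · rw [hw1, map_one]
    have e1 := key w B₀ hw hw1 b₀.2 hB₀
    have e2 := key (w ^ 2) B₀ (by
      show ((w : G)) ^ 2 ∈ W₁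
      exact W₁.pow_mem hw 2) (hsq w hw1) b₀.2 hB₀
    have e3 : w ^ 2 * B₀ = w * (w * B₀) := by rw [pow_two, mul_assoc]
    rw [e3, map_mul, e1, mul_one] at e2
    exact e2
  · intro w hw
    by_cases hw1 : w = 1
    · rw [hw1, map_one]
    have e1 := key A₀ w a₀.2 hA₀ hw hw1
    have e2 := key A₀ (w ^ 2) a₀.2 hA₀ (by
      show ((w : G)) ^ 2 ∈ W₂
      exact W₂.pow_mem hw 2) (hsq w hw1)
    have e3 : A₀ * w ^ 2 = (A₀ * w) * w := by rw [pow_two, mul_assoc]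
    rw [e3, map_mul, e1, one_mul] at e2
    exact e2

theorem hom_neg_contra {W : Type*} [Group W] [Finite W] (hodd : Odd (Nat.card W))
    (η : W →* ℂˣ) (w : W) (h : (η w : ℂ) = -1) : False := by
  have h1 := hom_pow_card η w
  rw [h, hodd.neg_one_pow] at h1
  norm_num at h1

/-- Galois conjugation permutes the family: `χ_ω ∘ (·)^k = χ_{ω^k}` -/
theorem galois_family {G : Type*} [Group G] [Fintype G] (W₁ W₂ : Subgroup G)
    (hW : Cfsg.IsSelfNormalizingCyclic W₁ W₂) (hodd : Odd (Nat.card ↥(W₁ ⊔ W₂)))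
    (χ : (↥(W₁ ⊔ W₂) →* ℂˣ) → (G → ℂ)) (hχ : Cfsg.IsCyclicTIFamily W₁ W₂ χ)
    (ω : ↥(W₁ ⊔ W₂) →* ℂˣ) (k : ℕ) (hk : k.Coprime (Nat.card G)) :
    (fun g => χ ω (g ^ k)) = χ (ω ^ k) := by
  classical
  obtain ⟨ε, hε, hirr⟩ : ∃ ε : ℂ, (ε = 1 ∨ ε = -1) ∧
      Cfsg.IsIrrCharacter G (fun g => ε * χ ω (g ^ k)) := by
    rcases hχ.irr_or_neg ω with h | h
    · refine ⟨1, Or.inl rfl, ?_⟩
      have h1 := Helper7.Gal.isIrrCharacter_galois ⟨χ ω, h⟩ k hk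
      convert h1 using 1
      funext g
      simp
    · refine ⟨-1, Or.inr rfl, ?_⟩
      have h1 := Helper7.Gal.isIrrCharacter_galois ⟨-χ ω, h⟩ k hk
      convert h1 using 1
      funext g
      simp
  obtain ⟨t, ht⟩ := snc_nonempty W₁ W₂ hW
  have hpowT : ∀ w : ↥(W₁ ⊔ W₂), (w : G) ∉ W₁ → (w : G) ∉ W₂ →
      ((w ^ k : ↥(W₁ ⊔ W₂)) : G) ∉ W₁ ∧ ((w ^ k : ↥(W₁ ⊔ W₂)) : G) ∉ W₂ := by
    intro w h1 h2
    constructor
    · intro h3
      apply h1
      exact mem_of_pow_mem_of_coprime hk h3 (by rw [pow_card_eq_one']; exact W₁.one_mem)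
    · intro h3
      apply h2
      exact mem_of_pow_mem_of_coprime hk h3 (by rw [pow_card_eq_one']; exact W₂.one_mem)
  have hval : ∀ w : ↥(W₁ ⊔ W₂), (w : G) ∉ W₁ → (w : G) ∉ W₂ →
      χ ω ((w : G) ^ k) = (((ω ^ k) w : ℂˣ) : ℂ) := by
    intro w h1 h2
    have h3 := hχ.eq_on ω (w ^ k) (hpowT w h1 h2).1 (hpowT w h1 h2).2
    rw [MonoidHom.pow_apply, ← map_pow]
    exact h3
  let w₀ : ↥(W₁ ⊔ W₂) := ⟨t, ht.1⟩
  have hw₀1 : (w₀ : G) ∉ W₁ := fun h => ht.2 (Or.inl h)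
  have hw₀2 : (w₀ : G) ∉ W₂ := fun h => ht.2 (Or.inr h)
  have hεne : ε ≠ 0 := by rcases hε with h | h <;> rw [h] <;> norm_num
  have hex : ∃ ω', Cfsg.classInner (fun g => ε * χ ω (g ^ k)) (χ ω') ≠ 0 := by
    by_contra hcon
    have hcon : ∀ ω', Cfsg.classInner (fun g => ε * χ ω (g ^ k)) (χ ω') = 0 := by
      intro ω'
      by_contra h9
      exact hcon ⟨ω', h9⟩
    have h0 := Cfsg.Agent.S1503.result W₁ W₂ hW χ hχ _ hirr hcon w₀ hw₀1 hw₀2
    have h1 : χ ω ((w₀ : G) ^ k) = 0 := by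
      rcases mul_eq_zero.mp h0 with h | h
      · exact absurd h hεne
      · exact h
    rw [hval w₀ hw₀1 hw₀2] at h1
    exact (Units.ne_zero _) h1
  obtain ⟨ω', hω'⟩ := hex
  have hcase : (fun g => χ ω (g ^ k)) = χ ω' ∨ (fun g => χ ω (g ^ k)) = -χ ω' := by
    rcases hχ.irr_or_neg ω' with h | h
    · have heq : (fun g => ε * χ ω (g ^ k)) = χ ω' := by
        by_contra hne
        apply hω'
        have h1 := Lead.irr_inner ⟨_, hirr⟩ ⟨_, h⟩
        rw [h1, if_neg]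
        intro h'
        exact hne (congrArg Subtype.val h')
      rcases hε with h1 | h1
      · left; rw [← heq, h1]; funext g; simp
      · right; rw [← heq, h1]; funext g; simp
    · have heq : (fun g => ε * χ ω (g ^ k)) = -χ ω' := by
        by_contra hne
        apply hω'
        have h1 : Cfsg.classInner (fun g => ε * χ ω (g ^ k)) (χ ω')
            = -Cfsg.classInner (fun g => ε * χ ω (g ^ k)) (-χ ω') := by
          have h2 : (-χ ω') = (-1 : ℂ) • χ ω' := by funext g; simp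
          rw [h2, Lead.classInner_smul_right]
          simp
        rw [h1, Lead.irr_inner ⟨_, hirr⟩ ⟨_, h⟩, if_neg, neg_zero]
        intro h'
        exact hne (congrArg Subtype.val h')
      rcases hε with h1 | h1
      · right; rw [← heq, h1]; funext g; simp
      · left
        funext g
        have h2 := congrFun heq g
        rw [h1] at h2
        simp only [Pi.neg_apply] at h2
        linear_combination -h2
  rcases hcase with hc | hc
  · have hωk : ω ^ k = ω' := by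
      have h1 : ω ^ k * ω'⁻¹ = 1 := by
        apply hom_eq_one_of_T W₁ W₂ hW hodd
        intro w h1 h2
        have e1 := hval w h1 h2
        have e2 := hχ.eq_on ω' w h1 h2
        have e3 := congrFun hc (w : G)
        have e4 : (((ω ^ k) w : ℂˣ) : ℂ) = (ω' w : ℂ) := by
          rw [← e1, ← e2]; exact e3
        have e5 : (ω ^ k) w = ω' w := Units.ext e4
        rw [MonoidHom.mul_apply, MonoidHom.inv_apply, e5, mul_inv_cancel]
      exact mul_inv_eq_one.mp h1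
    rw [hc, hωk]
  · exfalso
    have e1 := hval w₀ hw₀1 hw₀2
    have e2 := hχ.eq_on ω' w₀ hw₀1 hw₀2
    have e3 := congrFun hc (w₀ : G)
    apply hom_neg_contra hodd (ω ^ k * ω'⁻¹) w₀
    rw [MonoidHom.mul_apply, MonoidHom.inv_apply, Units.val_mul, Units.val_inv_eq_inv_val,
      ← e1, ← e2]
    rw [e3, Pi.neg_apply, neg_mul, mul_inv_cancel₀]
    rw [e2]
    exact Units.ne_zero _

end Cfsg.Agent.Lib.Helper6
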