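import Mathlib
import Cfsg.Prelude.Def_OddOrderChar
import Cfsg.Agent.S1498

/-!
# The Dade hypothesis: fusion of the cosets `a · H a` and a counting identity
-/

set_option autoImplicit false

namespace Cfsg.Agent.Lib.Helper6

section dade

variable {G : Type*} [Group G] [Finite G] {A : Set G} {L : Subgroup G} {H : G → Subgroup G}

omit [Finite G] in
theorem dade_self_cent (c : G) : c ∈ Subgroup.centralizer ({c} : Set G) := by
  rw [Subgroup.mem_centralizer_iff]
  intro h hh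
  rw [Set.mem_singleton_iff] at hh
  rw [hh]

omit [Finite G] in
theorem dade_commute (hD : Cfsg.DadeHypothesis A L H) {c w : G} (hc : c ∈ A) (hw : w ∈ H c) :
    Commute c w := by
  have h1 := hD.le_centralizer c hc hw
  rw [Subgroup.mem_centralizer_iff] at h1
  exact h1 c rfl

omit [Finite G] in
theorem dade_coprime (hD : Cfsg.DadeHypothesis A L H) {c c' w : G} (hc : c ∈ A) (hc' : c' ∈ A)
    (hw : w ∈ H c) : Nat.Coprime (orderOf w) (orderOf c') :=
  Nat.Coprime.coprime_dvd_left (Subgroup.orderOf_dvd_natCard _ hw)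
    (Nat.Coprime.coprime_dvd_right
      (Subgroup.orderOf_dvd_natCard _ (Subgroup.mem_inf.mpr ⟨hD.subset hc', dade_self_cent c'⟩))
      (hD.coprime c hc c' hc'))

/-- a conjugation between two cosets conjugates the base points -/
theorem dade_conj (hD : Cfsg.DadeHypothesis A L H) {a b u v g : G} (ha : a ∈ A) (hb : b ∈ A)
    (hu : u ∈ H a) (hv : v ∈ H b) (hg : g * (a * u) * g⁻¹ = b * v) :
    g * a * g⁻¹ = b ∧ g * u * g⁻¹ = v := by
  have hN : Nat.Coprime (orderOf u * orderOf v) (orderOf a * orderOf b) := by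
    apply Nat.Coprime.mul_left
    · exact Nat.Coprime.mul_right (dade_coprime hD ha ha hu) (dade_coprime hD ha hb hu)
    · exact Nat.Coprime.mul_right (dade_coprime hD hb ha hv) (dade_coprime hD hb hb hv)
  have ha1 : a ≠ 1 := fun h => hD.one_not_mem (h ▸ ha)
  have hoa : 1 < orderOf a := by
    have h0 : 0 < orderOf a := orderOf_pos a
    have h1 : orderOf a ≠ 1 := fun h => ha1 (orderOf_eq_one_iff.mp h)
    omega
  have hob : 0 < orderOf b := orderOf_pos b
  have hM : 1 < orderOf a * orderOf b := by nlinarith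
  obtain ⟨k, -, hk⟩ := Nat.exists_mul_mod_eq_one_of_coprime hN hM
  have hmod : orderOf u * orderOf v * k ≡ 1 [MOD orderOf a * orderOf b] := by
    show orderOf u * orderOf v * k % (orderOf a * orderOf b) = 1 % (orderOf a * orderOf b)
    rw [hk, Nat.mod_eq_of_lt hM]
  have hpa : a ^ (orderOf u * orderOf v * k) = a := by
    have h1 : a ^ (orderOf u * orderOf v * k) = a ^ 1 :=
      pow_eq_pow_iff_modEq.mpr (Nat.ModEq.of_dvd (Dvd.intro _ rfl) hmod)
    rw [h1, pow_one]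
  have hpb : b ^ (orderOf u * orderOf v * k) = b := by
    have h1 : b ^ (orderOf u * orderOf v * k) = b ^ 1 :=
      pow_eq_pow_iff_modEq.mpr (Nat.ModEq.of_dvd (Dvd.intro_left _ rfl) hmod)
    rw [h1, pow_one]
  have hpu : u ^ (orderOf u * orderOf v * k) = 1 := by
    rw [mul_assoc, pow_mul, pow_orderOf_eq_one, one_pow]
  have hpv : v ^ (orderOf u * orderOf v * k) = 1 := by
    rw [mul_comm (orderOf u) (orderOf v), mul_assoc, pow_mul, pow_orderOf_eq_one, one_pow]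
  have hconj : g * a * g⁻¹ = b := by
    have h1 : (g * (a * u) * g⁻¹) ^ (orderOf u * orderOf v * k)
        = (b * v) ^ (orderOf u * orderOf v * k) := by rw [hg]
    rw [conj_pow, (dade_commute hD ha hu).mul_pow, (dade_commute hD hb hv).mul_pow, hpa, hpb,
      hpu, hpv, mul_one, mul_one] at h1
    exact h1
  refine ⟨hconj, ?_⟩
  have h2 : g * (a * u) * g⁻¹ = (g * a * g⁻¹) * (g * u * g⁻¹) := by group
  rw [h2, hconj] at hg
  exact mul_left_cancel hg

/-- the subgroup attached to a conjugate of `a` lying in `A` -/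
theorem dade_H_conj (hD : Cfsg.DadeHypothesis A L H) {a : G} (ha : a ∈ A) (z : G)
    (hz : z * a * z⁻¹ ∈ A) : H (z * a * z⁻¹) = (H a).map (MulAut.conj z).toMonoidHom := by
  obtain ⟨y, hy, hya⟩ := hD.fusion a ha z hz
  have hc : y⁻¹ * z ∈ Subgroup.centralizer ({a} : Set G) := by
    rw [Subgroup.mem_centralizer_iff]
    intro h hh
    rw [Set.mem_singleton_iff] at hh
    rw [hh]
    have h1 : a = y⁻¹ * (y * a * y⁻¹) * y := by group
    calc a * (y⁻¹ * z) = y⁻¹ * (y * a * y⁻¹) * y * (y⁻¹ * z) := by rw [← h1]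
      _ = y⁻¹ * (z * a * z⁻¹) * y * (y⁻¹ * z) := by rw [hya]
      _ = y⁻¹ * z * a := by group
  have hc' : (y⁻¹ * z)⁻¹ ∈ Subgroup.centralizer ({a} : Set G) := Subgroup.inv_mem _ hc
  rw [← hya, Cfsg.Agent.S1498.result A L H hD a ha y hy]
  ext w
  simp only [Subgroup.mem_map, MulEquiv.coe_toMonoidHom, MulAut.conj_apply]
  constructor
  · rintro ⟨u, hu, rfl⟩
    refine ⟨(y⁻¹ * z)⁻¹ * u * (y⁻¹ * z)⁻¹⁻¹, hD.conj_mem_H a ha _ hc' u hu, ?_⟩
    group
  · rintro ⟨u, hu, rfl⟩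
    refine ⟨(y⁻¹ * z) * u * (y⁻¹ * z)⁻¹, hD.conj_mem_H a ha _ hc u hu, ?_⟩
    group

theorem dade_card_H_conj (hD : Cfsg.DadeHypothesis A L H) {a : G} (ha : a ∈ A) (z : G)
    (hz : z * a * z⁻¹ ∈ A) : Nat.card (H (z * a * z⁻¹)) = Nat.card (H a) := by
  rw [dade_H_conj hD ha z hz]
  exact Subgroup.card_map_of_injective (MulAut.conj z).injective

omit [Finite G] in
/-- the centralizer of `a ∈ A` is `C_L(a) · H a` -/
theorem dade_cent_decomp (hD : Cfsg.DadeHypothesis A L H) {a : G} (ha : a ∈ A) {c : G}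
    (hc : c ∈ Subgroup.centralizer ({a} : Set G)) :
    ∃ l ∈ L ⊓ Subgroup.centralizer ({a} : Set G), ∃ w ∈ H a, c = l * w := by
  rw [← hD.sup_eq a ha, Subgroup.sup_eq_closure] at hc
  refine Subgroup.closure_induction
    (p := fun c _ => ∃ l ∈ L ⊓ Subgroup.centralizer ({a} : Set G), ∃ w ∈ H a, c = l * w)
    ?_ ?_ ?_ ?_ hc
  · intro x hx
    rcases hx with hx | hx
    · exact ⟨1, Subgroup.one_mem _, x, hx, (one_mul x).symm⟩
    · exact ⟨x, hx, 1, Subgroup.one_mem _, (mul_one x).symm⟩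
  · exact ⟨1, Subgroup.one_mem _, 1, Subgroup.one_mem _, (mul_one 1).symm⟩
  · rintro x y _ _ ⟨l, hl, w, hw, rfl⟩ ⟨l', hl', w', hw', rfl⟩
    refine ⟨l * l', Subgroup.mul_mem _ hl hl', (l'⁻¹ * w * l'⁻¹⁻¹) * w',
      Subgroup.mul_mem _ (hD.conj_mem_H a ha l'⁻¹
        (Subgroup.inv_mem _ (Subgroup.mem_inf.mp hl').2) w hw) hw', by group⟩
  · rintro x _ ⟨l, hl, w, hw, rfl⟩
    refine ⟨l⁻¹, Subgroup.inv_mem _ hl, l * w⁻¹ * l⁻¹,
      hD.conj_mem_H a ha l (Subgroup.mem_inf.mp hl).2 w⁻¹ (Subgroup.inv_mem _ hw), by group⟩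

omit [Finite G] in
/-- the elements conjugating `a ∈ A` into `A` are parametrised by `L × H a` -/
theorem dade_X_card (hD : Cfsg.DadeHypothesis A L H) {a : G} (ha : a ∈ A) :
    Nat.card {z : G // z * a * z⁻¹ ∈ A} = Nat.card L * Nat.card (H a) := by
  rw [← Nat.card_prod]
  symm
  have hmem : ∀ p : L × H a, ((p.1 : G) * (p.2 : G)) * a * ((p.1 : G) * (p.2 : G))⁻¹ ∈ A := by
    intro p
    have h1 := dade_commute hD ha p.2.2
    have h2 : ((p.1 : G) * (p.2 : G)) * a * ((p.1 : G) * (p.2 : G))⁻¹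
        = (p.1 : G) * a * (p.1 : G)⁻¹ := by
      calc ((p.1 : G) * (p.2 : G)) * a * ((p.1 : G) * (p.2 : G))⁻¹
          = (p.1 : G) * ((p.2 : G) * a) * (p.2 : G)⁻¹ * (p.1 : G)⁻¹ := by group
        _ = (p.1 : G) * (a * (p.2 : G)) * (p.2 : G)⁻¹ * (p.1 : G)⁻¹ := by rw [h1.eq]
        _ = (p.1 : G) * a * (p.1 : G)⁻¹ := by group
    rw [h2]
    exact hD.conj_mem p.1 p.1.2 a ha
  apply Nat.card_congr
  refine Equiv.ofBijective (fun p : L × H a => ⟨(p.1 : G) * (p.2 : G), hmem p⟩) ⟨?_, ?_⟩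
  · rintro ⟨y, w⟩ ⟨y', w'⟩ e
    have e' : (y : G) * (w : G) = (y' : G) * (w' : G) := congrArg Subtype.val e
    have h1 : (y' : G)⁻¹ * (y : G) = (w' : G) * (w : G)⁻¹ := by
      calc (y' : G)⁻¹ * (y : G) = (y' : G)⁻¹ * ((y : G) * (w : G)) * (w : G)⁻¹ := by group
        _ = (y' : G)⁻¹ * ((y' : G) * (w' : G)) * (w : G)⁻¹ := by rw [e']
        _ = (w' : G) * (w : G)⁻¹ := by group
    have h2 : (w' : G) * (w : G)⁻¹ ∈ H a ⊓ (L ⊓ Subgroup.centralizer ({a} : Set G)) := by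
      have hw : (w' : G) * (w : G)⁻¹ ∈ H a := (H a).mul_mem w'.2 ((H a).inv_mem w.2)
      refine Subgroup.mem_inf.mpr ⟨hw, Subgroup.mem_inf.mpr ⟨?_, hD.le_centralizer a ha hw⟩⟩
      rw [← h1]
      exact L.mul_mem (L.inv_mem y'.2) y.2
    rw [hD.inf_eq_bot a ha, Subgroup.mem_bot] at h2
    have h3 : (w' : G) = (w : G) := by
      calc (w' : G) = (w' : G) * (w : G)⁻¹ * (w : G) := by group
        _ = (w : G) := by rw [h2, one_mul]
    have h4 : (y : G) = (y' : G) := by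
      rw [h3] at e'
      exact mul_right_cancel e'
    exact Prod.ext (Subtype.ext h4) (Subtype.ext h3.symm)
  · rintro ⟨z, hz⟩
    obtain ⟨y, hy, hya⟩ := hD.fusion a ha z hz
    have hc : y⁻¹ * z ∈ Subgroup.centralizer ({a} : Set G) := by
      rw [Subgroup.mem_centralizer_iff]
      intro h hh
      rw [Set.mem_singleton_iff] at hh
      rw [hh]
      have h1 : a = y⁻¹ * (y * a * y⁻¹) * y := by group
      calc a * (y⁻¹ * z) = y⁻¹ * (y * a * y⁻¹) * y * (y⁻¹ * z) := by rw [← h1]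
        _ = y⁻¹ * (z * a * z⁻¹) * y * (y⁻¹ * z) := by rw [hya]
        _ = y⁻¹ * z * a := by group
    obtain ⟨l, hl, w, hw, hlw⟩ := dade_cent_decomp hD ha hc
    refine ⟨(⟨y * l, L.mul_mem hy (Subgroup.mem_inf.mp hl).1⟩, ⟨w, hw⟩), ?_⟩
    apply Subtype.ext
    show y * l * w = z
    have h5 : z = y * (y⁻¹ * z) := by group
    rw [h5, hlw]; group

end dade

section count

variable {G : Type*} [Group G] [Fintype G] {A : Set G} {L : Subgroup G} {H : G → Subgroup G}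
  {𝕜 : Type*} [Field 𝕜] [CharZero 𝕜]

/-- **The counting identity under the Dade hypothesis**: the sum of a class function over the
conjugates of the cosets `a · H a` equals a weighted sum over the cosets themselves. -/
theorem dade_count (hD : Cfsg.DadeHypothesis A L H) (F : G → 𝕜)
    (hF : ∀ g x : G, F (x * g * x⁻¹) = F g) :
    ∑ᶠ g ∈ {g : G | ∃ a ∈ A, ∃ u ∈ H a, ∃ x : G, x * g * x⁻¹ = a * u}, F g
      = (Nat.card G : 𝕜) * (Nat.card L : 𝕜)⁻¹ *
        ∑ᶠ a ∈ {a : L | (a : G) ∈ A},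
          (Nat.card (H a) : 𝕜)⁻¹ * ∑ᶠ u ∈ (H a : Set G), F (a * u) := by
  classical
  obtain ⟨wt, hwt⟩ : ∃ wt : G → 𝕜, wt = fun d => ∑ a : G, ∑ u : G,
      if a ∈ A ∧ u ∈ H a ∧ d = a * u then (Nat.card (H a) : 𝕜)⁻¹ else 0 := ⟨_, rfl⟩
  have hwt_def : ∀ d, wt d = ∑ a : G, ∑ u : G,
      if a ∈ A ∧ u ∈ H a ∧ d = a * u then (Nat.card (H a) : 𝕜)⁻¹ else 0 := fun d => by rw [hwt]
  have hwt1 : ∀ a ∈ A, ∀ u ∈ H a, wt (a * u) = (Nat.card (H a) : 𝕜)⁻¹ := by
    intro a ha u hu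
    rw [hwt_def, Finset.sum_eq_single a]
    · rw [Finset.sum_eq_single u]
      · rw [if_pos ⟨ha, hu, rfl⟩]
      · intro u' _ hne
        rw [if_neg]
        rintro ⟨_, _, e⟩
        exact hne (mul_left_cancel e).symm
      · intro h; exact absurd (Finset.mem_univ _) h
    · intro a' _ hne
      apply Finset.sum_eq_zero
      intro u' _
      rw [if_neg]
      rintro ⟨ha', hu', e⟩
      have h1 := (dade_conj hD ha ha' hu hu' (g := 1) (by rw [one_mul, inv_one, mul_one]; exact e)).1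
      rw [one_mul, inv_one, mul_one] at h1
      exact hne h1.symm
    · intro h; exact absurd (Finset.mem_univ _) h
  have hwt0 : ∀ d, (¬ ∃ a ∈ A, ∃ u ∈ H a, d = a * u) → wt d = 0 := by
    intro d hd
    rw [hwt_def]
    apply Finset.sum_eq_zero
    intro a _
    apply Finset.sum_eq_zero
    intro u _
    rw [if_neg]
    rintro ⟨ha, hu, e⟩
    exact hd ⟨a, ha, u, hu, e⟩
  have hW1 : ∀ g ∈ {g : G | ∃ a ∈ A, ∃ u ∈ H a, ∃ x : G, x * g * x⁻¹ = a * u},
      ∑ x : G, wt (x * g * x⁻¹) = (Nat.card L : 𝕜) := by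
    rintro g ⟨a₀, ha₀, u₀, hu₀, x₀, hx₀⟩
    have h1 : ∑ x : G, wt (x * g * x⁻¹) = ∑ z : G, wt (z * (a₀ * u₀) * z⁻¹) :=
      Fintype.sum_equiv (Equiv.mulRight x₀⁻¹) _ _ (fun x => by
        show wt (x * g * x⁻¹) = wt ((x * x₀⁻¹) * (a₀ * u₀) * (x * x₀⁻¹)⁻¹)
        rw [← hx₀]
        congr 1
        group)
    have h2 : ∀ z : G, wt (z * (a₀ * u₀) * z⁻¹)
        = if z * a₀ * z⁻¹ ∈ A then (Nat.card (H a₀) : 𝕜)⁻¹ else 0 := by
      intro z
      by_cases hz : z * a₀ * z⁻¹ ∈ A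
      · rw [if_pos hz]
        have e : z * (a₀ * u₀) * z⁻¹ = (z * a₀ * z⁻¹) * (z * u₀ * z⁻¹) := by group
        have hmem : z * u₀ * z⁻¹ ∈ H (z * a₀ * z⁻¹) := by
          rw [dade_H_conj hD ha₀ z hz]
          exact Subgroup.mem_map.mpr ⟨u₀, hu₀, rfl⟩
        rw [e, hwt1 _ hz _ hmem, dade_card_H_conj hD ha₀ z hz]
      · rw [if_neg hz]
        apply hwt0
        rintro ⟨a, ha, u, hu, e⟩
        apply hz
        rw [(dade_conj hD ha₀ ha hu₀ hu e).1]
        exact ha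
    rw [h1, Finset.sum_congr rfl (fun z _ => h2 z), ← Finset.sum_filter, Finset.sum_const,
      nsmul_eq_mul, ← Fintype.card_subtype, ← Nat.card_eq_fintype_card, dade_X_card hD ha₀]
    have hH : (Nat.card (H a₀) : 𝕜) ≠ 0 := by exact_mod_cast Nat.card_pos.ne'
    push_cast
    field_simp
  have hW0 : ∀ g, g ∉ {g : G | ∃ a ∈ A, ∃ u ∈ H a, ∃ x : G, x * g * x⁻¹ = a * u} →
      ∑ x : G, wt (x * g * x⁻¹) = 0 := by
    intro g hg
    apply Finset.sum_eq_zero
    intro x _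
    apply hwt0
    rintro ⟨a, ha, u, hu, e⟩
    exact hg ⟨a, ha, u, hu, x, e⟩
  have hS5 : ∑ g : G, F g * ∑ x : G, wt (x * g * x⁻¹)
      = (Nat.card G : 𝕜) * ∑ d : G, F d * wt d := by
    have hL : ∑ g : G, F g * ∑ x : G, wt (x * g * x⁻¹)
        = ∑ x : G, ∑ g : G, F g * wt (x * g * x⁻¹) := by
      simp_rw [Finset.mul_sum]
      exact Finset.sum_comm
    have h1 : ∀ x : G, ∑ g : G, F g * wt (x * g * x⁻¹) = ∑ d : G, F d * wt d := by
      intro x
      exact Fintype.sum_equiv (MulAut.conj x).toEquiv _ _ (fun g => by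
        show F g * wt (x * g * x⁻¹) = F (x * g * x⁻¹) * wt (x * g * x⁻¹)
        rw [hF])
    rw [hL, Finset.sum_congr rfl (fun x _ => h1 x), Finset.sum_const, Finset.card_univ,
      nsmul_eq_mul, Nat.card_eq_fintype_card]
  have hS6 : ∑ d : G, F d * wt d = ∑ a : G, ∑ u : G,
      if a ∈ A ∧ u ∈ H a then (Nat.card (H a) : 𝕜)⁻¹ * F (a * u) else 0 := by
    simp_rw [hwt_def, Finset.mul_sum]
    rw [Finset.sum_comm]
    apply Finset.sum_congr rfl
    intro a _
    rw [Finset.sum_comm]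
    apply Finset.sum_congr rfl
    intro u _
    rw [Finset.sum_eq_single (a * u)]
    · by_cases h : a ∈ A ∧ u ∈ H a
      · rw [if_pos h, if_pos ⟨h.1, h.2, rfl⟩, mul_comm]
      · rw [if_neg h, if_neg (fun h' => h ⟨h'.1, h'.2.1⟩), mul_zero]
    · intro d _ hd
      rw [if_neg (fun h' => hd h'.2.2), mul_zero]
    · intro h; exact absurd (Finset.mem_univ _) h
  have hmain : (∑ g : G, Set.indicator {g : G | ∃ a ∈ A, ∃ u ∈ H a, ∃ x : G,
        x * g * x⁻¹ = a * u} F g) * (Nat.card L : 𝕜)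
      = (Nat.card G : 𝕜) * ∑ a : G, ∑ u : G,
        if a ∈ A ∧ u ∈ H a then (Nat.card (H a) : 𝕜)⁻¹ * F (a * u) else 0 := by
    rw [← hS6, ← hS5, Finset.sum_mul]
    apply Finset.sum_congr rfl
    intro g _
    by_cases hg : g ∈ {g : G | ∃ a ∈ A, ∃ u ∈ H a, ∃ x : G, x * g * x⁻¹ = a * u}
    · rw [Set.indicator_of_mem hg, hW1 g hg]
    · rw [Set.indicator_of_notMem hg, hW0 g hg, zero_mul, mul_zero]
  -- the right-hand side
  have himg : (Subtype.val : L → G) '' {a : L | (a : G) ∈ A} = A := by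
    ext a
    constructor
    · rintro ⟨b, hb, rfl⟩
      exact hb
    · intro ha
      exact ⟨⟨a, hD.subset ha⟩, ha, rfl⟩
  have hR : ∑ᶠ a ∈ {a : L | (a : G) ∈ A},
        (Nat.card (H a) : 𝕜)⁻¹ * ∑ᶠ u ∈ (H a : Set G), F (a * u)
      = ∑ a : G, ∑ u : G,
        if a ∈ A ∧ u ∈ H a then (Nat.card (H a) : 𝕜)⁻¹ * F (a * u) else 0 := by
    have h1 := finsum_mem_image (f := fun a : G => (Nat.card (H a) : 𝕜)⁻¹
      * ∑ᶠ u ∈ (H a : Set G), F (a * u)) (g := (Subtype.val : L → G))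
      (s := {a : L | (a : G) ∈ A}) Subtype.val_injective.injOn
    rw [himg] at h1
    rw [← h1, finsum_mem_def, finsum_eq_sum_of_fintype]
    apply Finset.sum_congr rfl
    intro a _
    by_cases ha : a ∈ A
    · rw [Set.indicator_of_mem ha, finsum_mem_def, finsum_eq_sum_of_fintype, Finset.mul_sum]
      apply Finset.sum_congr rfl
      intro u _
      by_cases hu : u ∈ H a
      · rw [Set.indicator_of_mem (by exact hu), if_pos ⟨ha, hu⟩]
      · rw [Set.indicator_of_notMem (by exact hu), if_neg (fun h => hu h.2), mul_zero]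
    · rw [Set.indicator_of_notMem ha]
      symm
      apply Finset.sum_eq_zero
      intro u _
      rw [if_neg (fun h => ha h.1)]
  have hL : (Nat.card L : 𝕜) ≠ 0 := by exact_mod_cast Nat.card_pos.ne'
  rw [hR, finsum_mem_def, finsum_eq_sum_of_fintype]
  calc ∑ g : G, Set.indicator {g : G | ∃ a ∈ A, ∃ u ∈ H a, ∃ x : G, x * g * x⁻¹ = a * u} F g
      = (∑ g : G, Set.indicator {g : G | ∃ a ∈ A, ∃ u ∈ H a, ∃ x : G,
          x * g * x⁻¹ = a * u} F g) * (Nat.card L : 𝕜) * (Nat.card L : 𝕜)⁻¹ := by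
        rw [mul_assoc, mul_inv_cancel₀ hL, mul_one]
    _ = (Nat.card G : 𝕜) * (∑ a : G, ∑ u : G,
          if a ∈ A ∧ u ∈ H a then (Nat.card (H a) : 𝕜)⁻¹ * F (a * u) else 0)
          * (Nat.card L : 𝕜)⁻¹ := by rw [hmain]
    _ = _ := by ring

end count



section iso

variable {G : Type*} [Group G] [Finite G] {A : Set G} {L : Subgroup G} {H : G → Subgroup G}

/-- the value of the Dade map on a conjugate of `a · H a` -/
theorem dade_iso_apply (hD : Cfsg.DadeHypothesis A L H) {α : L → ℂ}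
    (hα : Cfsg.IsClassFunction L α) {a : L} (ha : (a : G) ∈ A) {u : G} (hu : u ∈ H (a : G))
    {x g : G} (e : x * g * x⁻¹ = (a : G) * u) :
    Cfsg.dadeIsometry A L H α g = α a := by
  classical
  have h : ∃ a : ↥L, (a : G) ∈ A ∧ ∃ x : G, ∃ u ∈ H (a : G), x * g * x⁻¹ = (a : G) * u :=
    ⟨a, ha, x, u, hu, e⟩
  unfold Cfsg.dadeIsometry
  rw [dif_pos h]
  obtain ⟨ha', x', u', hu', e'⟩ := Classical.choose_spec h
  have hg : g = x⁻¹ * ((a : G) * u) * x := by rw [← e]; group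
  have e2 : (x' * x⁻¹) * ((a : G) * u) * (x' * x⁻¹)⁻¹ = ((Classical.choose h : L) : G) * u' := by
    rw [← e', hg]; group
  have h1 := (dade_conj hD ha ha' hu hu' e2).1
  obtain ⟨y, hy, hy2⟩ := hD.fusion a ha (x' * x⁻¹) (by rw [h1]; exact ha')
  have h3 : Classical.choose h = ⟨y, hy⟩ * a * ⟨y, hy⟩⁻¹ := by
    apply Subtype.ext
    show ((Classical.choose h : L) : G) = y * a * y⁻¹
    rw [hy2, h1]
  rw [h3]
  exact hα a ⟨y, hy⟩

omit [Finite G] in
/-- the Dade map vanishes off the conjugates of the cosets `a · H a` -/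
theorem dade_iso_zero (α : L → ℂ) {g : G}
    (hg : g ∉ {g : G | ∃ a ∈ A, ∃ u ∈ H a, ∃ x : G, x * g * x⁻¹ = a * u}) :
    Cfsg.dadeIsometry A L H α g = 0 := by
  classical
  unfold Cfsg.dadeIsometry
  rw [dif_neg]
  rintro ⟨a, ha, x, u, hu, e⟩
  exact hg ⟨a, ha, u, hu, x, e⟩

/-- the Dade map of a class function is a class function -/
theorem dade_iso_class (hD : Cfsg.DadeHypothesis A L H) {α : L → ℂ}
    (hα : Cfsg.IsClassFunction L α) : Cfsg.IsClassFunction G (Cfsg.dadeIsometry A L H α) := by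
  intro g y
  by_cases hg : g ∈ {g : G | ∃ a ∈ A, ∃ u ∈ H a, ∃ x : G, x * g * x⁻¹ = a * u}
  · obtain ⟨a, ha, u, hu, x, e⟩ := hg
    have e2 : (x * y⁻¹) * (y * g * y⁻¹) * (x * y⁻¹)⁻¹ = a * u := by rw [← e]; group
    rw [dade_iso_apply hD hα (a := ⟨a, hD.subset ha⟩) ha hu e2,
      dade_iso_apply hD hα (a := ⟨a, hD.subset ha⟩) ha hu e]
  · rw [dade_iso_zero α hg, dade_iso_zero α]
    rintro ⟨a, ha, u, hu, x, e⟩
    apply hg
    refine ⟨a, ha, u, hu, x * y, ?_⟩
    rw [← e]; group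

end iso

section inner

variable {G : Type*} [Group G] [Fintype G] {A : Set G} {L : Subgroup G} [Fintype L]
  {H : G → Subgroup G}

/-- **Dade reciprocity**: the inner product of the Dade image of `α` with a class function `χ`
equals the inner product over `L` of `α` with the function of coset averages of `χ`. -/
theorem dade_reciprocity (hD : Cfsg.DadeHypothesis A L H) {α : L → ℂ}
    (hα : Cfsg.IsClassFunction L α) (hαA : ∀ x : L, (x : G) ∉ A → α x = 0)
    {χ : G → ℂ} {ψ : L → ℂ} (hχ : Cfsg.IsClassFunction G χ)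
    (hψ : ∀ a : L, (a : G) ∈ A →
      ψ a = (Nat.card (H a) : ℂ)⁻¹ * ∑ᶠ u ∈ (H a : Set G), χ (a * u)) :
    Cfsg.classInner (Cfsg.dadeIsometry A L H α) χ = Cfsg.classInner α ψ := by
  classical
  have hcl := dade_iso_class hD hα
  have hcount := dade_count (𝕜 := ℂ) hD
    (fun g => Cfsg.dadeIsometry A L H α g * (starRingEnd ℂ) (χ g)) (fun g x => by
      show Cfsg.dadeIsometry A L H α (x * g * x⁻¹) * (starRingEnd ℂ) (χ (x * g * x⁻¹))
        = Cfsg.dadeIsometry A L H α g * (starRingEnd ℂ) (χ g)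
      rw [hcl g x, hχ g x])
  have hL : ∑ g : G, Cfsg.dadeIsometry A L H α g * (starRingEnd ℂ) (χ g)
      = ∑ᶠ g ∈ {g : G | ∃ a ∈ A, ∃ u ∈ H a, ∃ x : G, x * g * x⁻¹ = a * u},
        Cfsg.dadeIsometry A L H α g * (starRingEnd ℂ) (χ g) := by
    rw [finsum_mem_def, finsum_eq_sum_of_fintype]
    apply Finset.sum_congr rfl
    intro g _
    by_cases hg : g ∈ {g : G | ∃ a ∈ A, ∃ u ∈ H a, ∃ x : G, x * g * x⁻¹ = a * u}
    · rw [Set.indicator_of_mem hg]
    · rw [Set.indicator_of_notMem hg, dade_iso_zero α hg, zero_mul]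
  have hR : ∑ a : L, α a * (starRingEnd ℂ) (ψ a)
      = ∑ᶠ a ∈ {a : L | (a : G) ∈ A}, (Nat.card (H a) : ℂ)⁻¹ * ∑ᶠ u ∈ (H a : Set G),
        Cfsg.dadeIsometry A L H α (a * u) * (starRingEnd ℂ) (χ (a * u)) := by
    rw [finsum_mem_def, finsum_eq_sum_of_fintype]
    apply Finset.sum_congr rfl
    intro a _
    by_cases ha : a ∈ {a : L | (a : G) ∈ A}
    · rw [Set.indicator_of_mem ha]
      have ha' : (a : G) ∈ A := ha
      rw [hψ a ha', map_mul, map_inv₀, map_natCast,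
        finsum_mem_eq_finite_toFinset_sum _ (Set.toFinite _),
        finsum_mem_eq_finite_toFinset_sum _ (Set.toFinite _), map_sum, Finset.mul_sum,
        Finset.mul_sum, Finset.mul_sum]
      apply Finset.sum_congr rfl
      intro u hu
      rw [Set.Finite.mem_toFinset] at hu
      rw [dade_iso_apply hD hα ha' hu (x := 1) (g := (a : G) * u) (by group)]
      ring
    · rw [Set.indicator_of_notMem ha, hαA a ha, zero_mul]
  unfold Cfsg.classInner
  rw [hL, hcount, hR]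
  have hG : (Nat.card G : ℂ) ≠ 0 := by exact_mod_cast Nat.card_pos.ne'
  rw [← mul_assoc, ← mul_assoc, inv_mul_cancel₀ hG, one_mul]

/-- **The Dade map is an isometry.** -/
theorem dade_isometry (hD : Cfsg.DadeHypothesis A L H) {α β : L → ℂ}
    (hα : Cfsg.IsClassFunction L α) (hαA : ∀ x : L, (x : G) ∉ A → α x = 0)
    (hβ : Cfsg.IsClassFunction L β) :
    Cfsg.classInner (Cfsg.dadeIsometry A L H α) (Cfsg.dadeIsometry A L H β)
      = Cfsg.classInner α β := by
  apply dade_reciprocity hD hα hαA (dade_iso_class hD hβ)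
  intro a ha
  have h1 : ∑ᶠ u ∈ (H (a : G) : Set G), Cfsg.dadeIsometry A L H β ((a : G) * u)
      = (Nat.card (H (a : G)) : ℂ) * β a := by
    rw [finsum_mem_eq_finite_toFinset_sum _ (Set.toFinite _)]
    have hcard : (Set.toFinite (H (a:G) : Set G)).toFinset.card = Nat.card (H (a:G)) := by
      rw [← Set.ncard_eq_toFinset_card]
      rfl
    rw [← hcard, ← nsmul_eq_mul, ← Finset.sum_const]
    apply Finset.sum_congr rfl
    intro u hu
    rw [Set.Finite.mem_toFinset] at hu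
    exact dade_iso_apply hD hβ ha hu (x := 1) (g := (a : G) * u) (by group)
  have hH : (Nat.card (H (a : G)) : ℂ) ≠ 0 := by exact_mod_cast Nat.card_pos.ne'
  rw [h1, ← mul_assoc, inv_mul_cancel₀ hH, one_mul]

end inner

end Cfsg.Agent.Lib.Helper6
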