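import Mathlib
import Cfsg.Prelude.Def_Characters
import Cfsg.Agent.Lib.Lead.Char15
import Cfsg.Agent.Lib.Lead.Char10
import Cfsg.Agent.Lib.Lead.Artin
import Cfsg.Agent.Lib.Lead.Frob4
import Cfsg.Agent.Lib.Lead.Taketa
import Cfsg.Agent.Lib.Helper6.Coh

/-!
# Characters of a group with an abelian normal subgroup containing the centralizers of its
nonidentity elements (Frobenius groups with abelian kernel)
-/

set_option autoImplicit false

namespace Cfsg.Agent.Lib.Helper6

open Cfsg.Agent.Lib

/-- irreducible characters of an abelian group are homomorphisms -/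
theorem irr_abelian_hom {A : Type*} [Group A] [Finite A] (hab : ∀ a b : A, a * b = b * a)
    {lam : A → ℂ} (h : Cfsg.IsIrrCharacter A lam) :
    ∃ μ : A →* ℂˣ, lam = fun a => ((μ a : ℂˣ) : ℂ) := by
  obtain ⟨n, ρ, hirr, rfl⟩ := h
  haveI := hirr
  have h1 := Lead.deg_le_index_abelian ρ (⊤ : Subgroup A) (fun a _ b _ => hab a b)
  rw [Subgroup.index_top] at h1
  have h2 : 0 < Module.finrank ℂ (Fin n → ℂ) := by
    haveI := ((Lead.irr_iff ρ).mp hirr).1
    exact Module.finrank_pos
  exact Lead.linear_of_finrank_one ρ (by omega)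

theorem frob_abelian_kernel_char {X : Type*} [Group X] [Fintype X] (A : Subgroup X)
    [hN : A.Normal] (hab : ∀ a ∈ A, ∀ b ∈ A, a * b = b * a)
    (hC : ∀ a ∈ A, a ≠ 1 → ∀ g : X, g * a = a * g → g ∈ A)
    {χ : X → ℂ} (hχ : Cfsg.IsIrrCharacter X χ) (hnt : ∃ a ∈ A, χ a ≠ χ 1) :
    (∀ x : X, x ∉ A → χ x = 0) ∧ χ 1 = (A.index : ℂ) := by
  classical
  haveI : Fintype A := Fintype.ofFinite A
  haveI : Fintype (Cfsg.IrrCharacter A) := Fintype.ofFinite _
  have hres : Cfsg.IsCharacter A (fun a : A => χ a) :=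
    Lead.isCharacter_restrict A (Lead.isCharacter_of_irr hχ)
  obtain ⟨m, hm⟩ := Lead.isCharacter_decomp hres
  -- a nonprincipal constituent
  have hex : ∃ lam : Cfsg.IrrCharacter A, lam ≠ Lead.irrOne A ∧ m lam ≠ 0 := by
    by_contra hcon
    push Not at hcon
    obtain ⟨a, ha, hne⟩ := hnt
    apply hne
    have h1 : ∀ b : A, χ b = (m (Lead.irrOne A) : ℂ) := by
      intro b
      have h2 := congrFun hm b
      rw [Finset.sum_apply, Finset.sum_eq_single (Lead.irrOne A)] at h2
      · rw [h2]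
        show (m (Lead.irrOne A) : ℂ) * 1 = _
        rw [mul_one]
      · intro lam _ hlam
        rw [hcon lam hlam]
        simp
      · intro h; exact absurd (Finset.mem_univ _) h
    have h3 := h1 ⟨a, ha⟩
    have h4 := h1 1
    rw [Subgroup.coe_one] at h4
    rw [h4]
    exact h3
  obtain ⟨lam, hlam1, hmlam⟩ := hex
  have hinner : Cfsg.classInner (fun a : A => χ a) lam.1 = (m lam : ℂ) := by
    rw [hm, Lead.classInner_sum_left, Finset.sum_eq_single lam]
    · rw [Lead.classInner_smul_left, Lead.irr_inner_self, mul_one]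
    · intro ψ _ hψ
      rw [Lead.classInner_smul_left, Lead.irr_inner_ne hψ, mul_zero]
    · intro h; exact absurd (Finset.mem_univ _) h
  obtain ⟨μ, hμ⟩ := irr_abelian_hom (fun a b => Subtype.ext (hab a a.2 b b.2)) lam.2
  have hlam_one : lam.1 1 = 1 := by rw [hμ]; simp
  -- the inertia group of `lam` is `A`
  have hinert : ∀ g : X, (∀ h : A, lam.1 ⟨g * h * g⁻¹, hN.conj_mem h h.2 g⟩ = lam.1 h) ↔ g ∈ A := by
    intro g
    constructor
    · intro hg
      by_contra hgA
      apply hlam1
      -- the commutator map is injective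
      have hinj : Function.Injective (fun h : A =>
          (⟨g * h * g⁻¹ * (h : X)⁻¹, A.mul_mem (hN.conj_mem h h.2 g) (A.inv_mem h.2)⟩ : A)) := by
        intro h h' e
        have e' : g * (h : X) * g⁻¹ * (h : X)⁻¹ = g * (h' : X) * g⁻¹ * (h' : X)⁻¹ :=
          congrArg Subtype.val e
        have e2 : g * ((h' : X)⁻¹ * (h : X)) * g⁻¹ = (h' : X)⁻¹ * (h : X) := by
          have e3 : g * ((h' : X)⁻¹ * (h : X)) * g⁻¹
              = (g * (h' : X) * g⁻¹)⁻¹ * (g * (h : X) * g⁻¹ * (h : X)⁻¹) * (h : X) := by group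
          rw [e3, e']; group
        by_contra hne
        have hc1 : (h' : X)⁻¹ * (h : X) ≠ 1 := by
          intro h0
          apply hne
          apply Subtype.ext
          have : (h : X) = (h' : X) * ((h' : X)⁻¹ * (h : X)) := by group
          rw [this, h0, mul_one]
        have hcomm : g * ((h' : X)⁻¹ * (h : X)) = (h' : X)⁻¹ * (h : X) * g := by
          calc g * ((h' : X)⁻¹ * (h : X)) = (g * ((h' : X)⁻¹ * (h : X)) * g⁻¹) * g := by group
            _ = (h' : X)⁻¹ * (h : X) * g := by rw [e2]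
        exact hgA (hC _ (A.mul_mem (A.inv_mem h'.2) h.2) hc1 g hcomm)
      have hsurj := Finite.injective_iff_surjective.mp hinj
      apply Subtype.ext
      funext b
      obtain ⟨h, hh⟩ := hsurj b
      show lam.1 b = 1
      have hb : b = (⟨g * h * g⁻¹, hN.conj_mem h h.2 g⟩ : A) * h⁻¹ := by
        rw [← hh]; apply Subtype.ext; rfl
      have h5 := hg h
      rw [hμ] at h5
      have h6 : μ ⟨g * h * g⁻¹, hN.conj_mem h h.2 g⟩ = μ h := Units.ext h5
      have h7 : lam.1 b = ((μ b : ℂˣ) : ℂ) := by rw [hμ]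
      rw [h7, hb, map_mul, map_inv, h6, mul_inv_cancel, Units.val_one]
    · intro hg h
      have h8 : (⟨g * h * g⁻¹, hN.conj_mem h h.2 g⟩ : A) = h := by
        apply Subtype.ext
        show g * (h : X) * g⁻¹ = h
        rw [hab g hg h h.2, mul_inv_cancel_right]
      rw [h8]
  have hcardA : (Nat.card A : ℂ) ≠ 0 := by exact_mod_cast Nat.card_pos.ne'
  have hnorm : Cfsg.classInner (Cfsg.indFun A lam.1) (Cfsg.indFun A lam.1) = 1 := by
    have h1 := Lead.card_mul_inner_ind_normal A lam.1 lam.2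
    have h2 : Nat.card {g : X // ∀ h : A, lam.1 ⟨g * h * g⁻¹, hN.conj_mem h h.2 g⟩ = lam.1 h}
        = Nat.card A := Nat.card_congr (Equiv.subtypeEquivRight hinert)
    rw [h2] at h1
    exact mul_left_cancel₀ hcardA (h1.trans (mul_one _).symm)
  have hindex : (A.index : ℂ) * (Nat.card A : ℂ) = (Fintype.card X : ℂ) := by
    rw [← Nat.card_eq_fintype_card]
    exact_mod_cast A.index_mul_card
  have hdeg : Cfsg.indFun A lam.1 1 = (A.index : ℂ) := by
    rw [Lead.indFun_one_eq, hlam_one, mul_one, ← hindex]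
    field_simp
  have hirrInd : Cfsg.IsIrrCharacter X (Cfsg.indFun A lam.1) := by
    apply Lead.isIrr_of_gen_norm_one _
      (Lead.isGen_indFun A (Lead.isGen_of_char (Lead.isCharacter_of_irr lam.2))) hnorm
    refine ⟨(A.index : ℝ), ?_, ?_⟩
    · have : 0 < A.index := Nat.pos_of_ne_zero (Subgroup.index_ne_zero_of_finite)
      exact_mod_cast this
    · rw [hdeg]; norm_cast
  have hχcl : Cfsg.IsClassFunction X χ := Lead.isClassFunction_of_irr ⟨χ, hχ⟩
  have hrec := Lead.frobenius_reciprocity A lam.1 χ hχcl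
  have hne0 : Cfsg.classInner (Cfsg.indFun A lam.1) χ ≠ 0 := by
    rw [hrec, ← Lead.classInner_conj_symm, hinner, Complex.conj_natCast]
    exact_mod_cast hmlam
  have heq : Cfsg.indFun A lam.1 = χ := by
    by_contra hne
    exact hne0 (irr_orth' hirrInd hχ hne)
  constructor
  · intro x hx
    rw [← heq]
    apply Lead.frob_ind_apply_kernel
    intro y hy
    apply hx
    have h1 := hN.conj_mem _ hy y
    have h2 : y * (y⁻¹ * x * y) * y⁻¹ = x := by group
    rwa [h2] at h1
  · rw [← heq]; exact hdeg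

end Cfsg.Agent.Lib.Helper6
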