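import Mathlib
import Cfsg.Prelude.Def_Characters
import Cfsg.Prelude.Def_OddOrderChar
import Cfsg.Agent.Lib.Lead.Frob
import Cfsg.Agent.Lib.Lead.Char14
import Cfsg.Agent.Lib.Helper6.FrobChar

/-!
# Characters of a group with a normal subgroup containing the centralizers of its nonidentity
elements (Frobenius groups with arbitrary kernel)
-/

set_option autoImplicit false

namespace Cfsg.Agent.Lib.Helper6

open Cfsg.Agent.Lib

/-- a non-principal irreducible character of a "Frobenius kernel" induces irreducibly -/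
theorem frob_ind_irr' {X : Type*} [Group X] [Fintype X] (A : Subgroup X) [hN : A.Normal]
    (hC : ∀ a ∈ A, a ≠ 1 → ∀ g : X, g * a = a * g → g ∈ A) (τ : A → ℂ)
    (hτ : Cfsg.IsIrrCharacter A τ) (hτ1 : τ ≠ fun _ => 1) :
    Cfsg.IsIrrCharacter X (Cfsg.indFun A τ) := by
  classical
  have hcl : Cfsg.IsClassFunction A τ :=
    Lead.isClassFunction_of_irr (⟨τ, hτ⟩ : Cfsg.IrrCharacter A)
  have hin : ∀ g : X, (∀ k : A, τ ⟨g * k * g⁻¹, hN.conj_mem k k.2 g⟩ = τ k) ↔ g ∈ A := by
    intro g
    constructor
    · intro hfix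
      by_contra hg
      apply hτ1
      have hcount := Lead.fixed_count_aut (MulAut.conjNormal g : A ≃* A)
      have h1 : Nat.card {C : ConjClasses A //
          ConjClasses.map (MulAut.conjNormal g : A ≃* A).toMonoidHom C = C} = 1 := by
        rw [Nat.card_eq_one_iff_unique]
        constructor
        · constructor
          have hone : ∀ C : {C : ConjClasses A //
              ConjClasses.map (MulAut.conjNormal g : A ≃* A).toMonoidHom C = C},
              C.1 = ConjClasses.mk 1 := by
            rintro ⟨C, hC'⟩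
            obtain ⟨x, rfl⟩ := ConjClasses.exists_rep C
            have h2 : ConjClasses.mk ((MulAut.conjNormal g : A ≃* A) x) = ConjClasses.mk x := hC'
            rw [ConjClasses.mk_eq_mk_iff_isConj, isConj_iff] at h2
            obtain ⟨k, hk⟩ := h2
            have hk' : (k : X) * (g * x * g⁻¹) * (k : X)⁻¹ = x := by
              have := congrArg Subtype.val hk
              simpa using this
            have h3 : ((k : X) * g) * x = x * ((k : X) * g) := by
              calc ((k : X) * g) * x = ((k : X) * (g * x * g⁻¹) * (k : X)⁻¹) * ((k : X) * g) := by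
                    group
                _ = x * ((k : X) * g) := by rw [hk']
            have h4 : (k : X) * g ∉ A := by
              intro h
              apply hg
              have := A.mul_mem (A.inv_mem k.2) h
              simpa using this
            have h5 : (x : X) = 1 := by
              by_contra hx1
              exact h4 (hC x x.2 hx1 _ h3)
            show ConjClasses.mk x = ConjClasses.mk 1
            congr 1
            exact Subtype.ext h5
          intro C D
          apply Subtype.ext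
          rw [hone C, hone D]
        · refine ⟨⟨ConjClasses.mk 1, ?_⟩⟩
          show ConjClasses.mk ((MulAut.conjNormal g : A ≃* A) 1) = ConjClasses.mk 1
          rw [map_one]
      rw [h1] at hcount
      have hsub := (Nat.card_eq_one_iff_unique.mp hcount.symm).1
      have e1 : ((⟨τ, hτ⟩ : Cfsg.IrrCharacter A) : A → ℂ) ∘ (MulAut.conjNormal g : A ≃* A)
          = ((⟨τ, hτ⟩ : Cfsg.IrrCharacter A) : A → ℂ) := by
        funext k
        exact hfix k
      have e2 : ((Lead.irrOne A : Cfsg.IrrCharacter A) : A → ℂ) ∘ (MulAut.conjNormal g : A ≃* A)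
          = ((Lead.irrOne A : Cfsg.IrrCharacter A) : A → ℂ) := rfl
      have e3 := hsub.elim ⟨⟨τ, hτ⟩, e1⟩ ⟨Lead.irrOne A, e2⟩
      have e4 : (⟨τ, hτ⟩ : Cfsg.IrrCharacter A) = Lead.irrOne A := congrArg Subtype.val e3
      exact congrArg Subtype.val e4
    · intro hg k
      have := hcl k ⟨g, hg⟩
      exact this
  have hcard := Lead.card_mul_inner_ind_normal A τ hτ
  have h2 : Nat.card {g : X // ∀ k : A, τ ⟨g * k * g⁻¹, hN.conj_mem k k.2 g⟩ = τ k} = Nat.card A :=
    Nat.card_congr (Equiv.subtypeEquivRight hin)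
  rw [h2] at hcard
  have hK0 : (Nat.card A : ℂ) ≠ 0 := by exact_mod_cast Nat.card_pos.ne'
  have h3 : Cfsg.classInner (Cfsg.indFun A τ) (Cfsg.indFun A τ) = 1 := by
    apply mul_left_cancel₀ hK0
    rw [hcard, mul_one]
  exact Lead.isIrrCharacter_of_norm_one (Lead.isCharacter_indFun A τ (Lead.isCharacter_of_irr hτ)) h3

/-- an irreducible character nontrivial on the "Frobenius kernel" is induced from it -/
theorem frob_kernel_char {X : Type*} [Group X] [Fintype X] (A : Subgroup X) [hN : A.Normal]
    (hC : ∀ a ∈ A, a ≠ 1 → ∀ g : X, g * a = a * g → g ∈ A)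
    {χ : X → ℂ} (hχ : Cfsg.IsIrrCharacter X χ) (hnt : ∃ a ∈ A, χ a ≠ χ 1) :
    ∃ lam : Cfsg.IrrCharacter A, lam ≠ Lead.irrOne A ∧ χ = Cfsg.indFun A lam.1 := by
  classical
  haveI : Fintype A := Fintype.ofFinite A
  haveI : Fintype (Cfsg.IrrCharacter A) := Fintype.ofFinite _
  have hres : Cfsg.IsCharacter A (fun a : A => χ a) :=
    Lead.isCharacter_restrict A (Lead.isCharacter_of_irr hχ)
  obtain ⟨m, hm⟩ := Lead.isCharacter_decomp hres
  have hex : ∃ lam : Cfsg.IrrCharacter A, lam ≠ Lead.irrOne A ∧ m lam ≠ 0 := by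
    by_contra hcon
    push Not at hcon
    obtain ⟨a, ha, hne⟩ := hnt
    apply hne
    have h1 : ∀ b : A, χ b = (m (Lead.irrOne A) : ℂ) := by
      intro b
      have h2 := congrFun hm b
      rw [Finset.sum_apply, Finset.sum_eq_single (Lead.irrOne A)] at h2
      · rw [h2]
        show (m (Lead.irrOne A) : ℂ) * 1 = _
        rw [mul_one]
      · intro lam _ hlam
        rw [hcon lam hlam]
        simp
      · intro h; exact absurd (Finset.mem_univ _) h
    have h3 := h1 ⟨a, ha⟩
    have h4 := h1 1
    rw [Subgroup.coe_one] at h4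
    rw [h4]
    exact h3
  obtain ⟨lam, hlam1, hmlam⟩ := hex
  have hinner : Cfsg.classInner (fun a : A => χ a) lam.1 = (m lam : ℂ) := by
    rw [hm, Lead.classInner_sum_left, Finset.sum_eq_single lam]
    · rw [Lead.classInner_smul_left, Lead.irr_inner_self, mul_one]
    · intro ψ _ hψ
      rw [Lead.classInner_smul_left, Lead.irr_inner_ne hψ, mul_zero]
    · intro h; exact absurd (Finset.mem_univ _) h
  have hirrInd : Cfsg.IsIrrCharacter X (Cfsg.indFun A lam.1) :=
    frob_ind_irr' A hC lam.1 lam.2 (fun h => hlam1 (Subtype.ext h))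
  have hχcl : Cfsg.IsClassFunction X χ := Lead.isClassFunction_of_irr ⟨χ, hχ⟩
  have hrec := Lead.frobenius_reciprocity A lam.1 χ hχcl
  have hne0 : Cfsg.classInner (Cfsg.indFun A lam.1) χ ≠ 0 := by
    rw [hrec, ← Lead.classInner_conj_symm, hinner, Complex.conj_natCast]
    exact_mod_cast hmlam
  have heq : Cfsg.indFun A lam.1 = χ := by
    by_contra hne
    exact hne0 (irr_orth' hirrInd hχ hne)
  exact ⟨lam, hlam1, heq.symm⟩

/-- properties of the characters induced from a "Frobenius kernel" -/
theorem frob_ind_props {X : Type*} [Group X] [Fintype X] (A : Subgroup X) [hN : A.Normal]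
    (hC : ∀ a ∈ A, a ≠ 1 → ∀ g : X, g * a = a * g → g ∈ A)
    (lam : Cfsg.IrrCharacter A) (hlam : lam ≠ Lead.irrOne A) :
    Cfsg.IsIrrCharacter X (Cfsg.indFun A lam.1) ∧
    (∀ x : X, x ∉ A → Cfsg.indFun A lam.1 x = 0) ∧
    Cfsg.indFun A lam.1 1 = (A.index : ℂ) * lam.1 1 ∧
    ∃ a ∈ A, Cfsg.indFun A lam.1 a ≠ Cfsg.indFun A lam.1 1 := by
  classical
  haveI : Fintype A := Fintype.ofFinite A
  have hirrInd : Cfsg.IsIrrCharacter X (Cfsg.indFun A lam.1) :=
    frob_ind_irr' A hC lam.1 lam.2 (fun h => hlam (Subtype.ext h))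
  refine ⟨hirrInd, ?_, ?_, ?_⟩
  · intro x hx
    apply Lead.frob_ind_apply_kernel
    intro y hy
    apply hx
    have h1 := hN.conj_mem _ hy y
    have h2 : y * (y⁻¹ * x * y) * y⁻¹ = x := by group
    rwa [h2] at h1
  · have hcardA : (Nat.card A : ℂ) ≠ 0 := by exact_mod_cast Nat.card_pos.ne'
    have hindex : (A.index : ℂ) * (Nat.card A : ℂ) = (Fintype.card X : ℂ) := by
      rw [← Nat.card_eq_fintype_card]
      exact_mod_cast A.index_mul_card
    rw [Lead.indFun_one_eq, ← hindex]
    field_simp
  · by_contra hcon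
    push Not at hcon
    have hcl : Cfsg.IsClassFunction X (Cfsg.indFun A lam.1) :=
      Lead.isClassFunction_of_irr ⟨_, hirrInd⟩
    have hrec := Lead.frobenius_reciprocity A lam.1 (Cfsg.indFun A lam.1) hcl
    rw [irr_norm' hirrInd] at hrec
    have h1 : (fun h : A => Cfsg.indFun A lam.1 (h : X))
        = (Cfsg.indFun A lam.1 1) • (Lead.irrOne A).1 := by
      funext h
      show _ = Cfsg.indFun A lam.1 1 * 1
      rw [mul_one]
      exact hcon h h.2
    rw [h1, Lead.classInner_smul_right, Lead.irr_inner_ne hlam, mul_zero] at hrec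
    exact one_ne_zero hrec

open Classical in
/-- the values on the nonidentity elements of `A` of a class function whose coefficients on the
characters nontrivial on `A` are proportional to the degrees -/
theorem frob_const_formula {X : Type*} [Group X] [Fintype X] [Fintype (Cfsg.IrrCharacter X)]
    (A : Subgroup X) (R : X → ℂ) (hR : Cfsg.IsClassFunction X R) (c : ℂ)
    (hc : ∀ η : Cfsg.IrrCharacter X, (∃ a ∈ A, η.1 a ≠ η.1 1) →
      Cfsg.classInner R η.1 = c * η.1 1)
    (a : X) (ha : a ∈ A) (ha1 : a ≠ 1) :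
    R a = ∑ η ∈ Finset.univ.filter (fun η : Cfsg.IrrCharacter X => ¬ ∃ a ∈ A, η.1 a ≠ η.1 1),
        (Cfsg.classInner R η.1 - c * η.1 1) * η.1 1 := by
  have h1 := congrFun (Lead.class_fn_expand' R hR) a
  rw [Finset.sum_apply] at h1
  have h0 : ∑ η : Cfsg.IrrCharacter X, η.1 1 * η.1 a = 0 := by
    have h2 := Lead.col_orth' a 1
    rw [if_neg] at h2
    · rw [← h2]
      apply Finset.sum_congr rfl
      intro η _
      rw [Lead.irr_conj_one, mul_comm]
    · intro hconj
      exact ha1 (isConj_one_left.mp hconj)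
  rw [h1]
  have h3 : ∀ η : Cfsg.IrrCharacter X, (Cfsg.classInner R η.1 • (η : X → ℂ)) a
      = c * (η.1 1 * η.1 a) + (if (∃ a ∈ A, η.1 a ≠ η.1 1) then 0
        else (Cfsg.classInner R η.1 - c * η.1 1) * η.1 1) := by
    intro η
    show Cfsg.classInner R η.1 * η.1 a = _
    by_cases hη : ∃ a ∈ A, η.1 a ≠ η.1 1
    · rw [if_pos hη, hc η hη]; ring
    · rw [if_neg hη]
      push Not at hη
      rw [hη a ha]; ring
  rw [Finset.sum_congr rfl (fun η _ => h3 η), Finset.sum_add_distrib, ← Finset.mul_sum, h0,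
    mul_zero, zero_add, Finset.sum_ite, Finset.sum_const_zero, zero_add]

end Cfsg.Agent.Lib.Helper6
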