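import Mathlib
import Cfsg.Agent.Lib.Lead.Char7

set_option autoImplicit false

/-! Frobenius' divisibility theorem: `m ∣ |G|` implies `m ∣ #{g | g ^ m = 1}`. -/

namespace Cfsg.Agent.Lib.Helper6

open Finset

universe u

theorem pow_eq_self_of_modEq_one {M : Type*} [Monoid M] {b : M} {o e : ℕ} (hb : b ^ o = 1)
    (he : e ≡ 1 [MOD o]) : b ^ e = b := by
  have h2 : e % o = 1 % o := he
  rw [pow_eq_pow_mod e hb, h2, ← pow_eq_pow_mod 1 hb, pow_one]

theorem card_filter_eq_natCard {α : Type*} [Fintype α] (P : α → Prop) [DecidablePred P] :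
    (univ.filter P).card = Nat.card {x // P x} := by
  rw [Nat.card_eq_fintype_card, Fintype.card_subtype]

/-- the number of elements of order `d` is divisible by `φ(d)` -/
theorem totient_dvd_card_orderOf {G : Type*} [Group G] [Fintype G] [DecidableEq G] (d : ℕ) :
    Nat.totient d ∣ (univ.filter (fun x : G => orderOf x = d)).card := by
  classical
  set S := univ.filter (fun x : G => orderOf x = d) with hS
  have h1 := Finset.card_eq_sum_card_fiberwise (s := S)
    (t := S.image (fun x => Subgroup.zpowers x)) (f := fun x => Subgroup.zpowers x)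
    (fun x hx => Finset.mem_coe.mpr (Finset.mem_image_of_mem _ (Finset.mem_coe.mp hx)))
  rw [h1]
  apply Finset.dvd_sum
  intro C hC
  obtain ⟨x₀, hx₀, rfl⟩ := Finset.mem_image.mp hC
  have hx₀d : orderOf x₀ = d := (Finset.mem_filter.mp hx₀).2
  haveI : Fintype (Subgroup.zpowers x₀) := Fintype.ofFinite _
  have h3 := IsCyclic.card_orderOf_eq_totient (α := Subgroup.zpowers x₀) (d := d) (by
    rw [← Nat.card_eq_fintype_card, Nat.card_zpowers, hx₀d])
  have h4 : S.filter (fun x => Subgroup.zpowers x = Subgroup.zpowers x₀) =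
      (univ.filter (fun a : Subgroup.zpowers x₀ => orderOf a = d)).map
        ⟨Subtype.val, Subtype.val_injective⟩ := by
    ext x
    simp only [hS, Finset.mem_filter, Finset.mem_univ, true_and, Finset.mem_map,
      Function.Embedding.coeFn_mk, Subtype.exists, exists_and_right, exists_eq_right]
    constructor
    · rintro ⟨hxd, hx⟩
      have hxm : x ∈ Subgroup.zpowers x₀ := hx ▸ Subgroup.mem_zpowers x
      refine ⟨hxm, ?_⟩
      rw [← Subgroup.orderOf_coe]
      exact hxd
    · rintro ⟨hxm, hxd⟩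
      rw [← Subgroup.orderOf_coe] at hxd
      refine ⟨hxd, ?_⟩
      apply Subgroup.eq_of_le_of_card_ge (Subgroup.zpowers_le.mpr hxm)
      rw [Nat.card_zpowers, Nat.card_zpowers, hx₀d, hxd]
  rw [h4, Finset.card_map, h3]

/-- decomposition of the solutions of `x ^ (A * B) = 1` into commuting `A`- and `B`-parts -/
theorem card_decomp {G : Type*} [Group G] [Fintype G] [DecidableEq G] (A B e f : ℕ)
    (he1 : e ≡ 1 [MOD A]) (he0 : B ∣ e) (hf0 : A ∣ f) (hf1 : f ≡ 1 [MOD B])
    (hef : e + f ≡ 1 [MOD A * B]) (Q : G → Prop) [DecidablePred Q] :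
    (univ.filter (fun x : G => x ^ (A * B) = 1 ∧ Q (x ^ e))).card =
      ∑ y ∈ univ.filter (fun y : G => y ^ A = 1 ∧ Q y),
        (univ.filter (fun z : G => z ^ B = 1 ∧ y * z = z * y)).card := by
  rw [Finset.card_eq_sum_card_fiberwise (f := fun x => x ^ e)
    (t := univ.filter (fun y : G => y ^ A = 1 ∧ Q y))]
  · apply Finset.sum_congr rfl
    intro y hy
    obtain ⟨hyA, hyQ⟩ := (Finset.mem_filter.mp hy).2
    have hye : y ^ e = y := pow_eq_self_of_modEq_one hyA he1
    have hyf : y ^ f = 1 := by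
      obtain ⟨k, rfl⟩ := hf0
      rw [pow_mul, hyA, one_pow]
    apply Finset.card_nbij' (fun x => x ^ f) (fun z => y * z)
    · intro x hx
      simp only [Finset.coe_filter, Finset.mem_filter, Finset.mem_univ, true_and,
        Set.mem_ofPred_eq] at hx ⊢
      obtain ⟨⟨hx1, hxQ⟩, hxe⟩ := hx
      refine ⟨?_, ?_⟩
      · rw [← pow_mul]
        obtain ⟨k, rfl⟩ := hf0
        rw [show A * k * B = (A * B) * k by ring, pow_mul, hx1, one_pow]
      · rw [← hxe, ← pow_add, ← pow_add, add_comm]
    · intro z hz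
      simp only [Finset.coe_filter, Finset.mem_filter, Finset.mem_univ, true_and,
        Set.mem_ofPred_eq] at hz ⊢
      obtain ⟨hzB, hyz⟩ := hz
      have hc : Commute y z := hyz
      have hze : z ^ e = 1 := by
        obtain ⟨k, rfl⟩ := he0
        rw [pow_mul, hzB, one_pow]
      refine ⟨⟨?_, ?_⟩, ?_⟩
      · rw [hc.mul_pow, pow_mul, hyA, one_pow, mul_comm A B, pow_mul, hzB, one_pow, mul_one]
      · rw [hc.mul_pow, hye, hze, mul_one]; exact hyQ
      · rw [hc.mul_pow, hye, hze, mul_one]
    · intro x hx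
      simp only [Finset.coe_filter, Finset.mem_filter, Finset.mem_univ, true_and,
        Set.mem_ofPred_eq] at hx
      obtain ⟨⟨hx1, hxQ⟩, hxe⟩ := hx
      show y * x ^ f = x
      rw [← hxe, ← pow_add]
      exact pow_eq_self_of_modEq_one hx1 hef
    · intro z hz
      simp only [Finset.coe_filter, Finset.mem_filter, Finset.mem_univ, true_and,
        Set.mem_ofPred_eq] at hz
      obtain ⟨hzB, hyz⟩ := hz
      have hc : Commute y z := hyz
      show (y * z) ^ f = z
      rw [hc.mul_pow, hyf, one_mul]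
      exact pow_eq_self_of_modEq_one hzB hf1
  · intro x hx
    simp only [Finset.coe_filter, Finset.mem_filter, Finset.mem_univ, true_and,
      Set.mem_ofPred_eq] at hx ⊢
    obtain ⟨hx1, hxQ⟩ := hx
    refine ⟨?_, hxQ⟩
    rw [← pow_mul]
    obtain ⟨k, rfl⟩ := he0
    rw [show B * k * A = (A * B) * k by ring, pow_mul, hx1, one_pow]

/-- a sum of a class function over a conjugation-closed set -/
theorem orbit_sum_dvd {G : Type*} [Group G] [Fintype G] [DecidableEq G] (s : ℕ) (c : G → ℕ)
    (hc : ∀ y g : G, c (g * y * g⁻¹) = c y) :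
    ∀ (n : ℕ) (Y : Finset G), Y.card = n → (∀ y ∈ Y, ∀ g : G, g * y * g⁻¹ ∈ Y) →
      (∀ y ∈ Y, s ∣ (Subgroup.centralizer ({y} : Set G)).index * c y) → s ∣ ∑ y ∈ Y, c y := by
  classical
  intro n
  induction n using Nat.strong_induction_on with
  | _ n ih =>
  intro Y hYn hY hdiv
  rcases Y.eq_empty_or_nonempty with rfl | ⟨y₀, hy₀⟩
  · simp
  have hsplit := Finset.sum_filter_add_sum_filter_not Y (fun y => IsConj y₀ y) c
  rw [← hsplit]
  apply dvd_add
  · have h1 : Y.filter (fun y => IsConj y₀ y) = univ.filter (fun y => IsConj y₀ y) := by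
      ext y
      simp only [Finset.mem_filter, Finset.mem_univ, true_and, and_iff_right_iff_imp]
      intro hconj
      obtain ⟨g, hg⟩ := isConj_iff.mp hconj
      rw [← hg]; exact hY y₀ hy₀ g
    have h2 : ∑ y ∈ Y.filter (fun y => IsConj y₀ y), c y =
        ∑ y ∈ Y.filter (fun y => IsConj y₀ y), c y₀ := by
      apply Finset.sum_congr rfl
      intro y hy
      obtain ⟨g, hg⟩ := isConj_iff.mp (Finset.mem_filter.mp hy).2
      rw [← hg, hc]
    rw [h2, Finset.sum_const, smul_eq_mul, h1]
    have h3 : (univ.filter (fun y => IsConj y₀ y)).card =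
        (Subgroup.centralizer ({y₀} : Set G)).index := by
      rw [Lead.index_centralizer_eq, card_filter_eq_natCard]
    rw [h3]; exact hdiv y₀ hy₀
  · apply ih _ _ _ rfl
    · intro y hy g
      rw [Finset.mem_filter] at hy ⊢
      refine ⟨hY y hy.1 g, ?_⟩
      intro hconj
      apply hy.2
      exact hconj.trans (isConj_iff.mpr ⟨g⁻¹, by group⟩)
    · intro y hy; exact hdiv y (Finset.mem_filter.mp hy).1
    · rw [← hYn]
      apply Finset.card_lt_card
      apply Finset.filter_ssubset.mpr
      exact ⟨y₀, hy₀, fun h => h (IsConj.refl y₀)⟩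

/-- solutions of `z ^ s = 1` correspond to those in the quotient by a central subgroup of order
coprime to `s` -/
theorem card_pow_eq_one_quotient {C : Type*} [Group C] [Finite C] (N : Subgroup C) [N.Normal]
    (hN : N ≤ Subgroup.center C) (s : ℕ) (hcop : (Nat.card N).Coprime s) :
    Nat.card {z : C // z ^ s = 1} = Nat.card {w : C ⧸ N // w ^ s = 1} := by
  apply Nat.card_congr
  refine Equiv.ofBijective (fun z => ⟨QuotientGroup.mk z.1, by
    rw [← QuotientGroup.mk_pow, z.2]; rfl⟩) ⟨?_, ?_⟩
  · rintro ⟨z, hz⟩ ⟨z', hz'⟩ h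
    simp only [Subtype.mk.injEq] at h ⊢
    rw [QuotientGroup.eq] at h
    have hnc : z⁻¹ * z' ∈ Subgroup.center C := hN h
    have hz'eq : z' = z * (z⁻¹ * z') := by group
    have hcomm : Commute z (z⁻¹ * z') := (Subgroup.mem_center_iff.mp hnc z)
    have h1 : (z⁻¹ * z') ^ s = 1 := by
      have h5 := hz'
      rw [hz'eq, hcomm.mul_pow, hz, one_mul] at h5
      exact h5
    have h2 : (z⁻¹ * z') ^ Nat.card N = 1 := by
      have h5 := pow_card_eq_one' (G := N) (x := ⟨z⁻¹ * z', h⟩)
      exact congrArg Subtype.val h5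
    have h3 : z⁻¹ * z' = 1 := by
      have h4 := pow_gcd_eq_one.mpr ⟨h2, h1⟩
      rwa [Nat.Coprime.gcd_eq_one hcop, pow_one] at h4
    rw [hz'eq, h3, mul_one]
  · rintro ⟨w, hw⟩
    obtain ⟨c, rfl⟩ := QuotientGroup.mk_surjective w
    have h1 : c ^ s ∈ N := by
      rw [← QuotientGroup.eq_one_iff, QuotientGroup.mk_pow]; exact hw
    obtain ⟨n₀, hn₀⟩ := (powCoprime hcop).surjective ⟨c ^ s, h1⟩
    have hn₀' : (n₀ : C) ^ s = c ^ s := by
      have h5 := congrArg Subtype.val hn₀
      simpa using h5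
    have hn₀c : (n₀ : C) ∈ Subgroup.center C := hN n₀.2
    have hcomm0 : Commute c (n₀ : C) := Subgroup.mem_center_iff.mp hn₀c c
    have hcomm : Commute c (n₀ : C)⁻¹ := hcomm0.inv_right
    refine ⟨⟨c * (n₀ : C)⁻¹, ?_⟩, ?_⟩
    · rw [hcomm.mul_pow, inv_pow, hn₀', mul_inv_cancel]
    · simp only [Subtype.mk.injEq]
      rw [QuotientGroup.eq]
      have h6 : (c * (n₀ : C)⁻¹)⁻¹ * c = c⁻¹ * (n₀ : C) * c := by
        rw [hcomm.eq]; group
      rw [h6]
      exact (inferInstance : N.Normal).conj_mem' _ n₀.2 c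

theorem card_pow_gcd_card {H : Type*} [Group H] [Finite H] (s : ℕ) :
    Nat.card {w : H // w ^ s = 1} = Nat.card {w : H // w ^ (Nat.gcd s (Nat.card H)) = 1} := by
  apply Nat.card_congr
  exact Equiv.subtypeEquivRight (fun w =>
    ⟨fun h => pow_gcd_eq_one.mpr ⟨h, pow_card_eq_one'⟩, fun h => (pow_gcd_eq_one.mp h).1⟩)

/-- the number of solutions of `z ^ s = 1` commuting with `y`, as a count in the centralizer -/
theorem card_filter_centralizer {G : Type*} [Group G] [Fintype G] [DecidableEq G] (y : G) (s : ℕ) :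
    (univ.filter (fun z : G => z ^ s = 1 ∧ y * z = z * y)).card =
      Nat.card {z : Subgroup.centralizer ({y} : Set G) // z ^ s = 1} := by
  rw [card_filter_eq_natCard]
  apply Nat.card_congr
  refine
    { toFun := fun z => ⟨⟨z.1, Subgroup.mem_centralizer_singleton_iff.mpr z.2.2.symm⟩,
        Subtype.ext (by simpa using z.2.1)⟩
      invFun := fun w => ⟨w.1.1, by
        have h1 := congrArg Subtype.val w.2
        simpa using h1, (Subgroup.mem_centralizer_singleton_iff.mp w.1.2).symm⟩
      left_inv := fun z => rfl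
      right_inv := fun w => rfl }

theorem conj_filter_card {G : Type*} [Group G] [Fintype G] [DecidableEq G] (s : ℕ) (y g : G) :
    (univ.filter (fun z : G => z ^ s = 1 ∧ (g * y * g⁻¹) * z = z * (g * y * g⁻¹))).card =
      (univ.filter (fun z : G => z ^ s = 1 ∧ y * z = z * y)).card := by
  apply Finset.card_nbij' (fun z => g⁻¹ * z * g⁻¹⁻¹) (fun z => g * z * g⁻¹)
  · intro z hz
    simp only [Finset.coe_filter, Finset.mem_univ, true_and, Set.mem_ofPred_eq] at hz ⊢
    obtain ⟨hz1, hz2⟩ := hz
    refine ⟨by rw [conj_pow, hz1]; group, ?_⟩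
    have h1 : y * (g⁻¹ * z * g⁻¹⁻¹) = g⁻¹ * ((g * y * g⁻¹) * z) * g := by group
    rw [h1, hz2]; group
  · intro z hz
    simp only [Finset.coe_filter, Finset.mem_univ, true_and, Set.mem_ofPred_eq] at hz ⊢
    obtain ⟨hz1, hz2⟩ := hz
    refine ⟨by rw [conj_pow, hz1]; group, ?_⟩
    have h1 : g * y * g⁻¹ * (g * z * g⁻¹) = g * (y * z) * g⁻¹ := by group
    rw [h1, hz2]; group
  · intro z _
    show g * (g⁻¹ * z * g⁻¹⁻¹) * g⁻¹ = z
    group
  · intro z _
    show g⁻¹ * (g * z * g⁻¹) * g⁻¹⁻¹ = z
    group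

/-- for `d ∣ p ^ (a + 1) * s` with `d ∤ p ^ a * s` we have `p ^ (a + 1) ∣ d` -/
theorem pow_succ_dvd_of_not_dvd {p a s d : ℕ} (hp : p.Prime) (hd : d ∣ p ^ (a + 1) * s)
    (hnd : ¬ d ∣ p ^ a * s) (hd0 : d ≠ 0) : p ^ (a + 1) ∣ d := by
  obtain ⟨j, d', hd', rfl⟩ := Nat.exists_eq_pow_mul_and_not_dvd hd0 p hp.one_lt.ne'
  by_cases hj : a + 1 ≤ j
  · exact Dvd.dvd.mul_right (pow_dvd_pow p hj) d'
  · exfalso
    apply hnd
    have h1 : d' ∣ p ^ (a + 1) * s := (Dvd.intro_left _ rfl).trans hd
    have h2 : d'.Coprime (p ^ (a + 1)) :=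
      Nat.Coprime.pow_right _ ((Nat.Prime.coprime_iff_not_dvd hp).mpr hd').symm
    have h3 : d' ∣ s := h2.dvd_of_dvd_mul_left h1
    exact Nat.mul_dvd_mul (pow_dvd_pow p (by omega)) h3

/-- the inductive step of Frobenius' theorem -/
theorem frob_step {G : Type u} [Group G] [Finite G]
    (ih : ∀ (H : Type u) [Group H] [Finite H], Nat.card H < Nat.card G → ∀ m, m ∣ Nat.card H →
      m ∣ Nat.card {g : H // g ^ m = 1})
    (m p : ℕ) (hp : p.Prime) (hmp : m * p ∣ Nat.card G) :
    m ∣ Nat.card {x : G // x ^ (m * p) = 1 ∧ x ^ m ≠ 1} := by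
  classical
  haveI : Fintype G := Fintype.ofFinite G
  have hG0 : 0 < Nat.card G := Nat.card_pos
  have hm0 : m ≠ 0 := by
    rintro rfl
    rw [zero_mul, zero_dvd_iff] at hmp
    omega
  obtain ⟨a, s, hsp', rfl⟩ := Nat.exists_eq_pow_mul_and_not_dvd hm0 p hp.one_lt.ne'
  have hps : p.Coprime s := (Nat.Prime.coprime_iff_not_dvd hp).mpr hsp'
  have hcop : (p ^ a).Coprime s := Nat.Coprime.pow_left a hps
  have hcop1 : (p ^ (a + 1)).Coprime s := Nat.Coprime.pow_left (a + 1) hps
  have hexp : p ^ a * s * p = p ^ (a + 1) * s := by ring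
  rw [← card_filter_eq_natCard]
  set K := univ.filter (fun x : G => x ^ (p ^ a * s * p) = 1 ∧ x ^ (p ^ a * s) ≠ 1) with hK
  apply Nat.Coprime.mul_dvd_of_dvd_of_dvd hcop
  · -- `p ^ a ∣ |K|`
    rw [Finset.card_eq_sum_card_fiberwise (s := K) (t := K.image orderOf) (f := orderOf)
      (fun x hx => Finset.mem_coe.mpr (Finset.mem_image_of_mem _ (Finset.mem_coe.mp hx)))]
    apply Finset.dvd_sum
    intro d hd
    obtain ⟨x₀, hx₀, rfl⟩ := Finset.mem_image.mp hd
    obtain ⟨hx1, hx2⟩ := (Finset.mem_filter.mp hx₀).2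
    have h1 : K.filter (fun x => orderOf x = orderOf x₀) =
        univ.filter (fun x : G => orderOf x = orderOf x₀) := by
      ext x
      simp only [hK, Finset.mem_filter, Finset.mem_univ, true_and, and_iff_right_iff_imp]
      intro hx
      refine ⟨?_, ?_⟩
      · rw [← orderOf_dvd_iff_pow_eq_one, hx, orderOf_dvd_iff_pow_eq_one]; exact hx1
      · rw [Ne, ← orderOf_dvd_iff_pow_eq_one, hx, orderOf_dvd_iff_pow_eq_one]; exact hx2
    rw [h1]
    have h2 : p ^ (a + 1) ∣ orderOf x₀ := by
      apply pow_succ_dvd_of_not_dvd hp (s := s) _ _ (orderOf_pos x₀).ne'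
      · rw [← hexp]; exact orderOf_dvd_iff_pow_eq_one.mpr hx1
      · rw [orderOf_dvd_iff_pow_eq_one]; exact hx2
    have h3 : p ^ a ∣ Nat.totient (orderOf x₀) := by
      have h4 := Nat.totient_dvd_of_dvd h2
      rw [Nat.totient_prime_pow_succ hp] at h4
      exact (Dvd.intro _ rfl).trans h4
    exact h3.trans (totient_dvd_card_orderOf _)
  · -- `s ∣ |K|`
    obtain ⟨e, he1, he0⟩ := Nat.chineseRemainder hcop1 1 0
    obtain ⟨f, hf0, hf1⟩ := Nat.chineseRemainder hcop1 0 1
    have he0' : s ∣ e := (Nat.modEq_zero_iff_dvd).mp he0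
    have hf0' : p ^ (a + 1) ∣ f := (Nat.modEq_zero_iff_dvd).mp hf0
    have hef : e + f ≡ 1 [MOD p ^ (a + 1) * s] := by
      apply (Nat.modEq_and_modEq_iff_modEq_mul hcop1).mp
      exact ⟨by simpa using he1.add hf0, by simpa using he0.add hf1⟩
    have hKeq : K = univ.filter (fun x : G => x ^ (p ^ (a + 1) * s) = 1 ∧
        (x ^ e) ^ (p ^ a * s) ≠ 1) := by
      ext x
      simp only [hK, Finset.mem_filter, Finset.mem_univ, true_and]
      rw [hexp]
      constructor
      · rintro ⟨h1, h2⟩
        refine ⟨h1, fun h3 => h2 ?_⟩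
        have h4 : x ^ (e + f) = x := pow_eq_self_of_modEq_one h1 hef
        have h5 : (x ^ f) ^ (p ^ a * s) = 1 := by
          obtain ⟨k, rfl⟩ := hf0'
          rw [← pow_mul, show p ^ (a + 1) * k * (p ^ a * s) = (p ^ (a + 1) * s) * (k * p ^ a) by ring,
            pow_mul, h1, one_pow]
        calc x ^ (p ^ a * s) = (x ^ (e + f)) ^ (p ^ a * s) := by rw [h4]
          _ = (x ^ e) ^ (p ^ a * s) * (x ^ f) ^ (p ^ a * s) := by
            rw [← pow_mul, ← pow_mul, ← pow_mul, ← pow_add, add_mul]
          _ = 1 := by rw [h3, h5, mul_one]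
      · rintro ⟨h1, h2⟩
        refine ⟨h1, fun h3 => h2 ?_⟩
        rw [← pow_mul, mul_comm, pow_mul, h3, one_pow]
    rw [hKeq, card_decomp (p ^ (a + 1)) s e f he1 he0' hf0' hf1 hef
      (fun y => y ^ (p ^ a * s) ≠ 1)]
    apply orbit_sum_dvd s _ (fun y g => conj_filter_card s y g) _ _ rfl
    · intro y hy g
      simp only [Finset.mem_filter, Finset.mem_univ, true_and] at hy ⊢
      refine ⟨by rw [conj_pow, hy.1]; group, ?_⟩
      rw [conj_pow, Ne, conj_eq_one_iff]
      exact hy.2
    · intro y hy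
      simp only [Finset.mem_filter, Finset.mem_univ, true_and] at hy
      obtain ⟨hy1, hy2⟩ := hy
      have hyord : orderOf y = p ^ (a + 1) := by
        obtain ⟨j, hj, hj2⟩ := (Nat.dvd_prime_pow hp).mp (orderOf_dvd_iff_pow_eq_one.mpr hy1)
        by_cases hja : j = a + 1
        · rw [hj2, hja]
        · exfalso
          apply hy2
          rw [← orderOf_dvd_iff_pow_eq_one, hj2]
          exact Dvd.dvd.mul_right (pow_dvd_pow p (by omega)) s
      rw [card_filter_centralizer]
      set Cy := Subgroup.centralizer ({y} : Set G) with hCy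
      let y' : Cy := ⟨y, Subgroup.mem_centralizer_singleton_iff.mpr rfl⟩
      let N : Subgroup Cy := Subgroup.zpowers y'
      have hNc : N ≤ Subgroup.center Cy := by
        intro n hn
        obtain ⟨i, rfl⟩ := Subgroup.mem_zpowers_iff.mp hn
        rw [Subgroup.mem_center_iff]
        intro c
        have h1 : c * y' = y' * c := by
          apply Subtype.ext
          exact Subgroup.mem_centralizer_singleton_iff.mp c.2
        exact (Commute.zpow_right h1 i)
      haveI hNn : N.Normal := by
        constructor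
        intro n hn c
        have h1 := Subgroup.mem_center_iff.mp (hNc hn) c
        rw [h1, mul_assoc, mul_inv_cancel, mul_one]
        exact hn
      have hNcard : Nat.card N = p ^ (a + 1) := by
        rw [Nat.card_zpowers, ← Subgroup.orderOf_coe]
        exact hyord
      have hcopN : (Nat.card N).Coprime s := hNcard ▸ hcop1
      rw [card_pow_eq_one_quotient N hNc s hcopN, card_pow_gcd_card]
      have hq : Nat.card Cy = Nat.card (Cy ⧸ N) * Nat.card N :=
        Subgroup.card_eq_card_quotient_mul_card_subgroup N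
      have hidx : Nat.card Cy * Cy.index = Nat.card G := Subgroup.card_mul_index Cy
      have hqpos : 0 < Nat.card (Cy ⧸ N) := Nat.card_pos
      have hlt : Nat.card (Cy ⧸ N) < Nat.card G := by
        have h1 : Nat.card Cy ≤ Nat.card G := Nat.le_of_dvd hG0 (Subgroup.card_subgroup_dvd_card Cy)
        have h2 : 2 ≤ Nat.card N := by
          rw [hNcard]
          calc 2 ≤ p := hp.two_le
            _ = p ^ 1 := (pow_one p).symm
            _ ≤ p ^ (a + 1) := Nat.pow_le_pow_right hp.pos (by omega)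
        nlinarith
      have h1 := ih (Cy ⧸ N) hlt (Nat.gcd s (Nat.card (Cy ⧸ N))) (Nat.gcd_dvd_right _ _)
      have hsG : s ∣ Nat.card G := (Dvd.intro_left _ rfl).trans ((Dvd.intro _ rfl).trans hmp)
      have h2 : s ∣ Cy.index * Nat.card (Cy ⧸ N) := by
        have h3 : s ∣ Cy.index * Nat.card (Cy ⧸ N) * p ^ (a + 1) := by
          rw [← hNcard, mul_assoc, ← hq, mul_comm, hidx]; exact hsG
        exact hcop1.symm.dvd_of_dvd_mul_right h3
      have h3 : s ∣ Cy.index * Nat.gcd s (Nat.card (Cy ⧸ N)) := by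
        rw [← Nat.gcd_mul_left]
        exact Nat.dvd_gcd (Dvd.intro_left _ rfl) h2
      exact h3.trans (Nat.mul_dvd_mul_left _ h1)

/-- **Frobenius' theorem**: if `m ∣ |G|` then `m` divides the number of solutions of
`g ^ m = 1`. -/
theorem frobenius_dvd_aux : ∀ (N : ℕ) (G : Type u) [Group G] [Finite G], Nat.card G = N →
    ∀ m, m ∣ Nat.card G → m ∣ Nat.card {g : G // g ^ m = 1} := by
  intro N
  induction N using Nat.strong_induction_on with
  | _ N ihN =>
  intro G _ _ hN
  have ih : ∀ (H : Type u) [Group H] [Finite H], Nat.card H < Nat.card G → ∀ m,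
      m ∣ Nat.card H → m ∣ Nat.card {g : H // g ^ m = 1} := by
    intro H _ _ hlt m hm
    exact ihN _ (hN ▸ hlt) H rfl m hm
  have hG0 : 0 < Nat.card G := Nat.card_pos
  have key : ∀ k m, m ∣ Nat.card G → Nat.card G / m = k →
      m ∣ Nat.card {g : G // g ^ m = 1} := by
    intro k
    induction k using Nat.strong_induction_on with
    | _ k ihk =>
    intro m hm hk
    have hm0 : 0 < m := Nat.pos_of_dvd_of_pos hm hG0
    by_cases hmG : m = Nat.card G
    · have h1 : Nat.card {g : G // g ^ m = 1} = Nat.card G := by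
        apply Nat.card_congr
        exact Equiv.subtypeUnivEquiv (fun g => by rw [hmG]; exact pow_card_eq_one')
      rw [h1]; exact hm
    · obtain ⟨t, ht⟩ := hm
      have ht1 : t ≠ 1 := by
        rintro rfl
        exact hmG (by omega)
      have hp : (t.minFac).Prime := Nat.minFac_prime ht1
      obtain ⟨t', ht'⟩ := Nat.minFac_dvd t
      have hmp : m * t.minFac ∣ Nat.card G := ⟨t', by rw [ht, mul_assoc, ← ht']⟩
      have ht0 : 0 < t := by
        rcases Nat.eq_zero_or_pos t with h | h
        · rw [h, mul_zero] at ht; omega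
        · exact h
      have ht'0 : 0 < t' := by
        rcases Nat.eq_zero_or_pos t' with h | h
        · rw [h, mul_zero] at ht'; omega
        · exact h
      have hd1 : Nat.card G / (m * t.minFac) = t' :=
        Nat.div_eq_of_eq_mul_right (Nat.mul_pos hm0 hp.pos) (by rw [ht, mul_assoc, ← ht'])
      have hd2 : Nat.card G / m = t := Nat.div_eq_of_eq_mul_right hm0 ht
      have hlt : Nat.card G / (m * t.minFac) < k := by
        rw [hd1, ← hk, hd2]
        have := hp.two_le
        nlinarith
      have h1 := ihk _ hlt (m * t.minFac) hmp rfl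
      have h2 := frob_step ih m t.minFac hp hmp
      have h3 : Nat.card {g : G // g ^ (m * t.minFac) = 1} =
          Nat.card {g : G // g ^ m = 1} +
            Nat.card {x : G // x ^ (m * t.minFac) = 1 ∧ x ^ m ≠ 1} := by
        classical
        haveI : Fintype G := Fintype.ofFinite G
        rw [← card_filter_eq_natCard, ← card_filter_eq_natCard, ← card_filter_eq_natCard,
          ← Finset.card_union_of_disjoint]
        · congr 1
          ext x
          simp only [Finset.mem_filter, Finset.mem_univ, true_and, Finset.mem_union]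
          constructor
          · intro h
            by_cases hx : x ^ m = 1
            · exact Or.inl hx
            · exact Or.inr ⟨h, hx⟩
          · rintro (h | h)
            · rw [pow_mul, h, one_pow]
            · exact h.1
        · rw [Finset.disjoint_left]
          intro x hx hx'
          simp only [Finset.mem_filter, Finset.mem_univ, true_and] at hx hx'
          exact hx'.2 hx
      have h4 : m ∣ Nat.card {g : G // g ^ (m * t.minFac) = 1} := (Dvd.intro _ rfl).trans h1
      rw [h3] at h4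
      exact (Nat.dvd_add_left h2).mp h4
  intro m hm
  exact key _ m hm rfl

theorem frobenius_dvd {G : Type u} [Group G] [Finite G] (m : ℕ) (hm : m ∣ Nat.card G) :
    m ∣ Nat.card {g : G // g ^ m = 1} :=
  frobenius_dvd_aux _ G rfl m hm

end Cfsg.Agent.Lib.Helper6
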