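import Mathlib
import Cfsg.Prelude.Def_ParabolicCharacters

set_option autoImplicit false

namespace Cfsg.Agent.Lib.Helper6

open Matrix

variable {F : Type*} [Field F]

local notation "MF" => Matrix (Fin 2) (Fin 2) F
local notation "QB" => GL (Fin 2) F ⧸ Cfsg.upperTriangularGL 2 F

theorem bt2_iff (M : Matrix (Fin 2) (Fin 2) F) : M.BlockTriangular id ↔ M 1 0 = 0 := by
  constructor
  · intro h
    exact h (by decide : (id (0 : Fin 2)) < id 1)
  · intro h i j hij
    have key : ∀ i j : Fin 2, j < i → i = 1 ∧ j = 0 := by decide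
    obtain ⟨rfl, rfl⟩ := key i j hij
    exact h

theorem gl2_det_ne (x : GL (Fin 2) F) :
    (x : MF) 0 0 * (x : MF) 1 1 - (x : MF) 0 1 * (x : MF) 1 0 ≠ 0 := by
  rw [← Matrix.det_fin_two]
  exact (Matrix.GeneralLinearGroup.det x).ne_zero

theorem mkq_eq_iff (x y : GL (Fin 2) F) :
    ((QuotientGroup.mk x : QB) = (QuotientGroup.mk y : QB)) ↔
      (x : MF) 0 0 * (y : MF) 1 0 = (x : MF) 1 0 * (y : MF) 0 0 := by
  rw [QuotientGroup.eq]
  show ((x⁻¹ * y : GL (Fin 2) F) : MF).BlockTriangular id ↔ _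
  rw [bt2_iff]
  have hy : (y : MF) = (x : MF) * ((x⁻¹ * y : GL (Fin 2) F) : MF) := by
    rw [← Matrix.GeneralLinearGroup.coe_mul, mul_inv_cancel_left]
  generalize ((x⁻¹ * y : GL (Fin 2) F) : MF) = h at hy ⊢
  have h00 : (y : MF) 0 0 = (x : MF) 0 0 * h 0 0 + (x : MF) 0 1 * h 1 0 := by
    rw [hy, Matrix.mul_apply, Fin.sum_univ_two]
  have h10 : (y : MF) 1 0 = (x : MF) 1 0 * h 0 0 + (x : MF) 1 1 * h 1 0 := by
    rw [hy, Matrix.mul_apply, Fin.sum_univ_two]
  have hd := gl2_det_ne x
  constructor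
  · intro h0
    rw [h00, h10, h0]; ring
  · intro hc
    rw [h00, h10] at hc
    have h2 : ((x : MF) 0 0 * (x : MF) 1 1 - (x : MF) 0 1 * (x : MF) 1 0) * h 1 0 = 0 := by
      linear_combination hc
    exact (mul_eq_zero.1 h2).resolve_left hd

theorem fix_iff (g x : GL (Fin 2) F) :
    (QuotientGroup.mk x : QB) ∈ MulAction.fixedBy QB g ↔
      ((g : MF) 0 0 * (x : MF) 0 0 + (g : MF) 0 1 * (x : MF) 1 0) * (x : MF) 1 0
      = ((g : MF) 1 0 * (x : MF) 0 0 + (g : MF) 1 1 * (x : MF) 1 0) * (x : MF) 0 0 := by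
  rw [MulAction.mem_fixedBy]
  show (QuotientGroup.mk (g * x) : QB) = _ ↔ _
  rw [mkq_eq_iff, Matrix.GeneralLinearGroup.coe_mul, Matrix.mul_apply, Matrix.mul_apply,
    Fin.sum_univ_two, Fin.sum_univ_two]

noncomputable def gl2m (t : F) : GL (Fin 2) F :=
  Matrix.GeneralLinearGroup.mkOfDetNeZero !![t, 1; 1, 0] (by simp [Matrix.det_fin_two])

theorem gl2m_coe (t : F) : ((gl2m t : GL (Fin 2) F) : MF) = !![t, 1; 1, 0] := rfl

theorem mk_one_eq_iff (x : GL (Fin 2) F) :
    (QuotientGroup.mk 1 : QB) = (QuotientGroup.mk x : QB) ↔ (x : MF) 1 0 = 0 := by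
  rw [mkq_eq_iff]
  simp

theorem mk_m_eq_iff (t : F) (x : GL (Fin 2) F) :
    (QuotientGroup.mk (gl2m t) : QB) = (QuotientGroup.mk x : QB) ↔
      t * (x : MF) 1 0 = (x : MF) 0 0 := by
  rw [mkq_eq_iff, gl2m_coe]
  simp

theorem gl2_index [Fintype F] : Nat.card QB = Fintype.card F + 1 := by
  classical
  let ψ : Option F → QB := fun o => match o with
    | none => (QuotientGroup.mk 1 : QB)
    | some t => (QuotientGroup.mk (gl2m t) : QB)
  have hbij : Function.Bijective ψ := by
    constructor
    · intro o1 o2 h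
      rcases o1 with _ | t1 <;> rcases o2 with _ | t2
      · rfl
      · exfalso
        have h' : (QuotientGroup.mk 1 : QB) = (QuotientGroup.mk (gl2m t2) : QB) := h
        rw [mk_one_eq_iff, gl2m_coe] at h'
        simp at h'
      · exfalso
        have h' : (QuotientGroup.mk 1 : QB) = (QuotientGroup.mk (gl2m t1) : QB) := h.symm
        rw [mk_one_eq_iff, gl2m_coe] at h'
        simp at h'
      · have h' : (QuotientGroup.mk (gl2m t1) : QB) = (QuotientGroup.mk (gl2m t2) : QB) := h
        rw [mk_m_eq_iff, gl2m_coe] at h'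
        simp at h'
        rw [h']
    · intro q
      obtain ⟨x, rfl⟩ := QuotientGroup.mk_surjective q
      by_cases hc : (x : MF) 1 0 = 0
      · exact ⟨none, (mk_one_eq_iff x).2 hc⟩
      · refine ⟨some ((x : MF) 0 0 / (x : MF) 1 0), (mk_m_eq_iff _ x).2 ?_⟩
        field_simp
  rw [← Nat.card_congr (Equiv.ofBijective ψ hbij), Nat.card_eq_fintype_card, Fintype.card_option]

theorem gl2_fixed [Fintype F] (g : Matrix.GeneralLinearGroup (Fin 2) F) :
    ((∃ a : F, (g : Matrix (Fin 2) (Fin 2) F) = a • (1 : Matrix (Fin 2) (Fin 2) F)) → Cfsg.fixedPointCharacter (Cfsg.upperTriangularGL 2 F) g = Fintype.card F + 1) ∧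
    ((g : Matrix (Fin 2) (Fin 2) F) 0 1 = 0 → (g : Matrix (Fin 2) (Fin 2) F) 1 0 = 0 → (g : Matrix (Fin 2) (Fin 2) F) 0 0 ≠ (g : Matrix (Fin 2) (Fin 2) F) 1 1 →
      Cfsg.fixedPointCharacter (Cfsg.upperTriangularGL 2 F) g = 2) ∧
    ((∀ (c : F) (v : Fin 2 → F), v ≠ 0 → (g : Matrix (Fin 2) (Fin 2) F).mulVec v ≠ c • v) → Cfsg.fixedPointCharacter (Cfsg.upperTriangularGL 2 F) g = 0) ∧
    ((g : Matrix (Fin 2) (Fin 2) F) 1 0 = 0 → (g : Matrix (Fin 2) (Fin 2) F) 0 0 = (g : Matrix (Fin 2) (Fin 2) F) 1 1 → (g : Matrix (Fin 2) (Fin 2) F) 0 1 ≠ 0 →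
      Cfsg.fixedPointCharacter (Cfsg.upperTriangularGL 2 F) g = 1) := by
  refine ⟨?_, ?_, ?_, ?_⟩
  · rintro ⟨a, ha⟩
    have hfix : MulAction.fixedBy QB g = Set.univ := by
      ext q
      obtain ⟨x, rfl⟩ := QuotientGroup.mk_surjective q
      simp only [Set.mem_univ, iff_true]
      rw [fix_iff, ha]
      simp only [Matrix.smul_apply, Matrix.one_apply_eq, Matrix.one_apply_ne, ne_eq, zero_ne_one,
        one_ne_zero, not_false_eq_true, smul_eq_mul, mul_one, mul_zero, zero_mul, add_zero, zero_add]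
      ring
    unfold Cfsg.fixedPointCharacter
    rw [hfix, Nat.card_coe_set_eq, Set.ncard_univ, gl2_index]
    push_cast
    rfl
  · intro h01 h10 hne
    have hfix : MulAction.fixedBy QB g = {(QuotientGroup.mk 1 : QB), (QuotientGroup.mk (gl2m 0) : QB)} := by
      ext q
      obtain ⟨x, rfl⟩ := QuotientGroup.mk_surjective q
      rw [fix_iff, h01, h10, Set.mem_insert_iff, Set.mem_singleton_iff,
        eq_comm (a := (QuotientGroup.mk x : QB)), mk_one_eq_iff,
        eq_comm (a := (QuotientGroup.mk x : QB)), mk_m_eq_iff]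
      constructor
      · intro h
        have h2 : ((g : MF) 0 0 - (g : MF) 1 1) * ((x : MF) 0 0 * (x : MF) 1 0) = 0 := by
          linear_combination h
        rcases mul_eq_zero.1 h2 with h1 | h1
        · exact absurd (sub_eq_zero.1 h1) hne
        · rcases mul_eq_zero.1 h1 with h3 | h3
          · right; rw [h3, zero_mul]
          · left; exact h3
      · rintro (h | h)
        · rw [h]; ring
        · rw [zero_mul] at h
          rw [← h]; ring
    have hne' : (QuotientGroup.mk 1 : QB) ≠ (QuotientGroup.mk (gl2m 0) : QB) := by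
      rw [Ne, mk_one_eq_iff, gl2m_coe]
      simp
    unfold Cfsg.fixedPointCharacter
    rw [hfix, Nat.card_coe_set_eq, Set.ncard_pair hne']
    norm_num
  · intro hno
    have hfix : MulAction.fixedBy QB g = ∅ := by
      ext q
      obtain ⟨x, rfl⟩ := QuotientGroup.mk_surjective q
      simp only [Set.mem_empty_iff_false, iff_false]
      rw [fix_iff]
      intro hc
      have hd := gl2_det_ne x
      by_cases ha : (x : MF) 0 0 = 0
      · have hc0 : (x : MF) 1 0 ≠ 0 := by
          intro h
          apply hd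
          rw [ha, h]; ring
        have hg01 : (g : MF) 0 1 = 0 := by
          rw [ha] at hc
          have h2 : (g : MF) 0 1 * ((x : MF) 1 0 * (x : MF) 1 0) = 0 := by linear_combination hc
          rcases mul_eq_zero.1 h2 with h1 | h1
          · exact h1
          · exact absurd (mul_self_eq_zero.1 h1) hc0
        apply hno ((g : MF) 1 1) ![(x : MF) 0 0, (x : MF) 1 0] (by
          intro h
          apply hc0
          have := congrFun h 1
          simpa using this)
        ext i
        fin_cases i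
        · simp [Matrix.mulVec, dotProduct, Fin.sum_univ_two, ha, hg01]
        · simp [Matrix.mulVec, dotProduct, Fin.sum_univ_two, ha]
      · apply hno (((g : MF) 0 0 * (x : MF) 0 0 + (g : MF) 0 1 * (x : MF) 1 0) / (x : MF) 0 0)
          ![(x : MF) 0 0, (x : MF) 1 0] (by
          intro h
          apply ha
          have := congrFun h 0
          simpa using this)
        ext i
        fin_cases i
        · simp [Matrix.mulVec, dotProduct, Fin.sum_univ_two]
          field_simp
        · simp [Matrix.mulVec, dotProduct, Fin.sum_univ_two]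
          field_simp
          linear_combination (-1 : F) * hc
    unfold Cfsg.fixedPointCharacter
    rw [hfix]
    simp
  · intro h10 heq hne
    have hfix : MulAction.fixedBy QB g = {(QuotientGroup.mk 1 : QB)} := by
      ext q
      obtain ⟨x, rfl⟩ := QuotientGroup.mk_surjective q
      rw [fix_iff, h10, heq, Set.mem_singleton_iff,
        eq_comm (a := (QuotientGroup.mk x : QB)), mk_one_eq_iff]
      constructor
      · intro h
        have h2 : (g : MF) 0 1 * ((x : MF) 1 0 * (x : MF) 1 0) = 0 := by linear_combination h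
        rcases mul_eq_zero.1 h2 with h1 | h1
        · exact absurd h1 hne
        · exact mul_self_eq_zero.1 h1
      · intro h
        rw [h]; ring
    unfold Cfsg.fixedPointCharacter
    rw [hfix, Nat.card_coe_set_eq, Set.ncard_singleton]
    norm_num

end Cfsg.Agent.Lib.Helper6
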