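import Mathlib

set_option autoImplicit false

namespace Cfsg.Agent.Lib.Helper6

section Homocyclic

variable {G : Type*} [Group G]

theorem hc_conj_pow_mul (x y t : G) (h1 : x * t * x⁻¹ = t) (h2 : x * y * x⁻¹ = y * t) (n : ℕ) :
    x ^ n * y * (x ^ n)⁻¹ = y * t ^ n := by
  induction n with
  | zero => simp
  | succ n ih =>
    have e1 : x ^ (n + 1) * y * (x ^ (n + 1))⁻¹ = x * (x ^ n * y * (x ^ n)⁻¹) * x⁻¹ := by
      rw [pow_succ']; simp only [mul_inv_rev, mul_assoc]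
    rw [e1, ih]
    have e2 : x * (y * t ^ n) * x⁻¹ = (x * y * x⁻¹) * (x * t * x⁻¹) ^ n := by
      rw [conj_pow]; simp only [mul_assoc, inv_mul_cancel_left]
    rw [e2, h1, h2, pow_succ', mul_assoc]

theorem hc_L1 (P : Subgroup G) (hPab : ∀ a ∈ P, ∀ b ∈ P, a * b = b * a)
    (hP2 : ∀ a ∈ P, ∃ k : ℕ, a ^ (2 ^ k) = 1)
    (x : G) (hxN : ∀ a ∈ P, x * a * x⁻¹ ∈ P) (r : ℕ) (hr : Odd r)
    (hxr : ∀ a ∈ P, x ^ r * a * (x ^ r)⁻¹ = a)
    (hI : ∀ t ∈ P, t * t = 1 → x * t * x⁻¹ = t) :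
    ∀ a ∈ P, x * a * x⁻¹ = a := by
  have key : ∀ k : ℕ, ∀ a ∈ P, a ^ (2 ^ k) = 1 → x * a * x⁻¹ = a := by
    intro k
    induction k with
    | zero =>
      intro a ha h
      have h1 : a = 1 := by simpa using h
      subst h1; simp
    | succ k ih =>
      intro a ha h
      have h2 : (a * a) ^ (2 ^ k) = 1 := by
        rw [← pow_two, ← pow_mul, ← pow_succ']; exact h
      have h3 := ih (a * a) (P.mul_mem ha ha) h2
      obtain ⟨t, ht⟩ : ∃ t, t = a⁻¹ * (x * a * x⁻¹) := ⟨_, rfl⟩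
      have htP : t ∈ P := by rw [ht]; exact P.mul_mem (P.inv_mem ha) (hxN a ha)
      have ht2 : t * t = 1 := by
        have hc := hPab _ (hxN a ha) _ (P.inv_mem ha)
        have e1 : t * t = a⁻¹ * ((x * a * x⁻¹) * a⁻¹) * (x * a * x⁻¹) := by
          rw [ht]; simp only [mul_assoc]
        rw [e1, hc]
        have e2 : a⁻¹ * (a⁻¹ * (x * a * x⁻¹)) * (x * a * x⁻¹) = a⁻¹ * a⁻¹ * (x * (a * a) * x⁻¹) := by
          simp only [mul_assoc, inv_mul_cancel_left]
        rw [e2, h3]; simp only [mul_assoc, inv_mul_cancel_left, inv_mul_cancel]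
      have hxt := hI t htP ht2
      have hxa : x * a * x⁻¹ = a * t := by rw [ht]; simp only [mul_assoc, mul_inv_cancel_left]
      have h5 := hc_conj_pow_mul x a t hxt hxa r
      rw [hxr a ha] at h5
      have htr : t ^ r = 1 := by
        have : a * 1 = a * t ^ r := by rw [mul_one]; exact h5
        exact (mul_left_cancel this).symm
      obtain ⟨q, rfl⟩ := hr
      have ht1 : t = 1 := by
        rw [pow_succ, pow_mul, pow_two, ht2, one_pow, one_mul] at htr; exact htr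
      rw [hxa, ht1, mul_one]
  intro a ha
  obtain ⟨k, hk⟩ := hP2 a ha
  exact key k a ha hk

theorem hc_L2 [DecidableEq G] (I : Finset G) (hI3 : I.card = 3) (x : G)
    (hxI : ∀ s ∈ I, x * s * x⁻¹ ∈ I) (r : ℕ) (hr : Odd r)
    (hxr : ∀ s ∈ I, x ^ r * s * (x ^ r)⁻¹ = s)
    (t : G) (ht : t ∈ I) (hxt : x * t * x⁻¹ = t) :
    ∀ s ∈ I, x * s * x⁻¹ = s := by
  intro s hs
  by_contra hne
  obtain ⟨s', hs'⟩ : ∃ s', s' = x * s * x⁻¹ := ⟨_, rfl⟩
  have hne' : s' ≠ s := by rw [hs']; exact hne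
  have hs'I : s' ∈ I := by rw [hs']; exact hxI s hs
  have hinj : ∀ a b : G, x * a * x⁻¹ = x * b * x⁻¹ → a = b := by
    intro a b h
    have := mul_right_cancel h
    exact mul_left_cancel this
  have hst : s ≠ t := by rintro rfl; exact hne hxt
  have hs't : s' ≠ t := by
    intro h
    apply hst
    apply hinj
    rw [← hs', h, hxt]
  have hIeq : ({t, s, s'} : Finset G) = I := by
    apply Finset.eq_of_subset_of_card_le
    · intro y hy
      simp only [Finset.mem_insert, Finset.mem_singleton] at hy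
      rcases hy with rfl | rfl | rfl <;> assumption
    · rw [hI3, Finset.card_insert_of_notMem, Finset.card_insert_of_notMem, Finset.card_singleton]
      · simp only [Finset.mem_singleton]; exact fun h => hne' h.symm
      · simp only [Finset.mem_insert, Finset.mem_singleton, not_or]
        exact ⟨fun h => hst h.symm, fun h => hs't h.symm⟩
  have hs'' : x * s' * x⁻¹ = s := by
    have h1 : x * s' * x⁻¹ ∈ I := hxI s' hs'I
    rw [← hIeq] at h1
    simp only [Finset.mem_insert, Finset.mem_singleton] at h1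
    rcases h1 with h | h | h
    · exfalso; apply hs't
      apply hinj
      rw [h, hxt]
    · exact h
    · exfalso; apply hne'
      apply hinj
      rw [h, hs']
  have hpow : ∀ n : ℕ, x ^ (2 * n + 1) * s * (x ^ (2 * n + 1))⁻¹ = s' := by
    intro n
    induction n with
    | zero => simp [hs']
    | succ n ih =>
      have e1 : x ^ (2 * (n + 1) + 1) * s * (x ^ (2 * (n + 1) + 1))⁻¹
          = x * (x * (x ^ (2 * n + 1) * s * (x ^ (2 * n + 1))⁻¹) * x⁻¹) * x⁻¹ := by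
        have e0 : 2 * (n + 1) + 1 = (2 * n + 1) + 1 + 1 := by ring
        rw [e0, pow_succ' x (2 * n + 1 + 1), pow_succ' x (2 * n + 1)]
        simp only [mul_inv_rev, mul_assoc]
      rw [e1, ih, hs'', ← hs']
  obtain ⟨q, rfl⟩ := hr
  have h6 := hpow q
  rw [hxr s hs] at h6
  exact hne' h6.symm

theorem hc_zmod (m : ℕ) (hm : 1 ≤ m) (a : ZMod (2 ^ m)) (ha : a + a = 0) :
    a = 0 ∨ a = ((2 ^ (m - 1) : ℕ) : ZMod (2 ^ m)) := by
  haveI : NeZero (2 ^ m) := ⟨by positivity⟩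
  have h1 : ((a.val + a.val : ℕ) : ZMod (2 ^ m)) = 0 := by
    rw [Nat.cast_add, ZMod.natCast_zmod_val]; exact ha
  rw [ZMod.natCast_eq_zero_iff] at h1
  have h2 : 2 ^ m = 2 * 2 ^ (m - 1) := by
    rw [← pow_succ']; congr 1; omega
  obtain ⟨v, hv⟩ : ∃ v : ℕ, v = a.val := ⟨_, rfl⟩
  have ha' : a = ((v : ℕ) : ZMod (2 ^ m)) := by rw [hv]; exact (ZMod.natCast_zmod_val a).symm
  have h3 : v < 2 ^ m := by rw [hv]; exact ZMod.val_lt a
  have h1' : 2 ^ m ∣ v + v := by rw [hv]; exact h1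
  obtain ⟨c, hc⟩ := h1'
  have hpos : 0 < 2 ^ (m - 1) := by positivity
  have hv2 : v = 2 ^ (m - 1) * c := by
    have : 2 * v = 2 * (2 ^ (m - 1) * c) := by rw [← mul_assoc, ← h2, ← hc]; ring
    omega
  have hc2 : c < 2 := by
    by_contra hcon
    push Not at hcon
    have h5 : 2 ^ (m - 1) * 2 ≤ 2 ^ (m - 1) * c := Nat.mul_le_mul_left _ hcon
    omega
  interval_cases c
  · left; rw [ha', hv2]; simp
  · right; rw [ha', hv2]; simp

theorem hc_zmod_ne (m : ℕ) (hm : 1 ≤ m) : ((2 ^ (m - 1) : ℕ) : ZMod (2 ^ m)) ≠ 0 := by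
  intro h
  rw [ZMod.natCast_eq_zero_iff] at h
  have h1 := Nat.le_of_dvd (by positivity) h
  have h2 : 2 ^ (m - 1) < 2 ^ m := Nat.pow_lt_pow_right (by norm_num) (by omega)
  omega

theorem hc_zmod_add (m : ℕ) (hm : 1 ≤ m) :
    ((2 ^ (m - 1) : ℕ) : ZMod (2 ^ m)) + ((2 ^ (m - 1) : ℕ) : ZMod (2 ^ m)) = 0 := by
  rw [← Nat.cast_add, ZMod.natCast_eq_zero_iff]
  have h2 : 2 ^ m = 2 * 2 ^ (m - 1) := by
    rw [← pow_succ']; congr 1; omega
  rw [h2]; exact ⟨1, by ring⟩

theorem hc_main {G : Type*} [Group G] [Finite G] (P : Sylow 2 G) (m : ℕ) (hm : 1 ≤ m)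
    (e : (P : Subgroup G) ≃* Multiplicative (ZMod (2 ^ m) × ZMod (2 ^ m))) :
    ((Subgroup.centralizer ((P : Subgroup G) : Set G)).relIndex
        (Subgroup.normalizer ((P : Subgroup G) : Set G)) = 1 ∨
      (Subgroup.centralizer ((P : Subgroup G) : Set G)).relIndex
        (Subgroup.normalizer ((P : Subgroup G) : Set G)) = 3) ∧
    (∀ z ∈ (P : Subgroup G), z ≠ 1 →
      Subgroup.centralizer ({z} : Set G) ⊓ Subgroup.normalizer ((P : Subgroup G) : Set G)
        = Subgroup.centralizer ((P : Subgroup G) : Set G)) := by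
  classical
  have hPab : ∀ a ∈ (P : Subgroup G), ∀ b ∈ (P : Subgroup G), a * b = b * a := by
    intro a ha b hb
    have h1 : e (⟨a, ha⟩ * ⟨b, hb⟩) = e (⟨b, hb⟩ * ⟨a, ha⟩) := by
      rw [map_mul, map_mul, mul_comm]
    have h2 := e.injective h1
    exact congrArg Subtype.val h2
  have hP2 : ∀ a ∈ (P : Subgroup G), ∃ k : ℕ, a ^ (2 ^ k) = 1 := by
    intro a ha
    obtain ⟨k, hk⟩ := P.isPGroup' ⟨a, ha⟩
    exact ⟨k, by simpa using congrArg Subtype.val hk⟩
  have hxr0 : ∀ x ∈ Subgroup.normalizer ((P : Subgroup G) : Set G),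
      x ^ ((Subgroup.centralizer ((P : Subgroup G) : Set G)).relIndex
        (Subgroup.normalizer ((P : Subgroup G) : Set G)))
        ∈ Subgroup.centralizer ((P : Subgroup G) : Set G) := by
    intro x hx
    have h := Subgroup.pow_index_mem ((Subgroup.centralizer ((P : Subgroup G) : Set G)).subgroupOf
      (Subgroup.normalizer ((P : Subgroup G) : Set G))) ⟨x, hx⟩
    rw [Subgroup.mem_subgroupOf] at h
    simpa [Subgroup.relIndex] using h
  obtain ⟨N, hN⟩ : ∃ N : Subgroup G, N = Subgroup.normalizer ((P : Subgroup G) : Set G) := ⟨_, rfl⟩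
  obtain ⟨C, hC⟩ : ∃ C : Subgroup G, C = Subgroup.centralizer ((P : Subgroup G) : Set G) := ⟨_, rfl⟩
  rw [← hN, ← hC] at hxr0 ⊢
  have hPC : (P : Subgroup G) ≤ C := by
    intro a ha
    rw [hC, Subgroup.mem_centralizer_iff]
    intro b hb
    exact hPab b hb a ha
  have hCN : C ≤ N := by rw [hC, hN]; exact Subgroup.centralizer_le_normalizer _
  obtain ⟨r, hrdef⟩ : ∃ r : ℕ, r = C.relIndex N := ⟨_, rfl⟩
  rw [← hrdef] at hxr0 ⊢
  have hr : Odd r := by
    have h1 : r ∣ (P : Subgroup G).index := by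
      have h2 := Subgroup.relIndex_mul_relIndex (P : Subgroup G) C N hPC hCN
      have h3 := Subgroup.relIndex_dvd_index_of_le (hPC.trans hCN)
      rw [hrdef]
      exact (Dvd.intro_left _ h2).trans h3
    have h4 : ¬ 2 ∣ (P : Subgroup G).index := P.not_dvd_index
    rw [← Nat.not_even_iff_odd, even_iff_two_dvd]
    exact fun h => h4 (h.trans h1)
  obtain ⟨h, hh⟩ : ∃ h : ZMod (2 ^ m), h = ((2 ^ (m - 1) : ℕ) : ZMod (2 ^ m)) := ⟨_, rfl⟩
  have hh0 : h ≠ 0 := by rw [hh]; exact hc_zmod_ne m hm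
  have hhh : h + h = 0 := by rw [hh]; exact hc_zmod_add m hm
  obtain ⟨ψ, hψdef⟩ : ∃ ψ : ZMod (2 ^ m) × ZMod (2 ^ m) → (P : Subgroup G),
      ψ = fun v => e.symm (Multiplicative.ofAdd v) := ⟨_, rfl⟩
  have hψmul : ∀ v w, ψ (v + w) = ψ v * ψ w := by
    intro v w; rw [hψdef]; simp only [ofAdd_add, map_mul]
  have hψ0 : ψ 0 = 1 := by rw [hψdef]; simp only [ofAdd_zero, map_one]
  have hψinj : Function.Injective ψ := by
    intro v w hvw
    rw [hψdef] at hvw
    have := e.symm.injective hvw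
    exact Multiplicative.ofAdd.injective this
  have hψsurj : ∀ u : (P : Subgroup G), ∃ v, ψ v = u := by
    intro u
    exact ⟨Multiplicative.toAdd (e u), by rw [hψdef]; simp⟩
  have hchar : ∀ s ∈ (P : Subgroup G), s * s = 1 → s ≠ 1 →
      s = (ψ (h, 0) : G) ∨ s = (ψ (0, h) : G) ∨ s = (ψ (h, h) : G) := by
    intro s hs hss hs1
    obtain ⟨v, hv⟩ := hψsurj ⟨s, hs⟩
    have hv2 : v + v = 0 := by
      apply hψinj
      rw [hψmul, hψ0, hv]
      exact Subtype.ext hss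
    have hv0 : v ≠ 0 := by
      rintro rfl
      rw [hψ0] at hv
      exact hs1 (congrArg Subtype.val hv).symm
    obtain ⟨a, b⟩ := v
    have ha : a + a = 0 := congrArg Prod.fst hv2
    have hb : b + b = 0 := congrArg Prod.snd hv2
    have hsv : s = (ψ (a, b) : G) := (congrArg Subtype.val hv).symm
    rcases hc_zmod m hm a ha with ha' | ha' <;> rcases hc_zmod m hm b hb with hb' | hb'
    · exact absurd (by rw [ha', hb']; rfl) hv0
    · right; left; rw [hsv, ha', hb', ← hh]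
    · left; rw [hsv, ha', hb', ← hh]
    · right; right; rw [hsv, ha', hb', ← hh]
  have hmem : ∀ v : ZMod (2 ^ m) × ZMod (2 ^ m), v + v = 0 → v ≠ 0 →
      ((ψ v : G) ∈ (P : Subgroup G) ∧ (ψ v : G) * (ψ v : G) = 1 ∧ (ψ v : G) ≠ 1) := by
    intro v hv2 hv0
    refine ⟨(ψ v).2, ?_, ?_⟩
    · have h1 : ψ v * ψ v = 1 := by rw [← hψmul, hv2, hψ0]
      exact congrArg Subtype.val h1
    · intro h1
      apply hv0
      apply hψinj
      rw [hψ0]
      exact Subtype.ext h1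
  have hv1 : ((h, 0) : ZMod (2 ^ m) × ZMod (2 ^ m)) + (h, 0) = 0 := by
    rw [Prod.mk_add_mk, hhh, add_zero]; rfl
  have hv2 : ((0, h) : ZMod (2 ^ m) × ZMod (2 ^ m)) + (0, h) = 0 := by
    rw [Prod.mk_add_mk, hhh, add_zero]; rfl
  have hv3 : ((h, h) : ZMod (2 ^ m) × ZMod (2 ^ m)) + (h, h) = 0 := by
    rw [Prod.mk_add_mk, hhh]; rfl
  have hn1 : ((h, 0) : ZMod (2 ^ m) × ZMod (2 ^ m)) ≠ 0 := fun hc => hh0 (congrArg Prod.fst hc)
  have hn2 : ((0, h) : ZMod (2 ^ m) × ZMod (2 ^ m)) ≠ 0 := fun hc => hh0 (congrArg Prod.snd hc)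
  have hn3 : ((h, h) : ZMod (2 ^ m) × ZMod (2 ^ m)) ≠ 0 := fun hc => hh0 (congrArg Prod.fst hc)
  have hd12 : (ψ (h, 0) : G) ≠ (ψ (0, h) : G) := by
    intro hc
    have h1 := hψinj (Subtype.ext hc)
    exact hh0 (congrArg Prod.fst h1)
  have hd13 : (ψ (h, 0) : G) ≠ (ψ (h, h) : G) := by
    intro hc
    have h1 := hψinj (Subtype.ext hc)
    exact hh0 (congrArg Prod.snd h1).symm
  have hd23 : (ψ (0, h) : G) ≠ (ψ (h, h) : G) := by
    intro hc
    have h1 := hψinj (Subtype.ext hc)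
    exact hh0 (congrArg Prod.fst h1).symm
  obtain ⟨I, hIdef⟩ : ∃ I : Finset G,
      I = {(ψ (h, 0) : G), (ψ (0, h) : G), (ψ (h, h) : G)} := ⟨_, rfl⟩
  have hI3 : I.card = 3 := by
    rw [Finset.card_eq_three]
    exact ⟨_, _, _, hd12, hd13, hd23, hIdef⟩
  have hIchar : ∀ s : G, s ∈ I ↔ (s ∈ (P : Subgroup G) ∧ s * s = 1 ∧ s ≠ 1) := by
    intro s
    rw [hIdef]
    simp only [Finset.mem_insert, Finset.mem_singleton]
    constructor
    · rintro (h1 | h1 | h1)
      · rw [h1]; exact hmem _ hv1 hn1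
      · rw [h1]; exact hmem _ hv2 hn2
      · rw [h1]; exact hmem _ hv3 hn3
    · rintro ⟨h1, h2, h3⟩
      exact hchar s h1 h2 h3
  have hNP : ∀ x ∈ N, ∀ a ∈ (P : Subgroup G), x * a * x⁻¹ ∈ (P : Subgroup G) := by
    intro x hx a ha
    rw [hN, Subgroup.mem_set_normalizer_iff] at hx
    exact (hx a).mp ha
  have hxI : ∀ x ∈ N, ∀ s ∈ I, x * s * x⁻¹ ∈ I := by
    intro x hx s hs
    rw [hIchar] at hs ⊢
    refine ⟨hNP x hx s hs.1, ?_, ?_⟩
    · have h1 : x * s * x⁻¹ * (x * s * x⁻¹) = x * (s * s) * x⁻¹ := by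
        simp only [mul_assoc, inv_mul_cancel_left]
      rw [h1, hs.2.1]; simp
    · intro h1
      apply hs.2.2
      have h2 : x * s * x⁻¹ = x * 1 * x⁻¹ := by rw [h1]; simp
      exact mul_left_cancel (mul_right_cancel h2)
  have hkey : ∀ x ∈ N, ∀ t ∈ I, x * t * x⁻¹ = t → x ∈ C := by
    intro x hx t ht hxt
    have hcent : ∀ a ∈ (P : Subgroup G), x ^ r * a * (x ^ r)⁻¹ = a := by
      intro a ha
      have h1 := hxr0 x hx
      rw [hC, Subgroup.mem_centralizer_iff] at h1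
      have h2 := h1 a ha
      rw [← h2]; simp
    have hall := hc_L2 I hI3 x (hxI x hx) r hr (fun s hs => hcent s ((hIchar s).mp hs).1) t ht hxt
    have hall2 := hc_L1 (P : Subgroup G) hPab hP2 x (hNP x hx) r hr hcent (by
      intro t' ht' ht'2
      by_cases h1 : t' = 1
      · rw [h1]; simp
      · exact hall t' ((hIchar t').mpr ⟨ht', ht'2, h1⟩))
    rw [hC, Subgroup.mem_centralizer_iff]
    intro a ha
    have h3 := hall2 a ha
    calc a * x = (x * a * x⁻¹) * x := by rw [h3]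
      _ = x * a := by simp only [mul_assoc, inv_mul_cancel, mul_one]
  have ht₁I : (ψ (h, 0) : G) ∈ I := (hIchar _).mpr (hmem _ hv1 hn1)
  have hr3 : r ≤ 3 := by
    let F : N ⧸ (C.subgroupOf N) → {s : G // s ∈ I} :=
      Quotient.lift (fun x : N =>
        (⟨(x : G) * (ψ (h, 0) : G) * (x : G)⁻¹, hxI x x.2 _ ht₁I⟩ : {s : G // s ∈ I})) (by
        intro a b hab
        have hab' : a⁻¹ * b ∈ C.subgroupOf N := QuotientGroup.leftRel_apply.mp hab
        rw [Subgroup.mem_subgroupOf, hC, Subgroup.mem_centralizer_iff] at hab'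
        have h1 := hab' (ψ (h, 0) : G) (ψ (h, 0)).2
        apply Subtype.ext
        show (a : G) * (ψ (h, 0) : G) * (a : G)⁻¹ = (b : G) * (ψ (h, 0) : G) * (b : G)⁻¹
        have h2 : (ψ (h, 0) : G) * ((a : G)⁻¹ * (b : G)) = ((a : G)⁻¹ * (b : G)) * (ψ (h, 0) : G) := h1
        have h3 : (b : G) * (ψ (h, 0) : G) * (b : G)⁻¹
            = (a : G) * (((a : G)⁻¹ * (b : G)) * (ψ (h, 0) : G)) * (b : G)⁻¹ := by
          simp only [mul_assoc, mul_inv_cancel_left]
        rw [h3, ← h2]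
        simp only [mul_assoc, mul_inv_cancel, mul_one])
    have hF : Function.Injective F := by
      intro q₁ q₂
      refine Quotient.inductionOn₂ q₁ q₂ ?_
      intro a b hab
      apply Quotient.sound
      apply QuotientGroup.leftRel_apply.mpr
      rw [Subgroup.mem_subgroupOf]
      have h1 : (a : G) * (ψ (h, 0) : G) * (a : G)⁻¹ = (b : G) * (ψ (h, 0) : G) * (b : G)⁻¹ :=
        congrArg Subtype.val hab
      have h2 : ((a⁻¹ * b : N) : G) = (a : G)⁻¹ * (b : G) := rfl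
      rw [h2]
      apply hkey _ (N.mul_mem (N.inv_mem a.2) b.2) _ ht₁I
      have h3 : (a : G)⁻¹ * (b : G) * (ψ (h, 0) : G) * ((a : G)⁻¹ * (b : G))⁻¹
          = (a : G)⁻¹ * ((b : G) * (ψ (h, 0) : G) * (b : G)⁻¹) * (a : G) := by
        simp only [mul_inv_rev, inv_inv, mul_assoc]
      rw [h3, ← h1]
      simp only [mul_assoc, inv_mul_cancel_left, inv_mul_cancel, mul_one]
    have h5 := Nat.card_le_card_of_injective F hF
    have h6 : Nat.card {s : G // s ∈ I} = 3 := by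
      rw [Nat.card_eq_fintype_card, Fintype.card_coe, hI3]
    have h7 : Nat.card (N ⧸ (C.subgroupOf N)) = r := by rw [hrdef]; rfl
    rw [h6, h7] at h5
    exact h5
  refine ⟨?_, ?_⟩
  · obtain ⟨q, hq⟩ := hr
    omega
  · intro z hz hz1
    apply le_antisymm
    · intro x hx
      obtain ⟨hx1, hx2⟩ := Subgroup.mem_inf.mp hx
      have hex : ∃ k, z ^ (2 ^ k) = 1 := hP2 z hz
      obtain ⟨k0, hk0, hmin⟩ : ∃ k0, z ^ (2 ^ k0) = 1 ∧ ∀ j < k0, z ^ (2 ^ j) ≠ 1 :=
        ⟨Nat.find hex, Nat.find_spec hex, fun j hj => Nat.find_min hex hj⟩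
      cases k0 with
      | zero => exact absurd (by simpa using hk0) hz1
      | succ k1 =>
        have ht1 : z ^ (2 ^ k1) ≠ 1 := hmin k1 (Nat.lt_succ_self _)
        have ht2 : z ^ (2 ^ k1) * z ^ (2 ^ k1) = 1 := by
          rw [← pow_add, ← two_mul, ← pow_succ']; exact hk0
        have htI : z ^ (2 ^ k1) ∈ I := (hIchar _).mpr ⟨Subgroup.pow_mem _ hz _, ht2, ht1⟩
        have hxz : x * z * x⁻¹ = z := by
          rw [Subgroup.mem_centralizer_iff] at hx1
          have h1 := hx1 z (Set.mem_singleton z)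
          rw [← h1]; simp
        have hxt : x * z ^ (2 ^ k1) * x⁻¹ = z ^ (2 ^ k1) := by rw [← conj_pow, hxz]
        exact hkey x hx2 _ htI hxt
    · rw [hC, hN]
      exact le_inf (Subgroup.centralizer_le (Set.singleton_subset_iff.mpr hz))
        (Subgroup.centralizer_le_normalizer _)

end Homocyclic

end Cfsg.Agent.Lib.Helper6
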