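import Mathlib
import Cfsg.Prelude.Def_Characters
import Cfsg.Agent.Lib.Lead.Brauer5
import Cfsg.Agent.Lib.Lead.Char9

/-!
# The `p`-regular part of a character, scaled by the `p`-part of the group order, is a
generalized character
-/

set_option autoImplicit false

namespace Cfsg.Agent.Lib.Helper6

open Cfsg.Agent.Lib

/-- a normal subgroup of `p'`-order and `p`-power index consists of the `p`-regular elements -/
theorem preg_mem_iff {E : Type*} [Group E] [Finite E] {p : ℕ} (hp : p.Prime) (Q : Subgroup E)
    [Q.Normal] (hcop : ¬ p ∣ Nat.card Q) {j : ℕ} (hidx : Q.index = p ^ j) (e : E) :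
    e ∈ Q ↔ ¬ p ∣ orderOf e := by
  constructor
  · intro he hdvd
    exact hcop (hdvd.trans (Subgroup.orderOf_dvd_natCard Q he))
  · intro hnd
    have h1 : orderOf (QuotientGroup.mk' Q e) ∣ orderOf e := orderOf_map_dvd _ e
    have h2 : orderOf (QuotientGroup.mk' Q e) ∣ p ^ j := by
      rw [← hidx]
      exact orderOf_dvd_natCard _
    obtain ⟨i, -, hi⟩ := (Nat.dvd_prime_pow hp).mp h2
    have hi0 : i = 0 := by
      by_contra hne
      apply hnd
      have : p ∣ orderOf (QuotientGroup.mk' Q e) := by
        rw [hi]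
        exact dvd_pow_self p hne
      exact this.trans h1
    rw [hi0, pow_zero, orderOf_eq_one_iff] at hi
    exact (QuotientGroup.eq_one_iff e).mp hi

open Classical in
/-- the character induced from the trivial character of a normal subgroup -/
theorem ind_one_normal {E : Type*} [Group E] [Fintype E] (Q : Subgroup E) [hQ : Q.Normal] (e : E) :
    Cfsg.indFun Q (fun _ => (1 : ℂ)) e = if e ∈ Q then (Q.index : ℂ) else 0 := by
  rw [Lead.indFun_apply]
  have hcard : (Nat.card Q : ℂ) ≠ 0 := by exact_mod_cast Nat.card_pos.ne'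
  by_cases he : e ∈ Q
  · rw [if_pos he]
    have h1 : ∀ x : E, Cfsg.extendByZero Q (fun _ => (1 : ℂ)) (x⁻¹ * e * x) = 1 := by
      intro x
      have hmem : x⁻¹ * e * x ∈ Q := by
        have := hQ.conj_mem e he x⁻¹
        rwa [inv_inv] at this
      rw [Lead.extendByZero_mem' _ _ hmem]
    rw [Finset.sum_congr rfl (fun x _ => h1 x), Finset.sum_const, Finset.card_univ, nsmul_eq_mul,
      mul_one, ← Nat.card_eq_fintype_card, ← Q.index_mul_card]
    push_cast
    field_simp
  · rw [if_neg he]
    have h1 : ∀ x : E, Cfsg.extendByZero Q (fun _ => (1 : ℂ)) (x⁻¹ * e * x) = 0 := by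
      intro x
      apply Lead.extendByZero_not_mem
      intro hmem
      apply he
      have := hQ.conj_mem _ hmem x
      have e2 : x * (x⁻¹ * e * x) * x⁻¹ = e := by group
      rwa [e2] at this
    rw [Finset.sum_congr rfl (fun x _ => h1 x), Finset.sum_const_zero, mul_zero]

/-- an elementary group has a normal subgroup of `p'`-order and `p`-power index -/
theorem exists_preg_subgroup {E : Type*} [Group E] [Finite E] {q : ℕ} (hq : q.Prime)
    (hE : Cfsg.IsElementary q E) {p : ℕ} (hp : p.Prime) :
    ∃ Q : Subgroup E, Q.Normal ∧ ¬ p ∣ Nat.card Q ∧ ∃ j : ℕ, Q.index = p ^ j := by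
  classical
  haveI : Fact p.Prime := ⟨hp⟩
  obtain ⟨x, hx, hcop, k, hk⟩ := hE
  have hle : Subgroup.zpowers x ≤ Subgroup.center E := Subgroup.zpowers_le.2 hx
  haveI hnorm : (Subgroup.zpowers x).Normal := by
    constructor
    intro n hn g
    have h1 := Subgroup.mem_center_iff.1 (hle hn) g
    rw [h1, mul_inv_cancel_right]; exact hn
  by_cases hqp : q = p
  · subst hqp
    refine ⟨Subgroup.zpowers x, hnorm, ?_, k, hk⟩
    rw [Nat.card_zpowers]
    intro hdvd
    have := Nat.Coprime.eq_one_of_dvd hcop.symm hdvd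
    exact hq.one_lt.ne' this
  · obtain ⟨P⟩ : Nonempty (Sylow p E) := inferInstance
    have hPle : (P : Subgroup E) ≤ Subgroup.center E := by
      intro g hg
      apply hle
      have h1 : orderOf (QuotientGroup.mk' (Subgroup.zpowers x) g) ∣ orderOf g :=
        orderOf_map_dvd _ g
      have h2 : orderOf (QuotientGroup.mk' (Subgroup.zpowers x) g) ∣ q ^ k := by
        rw [← hk]
        exact orderOf_dvd_natCard _
      obtain ⟨n, hn⟩ := P.2 ⟨g, hg⟩
      have hn' : g ^ p ^ n = 1 := by
        have := congrArg Subtype.val hn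
        simpa using this
      have h3 : orderOf g ∣ p ^ n := orderOf_dvd_of_pow_eq_one hn'
      have h4 : Nat.Coprime (q ^ k) (p ^ n) :=
        Nat.Coprime.pow k n ((Nat.coprime_primes hq hp).mpr hqp)
      have h5 : orderOf (QuotientGroup.mk' (Subgroup.zpowers x) g) = 1 :=
        Nat.eq_one_of_dvd_coprimes h4 h2 (h1.trans h3)
      rw [orderOf_eq_one_iff] at h5
      exact (QuotientGroup.eq_one_iff g).mp h5
    have hP : Subgroup.normalizer ((P : Subgroup E) : Set E)
        ≤ Subgroup.centralizer ((P : Subgroup E) : Set E) := by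
      intro g _
      rw [Subgroup.mem_centralizer_iff]
      intro h hh
      exact (Subgroup.mem_center_iff.1 (hPle hh) g).symm
    refine ⟨(MonoidHom.transferSylow P hP).ker, inferInstance,
      MonoidHom.not_dvd_card_ker_transferSylow P hP, ?_⟩
    have hc := (MonoidHom.ker_transferSylow_isComplement' P hP).symm.index_eq_card
    obtain ⟨n, hn⟩ := IsPGroup.iff_card.mp P.2
    exact ⟨n, by rw [hc]; exact hn⟩

/-- **the `p`-regular part of an irreducible character, times the `p`-part of the group order,
is a generalized character** -/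
theorem preg_part_isGen {G : Type*} [Group G] [Finite G] (p : ℕ) [hpf : Fact p.Prime]
    (χ : Cfsg.IrrCharacter G) :
    Cfsg.IsGeneralizedCharacter G (fun x : G => if p ∣ orderOf x then 0
      else ((p ^ (Nat.card G).factorization p : ℕ) : ℂ) * (χ : G → ℂ) x) := by
  classical
  haveI : Fintype G := Fintype.ofFinite G
  have hp := hpf.out
  have hχcl : Cfsg.IsClassFunction G χ.1 := Lead.isClassFunction_of_irr χ
  apply Lead.brauer_char
  · intro g h
    have ho : orderOf (h * g * h⁻¹) = orderOf g := MulEquiv.orderOf_eq (MulAut.conj h) g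
    show (if p ∣ orderOf (h * g * h⁻¹) then 0 else _) = (if p ∣ orderOf g then 0 else _)
    rw [ho, hχcl g h]
  · intro E q hq hE
    haveI : Fintype E := Fintype.ofFinite E
    obtain ⟨Q, hQn, hQcop, j, hj⟩ := exists_preg_subgroup hq hE hp
    haveI := hQn
    have hG0 : Nat.card G ≠ 0 := Nat.card_pos.ne'
    have hjdvd : p ^ j ∣ Nat.card G := by
      rw [← hj]
      exact (Q.index_dvd_card).trans (Subgroup.card_subgroup_dvd_card E)
    have hjle : j ≤ (Nat.card G).factorization p :=
      (hp.pow_dvd_iff_le_factorization hG0).mp hjdvd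
    have heq : (fun e : E => if p ∣ orderOf (e : G) then 0
        else ((p ^ (Nat.card G).factorization p : ℕ) : ℂ) * (χ : G → ℂ) e)
        = (((p ^ ((Nat.card G).factorization p - j) : ℕ) : ℂ) • Cfsg.indFun Q (fun _ => (1 : ℂ)))
          * (fun e : E => (χ : G → ℂ) e) := by
      funext e
      show _ = ((p ^ ((Nat.card G).factorization p - j) : ℕ) : ℂ)
        * Cfsg.indFun Q (fun _ => (1 : ℂ)) e * (χ : G → ℂ) e
      rw [ind_one_normal, Subgroup.orderOf_coe]
      by_cases hd : p ∣ orderOf e
      · rw [if_pos hd, if_neg (fun h => (preg_mem_iff hp Q hQcop hj e).mp h hd), mul_zero,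
          zero_mul]
      · rw [if_neg hd, if_pos ((preg_mem_iff hp Q hQcop hj e).mpr hd), hj]
        congr 1
        rw [← Nat.cast_mul, ← pow_add, Nat.sub_add_cancel hjle]
    rw [heq]
    exact Lead.isGen_of_char (Lead.isCharacter_mul
      (Lead.isCharacter_nsmul _ (Lead.isCharacter_indFun Q _ Lead.isCharacter_one))
      (Lead.isCharacter_restrict E (Lead.isCharacter_of_irr χ.2)))

end Cfsg.Agent.Lib.Helper6
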