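import Mathlib
import Cfsg.Prelude.Def_Characters
import Cfsg.Prelude.Def_OddOrderChar
import Cfsg.Agent.Lib.Lead.Char6
import Cfsg.Agent.Lib.Helper6.FrobChar2
import Cfsg.Agent.Lib.Helper6.Coh

/-!
# A TI subgroup with Frobenius normalizer and a coherent set of characters
-/

set_option autoImplicit false

namespace Cfsg.Agent.Lib.Helper6

open Cfsg.Agent.Lib

/-- values of generalized characters are algebraic integers -/
theorem gen_isIntegral {G : Type*} [Group G] [Finite G] {θ : G → ℂ}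
    (hθ : Cfsg.IsGeneralizedCharacter G θ) (g : G) : IsIntegral ℤ (θ g) := by
  obtain ⟨χ, ψ, ⟨n, ρ, rfl⟩, ⟨n', ρ', rfl⟩, rfl⟩ := hθ
  exact IsIntegral.sub (Lead.char_isIntegral ρ g) (Lead.char_isIntegral ρ' g)

theorem isGen_restrict {G : Type*} [Group G] (H : Subgroup G) {θ : G → ℂ}
    (hθ : Cfsg.IsGeneralizedCharacter G θ) :
    Cfsg.IsGeneralizedCharacter H (fun h : H => θ h) := by
  obtain ⟨χ, ψ, hχ, hψ, rfl⟩ := hθ
  exact ⟨fun h : H => χ h, fun h : H => ψ h, Lead.isCharacter_restrict H hχ,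
    Lead.isCharacter_restrict H hψ, rfl⟩

theorem isClassFunction_of_gen {G : Type*} [Group G] {θ : G → ℂ}
    (hθ : Cfsg.IsGeneralizedCharacter G θ) : Cfsg.IsClassFunction G θ := by
  obtain ⟨χ, ψ, hχ, hψ, rfl⟩ := hθ
  exact Lead.isClassFunction_sub (Lead.isClassFunction_of_char hχ) (Lead.isClassFunction_of_char hψ)

theorem rat_int_of_isIntegral (q : ℚ) (h : IsIntegral ℤ ((q : ℂ))) :
    ∃ z : ℤ, (q : ℂ) = (z : ℂ) := by
  have h1 : IsIntegral ℤ q := by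
    rw [← isIntegral_algebraMap_iff (algebraMap ℚ ℂ).injective]
    convert h using 1
    exact eq_ratCast _ q
  obtain ⟨z, hz⟩ := IsIntegrallyClosed.isIntegral_iff.mp h1
  refine ⟨z, ?_⟩
  rw [← hz]
  simp

/-- the regular character vanishes off the identity -/
theorem irr_reg_zero {X : Type*} [Group X] [Fintype X] [Fintype (Cfsg.IrrCharacter X)] {a : X}
    (ha1 : a ≠ 1) : ∑ η : Cfsg.IrrCharacter X, η.1 1 * η.1 a = 0 := by
  have h2 := Lead.col_orth' a 1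
  rw [if_neg] at h2
  · rw [← h2]
    apply Finset.sum_congr rfl
    intro η _
    rw [Lead.irr_conj_one, mul_comm]
  · intro hconj
    exact ha1 (isConj_one_left.mp hconj)

section tif

variable {G : Type*} [Group G] [Fintype G] {K : Subgroup G}
  [Fintype ↥(Subgroup.normalizer (K : Set G))]
  {S : Set (↥(Subgroup.normalizer (K : Set G)) → ℂ)}
  {star : (↥(Subgroup.normalizer (K : Set G)) → ℂ) → (G → ℂ)}

omit [Fintype G] [Fintype ↥(Subgroup.normalizer (K : Set G))] in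
theorem tif_cent (hC : ∀ k ∈ K, k ≠ 1 → Subgroup.centralizer ({k} : Set G) ≤ K) :
    ∀ a ∈ (K.subgroupOf (Subgroup.normalizer (K : Set G))), a ≠ 1 → ∀ g : ↥(Subgroup.normalizer (K : Set G)), g * a = a * g → g ∈ (K.subgroupOf (Subgroup.normalizer (K : Set G))) := by
  intro a ha ha1 g hg
  rw [Subgroup.mem_subgroupOf] at ha ⊢
  apply hC (a : G) ha (fun h => ha1 (Subtype.ext h))
  rw [Subgroup.mem_centralizer_iff]
  intro h hh
  rw [Set.mem_singleton_iff] at hh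
  rw [hh]
  exact (congrArg Subtype.val hg).symm

omit [Fintype G] [Fintype ↥(Subgroup.normalizer (K : Set G))] in
theorem tif_mem_iff (hS : S = {χ : ↥(Subgroup.normalizer (K : Set G)) → ℂ | Cfsg.IsIrrCharacter ↥(Subgroup.normalizer (K : Set G)) χ ∧ ∃ k : ↥(Subgroup.normalizer (K : Set G)), (k : G) ∈ K ∧ χ k ≠ χ 1}) (χ : ↥(Subgroup.normalizer (K : Set G)) → ℂ) :
    χ ∈ S ↔ Cfsg.IsIrrCharacter ↥(Subgroup.normalizer (K : Set G)) χ ∧ ∃ a ∈ (K.subgroupOf (Subgroup.normalizer (K : Set G))), χ a ≠ χ 1 := by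
  rw [hS]
  constructor
  · rintro ⟨h1, k, hk, hne⟩
    exact ⟨h1, k, Subgroup.mem_subgroupOf.mpr hk, hne⟩
  · rintro ⟨h1, k, hk, hne⟩
    exact ⟨h1, k, Subgroup.mem_subgroupOf.mp hk, hne⟩

omit [Fintype G] in
theorem tif_S_vanish (hC : ∀ k ∈ K, k ≠ 1 → Subgroup.centralizer ({k} : Set G) ≤ K) (hS : S = {χ : ↥(Subgroup.normalizer (K : Set G)) → ℂ | Cfsg.IsIrrCharacter ↥(Subgroup.normalizer (K : Set G)) χ ∧ ∃ k : ↥(Subgroup.normalizer (K : Set G)), (k : G) ∈ K ∧ χ k ≠ χ 1}) {χ : ↥(Subgroup.normalizer (K : Set G)) → ℂ} (hχ : χ ∈ S) (x : ↥(Subgroup.normalizer (K : Set G))) (hx : (x : G) ∉ K) : χ x = 0 := by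
  obtain ⟨hirr, hnt⟩ := (tif_mem_iff hS χ).mp hχ
  obtain ⟨lam, hlam, rfl⟩ := frob_kernel_char _ (tif_cent hC) hirr hnt
  exact (frob_ind_props _ (tif_cent hC) lam hlam).2.1 x
    (fun h => hx (Subgroup.mem_subgroupOf.mp h))

theorem tif_res_inner (hS : S = {χ : ↥(Subgroup.normalizer (K : Set G)) → ℂ | Cfsg.IsIrrCharacter ↥(Subgroup.normalizer (K : Set G)) χ ∧ ∃ k : ↥(Subgroup.normalizer (K : Set G)), (k : G) ∈ K ∧ χ k ≠ χ 1}) (hstar : Cfsg.IsLinearIsometryOn (Cfsg.zspan S) star) (hext : ∀ α ∈ Cfsg.zspanOn S ({1}ᶜ : Set ↥(Subgroup.normalizer (K : Set G))), star α = Cfsg.indFun (Subgroup.normalizer (K : Set G)) α)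
    (Ψ : G → ℂ) (hΨ : Cfsg.IsClassFunction G Ψ) {χ' ξ : ↥(Subgroup.normalizer (K : Set G)) → ℂ} (hχ' : χ' ∈ S) (hξ : ξ ∈ S) :
    ξ 1 * Cfsg.classInner (star χ') Ψ - χ' 1 * Cfsg.classInner (star ξ) Ψ
      = ξ 1 * Cfsg.classInner χ' (fun n : ↥(Subgroup.normalizer (K : Set G)) => Ψ n)
        - χ' 1 * Cfsg.classInner ξ (fun n : ↥(Subgroup.normalizer (K : Set G)) => Ψ n) := by
  obtain ⟨nξ, -, hnξ⟩ := irr_deg' ((tif_mem_iff hS ξ).mp hξ).1
  obtain ⟨nχ, -, hnχ⟩ := irr_deg' ((tif_mem_iff hS χ').mp hχ').1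
  have hα : ((nξ : ℤ) • χ' - (nχ : ℤ) • ξ) ∈ Cfsg.zspanOn S ({1}ᶜ : Set ↥(Subgroup.normalizer (K : Set G))) := by
    apply mem_zspanOn_one
      (zspan_sub (zspan_zsmul (zspan_mem hχ') _) (zspan_zsmul (zspan_mem hξ) _))
    rw [Pi.sub_apply, zsmul_fun_apply, zsmul_fun_apply, hnξ, hnχ]
    push_cast; ring
  have h1 := hext _ hα
  rw [lin_comb_sub (zclosed_zspan S) hstar (zspan_mem hχ') (zspan_mem hξ)] at h1
  have h2 := Lead.frobenius_reciprocity (Subgroup.normalizer (K : Set G)) ((nξ : ℤ) • χ' - (nχ : ℤ) • ξ) Ψ hΨ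
  rw [← h1, Lead.classInner_sub_left, Lead.classInner_sub_left, classInner_zsmul_left,
    classInner_zsmul_left, classInner_zsmul_left, classInner_zsmul_left] at h2
  rw [hnξ, hnχ]
  exact_mod_cast h2

theorem tif_pointwise (hTI : ∀ g : G, g ∉ Subgroup.normalizer (K : Set G) → ∀ k ∈ K, g * k * g⁻¹ ∈ K → k = 1) (hC : ∀ k ∈ K, k ≠ 1 → Subgroup.centralizer ({k} : Set G) ≤ K) (hS : S = {χ : ↥(Subgroup.normalizer (K : Set G)) → ℂ | Cfsg.IsIrrCharacter ↥(Subgroup.normalizer (K : Set G)) χ ∧ ∃ k : ↥(Subgroup.normalizer (K : Set G)), (k : G) ∈ K ∧ χ k ≠ χ 1}) (hstar : Cfsg.IsLinearIsometryOn (Cfsg.zspan S) star) (hext : ∀ α ∈ Cfsg.zspanOn S ({1}ᶜ : Set ↥(Subgroup.normalizer (K : Set G))), star α = Cfsg.indFun (Subgroup.normalizer (K : Set G)) α) {χ ξ : ↥(Subgroup.normalizer (K : Set G)) → ℂ} (hχ : χ ∈ S) (hξ : ξ ∈ S)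
    (k : ↥(Subgroup.normalizer (K : Set G))) (hk : (k : G) ∈ K) (hk1 : k ≠ 1) :
    ξ 1 * (star χ k - χ k) = χ 1 * (star ξ k - ξ k) := by
  obtain ⟨nξ, -, hnξ⟩ := irr_deg' ((tif_mem_iff hS ξ).mp hξ).1
  obtain ⟨nχ, -, hnχ⟩ := irr_deg' ((tif_mem_iff hS χ).mp hχ).1
  have hα : ((nξ : ℤ) • χ - (nχ : ℤ) • ξ) ∈ Cfsg.zspanOn S ({1}ᶜ : Set ↥(Subgroup.normalizer (K : Set G))) := by
    apply mem_zspanOn_one
      (zspan_sub (zspan_zsmul (zspan_mem hχ) _) (zspan_zsmul (zspan_mem hξ) _))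
    rw [Pi.sub_apply, zsmul_fun_apply, zsmul_fun_apply, hnξ, hnχ]
    push_cast; ring
  have h1 := hext _ hα
  rw [lin_comb_sub (zclosed_zspan S) hstar (zspan_mem hχ) (zspan_mem hξ)] at h1
  have hcl : Cfsg.IsClassFunction ↥(Subgroup.normalizer (K : Set G)) ((nξ : ℤ) • χ - (nχ : ℤ) • ξ) := by
    rw [zsmul_fun_eq, zsmul_fun_eq]
    exact Lead.isClassFunction_sub
      (Lead.isClassFunction_smul _ (Lead.isClassFunction_of_irr ⟨χ, ((tif_mem_iff hS χ).mp hχ).1⟩))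
      (Lead.isClassFunction_smul _ (Lead.isClassFunction_of_irr ⟨ξ, ((tif_mem_iff hS ξ).mp hξ).1⟩))
  have hvan : ∀ x : ↥(Subgroup.normalizer (K : Set G)), (x : G) ∉ (K : Set G) → ((nξ : ℤ) • χ - (nχ : ℤ) • ξ) x = 0 := by
    intro x hx
    rw [Pi.sub_apply, zsmul_fun_apply, zsmul_fun_apply, tif_S_vanish hC hS hχ x hx,
      tif_S_vanish hC hS hξ x hx]
    ring
  have h2 := Lead.indFun_TI (K : Set G) hTI _ hcl hvan k hk hk1
  rw [← h1] at h2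
  have h3 : ((nξ : ℤ) : ℂ) * star χ k - ((nχ : ℤ) : ℂ) * star ξ k
      = ((nξ : ℤ) : ℂ) * χ k - ((nχ : ℤ) : ℂ) * ξ k := by
    have h4 := h2
    rw [Pi.sub_apply, Pi.sub_apply, zsmul_fun_apply, zsmul_fun_apply, zsmul_fun_apply,
      zsmul_fun_apply] at h4
    exact h4
  rw [hnξ, hnχ]
  push_cast at h3
  linear_combination h3

omit [Fintype G] in
open Classical in
theorem tif_const (hS : S = {χ : ↥(Subgroup.normalizer (K : Set G)) → ℂ | Cfsg.IsIrrCharacter ↥(Subgroup.normalizer (K : Set G)) χ ∧ ∃ k : ↥(Subgroup.normalizer (K : Set G)), (k : G) ∈ K ∧ χ k ≠ χ 1}) (R : ↥(Subgroup.normalizer (K : Set G)) → ℂ) (hR : Cfsg.IsClassFunction ↥(Subgroup.normalizer (K : Set G)) R)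
    [Fintype (Cfsg.IrrCharacter ↥(Subgroup.normalizer (K : Set G)))]
    (hprop : ∀ χ' ∈ S, ∀ ξ ∈ S, ξ 1 * Cfsg.classInner χ' R = χ' 1 * Cfsg.classInner ξ R)
    {η₀ : ↥(Subgroup.normalizer (K : Set G)) → ℂ} (hη₀ : η₀ ∈ S) (a : ↥(Subgroup.normalizer (K : Set G))) (ha : (a : G) ∈ K) (ha1 : a ≠ 1) :
    R a = ∑ η ∈ Finset.univ.filter (fun η : Cfsg.IrrCharacter ↥(Subgroup.normalizer (K : Set G)) =>
        ¬ ∃ a ∈ (K.subgroupOf (Subgroup.normalizer (K : Set G))), η.1 a ≠ η.1 1),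
        (Cfsg.classInner R η.1 - Cfsg.classInner R η₀ / η₀ 1 * η.1 1) * η.1 1 := by
  apply frob_const_formula (K.subgroupOf (Subgroup.normalizer (K : Set G))) R hR (Cfsg.classInner R η₀ / η₀ 1) _ a
    (Subgroup.mem_subgroupOf.mpr ha) ha1
  intro η hη
  have hηS : η.1 ∈ S := (tif_mem_iff hS η.1).mpr ⟨η.2, hη⟩
  have h1 := hprop η.1 hηS η₀ hη₀
  have h2 := congrArg (starRingEnd ℂ) h1
  rw [map_mul, map_mul, Lead.classInner_conj_symm, Lead.classInner_conj_symm] at h2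
  obtain ⟨n0, hn0pos, hn0⟩ := irr_deg' ((tif_mem_iff hS η₀).mp hη₀).1
  obtain ⟨n, -, hn⟩ := Lead.irr_one_eq_nat η
  rw [hn0, hn, Complex.conj_natCast, Complex.conj_natCast] at h2
  rw [hn0, hn]
  have hne : (n0 : ℂ) ≠ 0 := by exact_mod_cast hn0pos.ne'
  field_simp
  linear_combination h2

/-- **the shift of the exceptional characters on the TI subgroup** -/
theorem tif_shift (hTI : ∀ g : G, g ∉ Subgroup.normalizer (K : Set G) → ∀ k ∈ K, g * k * g⁻¹ ∈ K → k = 1) (hC : ∀ k ∈ K, k ≠ 1 → Subgroup.centralizer ({k} : Set G) ≤ K) (hS : S = {χ : ↥(Subgroup.normalizer (K : Set G)) → ℂ | Cfsg.IsIrrCharacter ↥(Subgroup.normalizer (K : Set G)) χ ∧ ∃ k : ↥(Subgroup.normalizer (K : Set G)), (k : G) ∈ K ∧ χ k ≠ χ 1}) (htwo : ∃ χ ∈ S, ∃ ξ ∈ S, χ ≠ ξ) (hstar : Cfsg.IsLinearIsometryOn (Cfsg.zspan S) star) (hext : ∀ α ∈ Cfsg.zspanOn S ({1}ᶜ : Set ↥(Subgroup.normalizer (K : Set G))), star α = Cfsg.indFun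 (Subgroup.normalizer (K : Set G)) α) :
    ∃ m : ℤ, ∀ χ ∈ S, ∀ k : ↥(Subgroup.normalizer (K : Set G)), (k : G) ∈ K → k ≠ 1 →
      star χ k - χ k = (m : ℂ) * χ 1 / ((K.subgroupOf (Subgroup.normalizer (K : Set G))).index : ℂ) := by
  classical
  haveI : Fintype (Cfsg.IrrCharacter ↥(Subgroup.normalizer (K : Set G))) := Fintype.ofFinite _
  haveI : Fintype ↥(K.subgroupOf (Subgroup.normalizer (K : Set G))) := Fintype.ofFinite _
  haveI : Fintype (Cfsg.IrrCharacter ↥(K.subgroupOf (Subgroup.normalizer (K : Set G)))) := Fintype.ofFinite _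
  obtain ⟨χ₀, hχ₀, -⟩ := htwo
  obtain ⟨hirr₀, k₀, hk₀K', hk₀ne⟩ := (tif_mem_iff hS χ₀).mp hχ₀
  have hk₀K : (k₀ : G) ∈ K := Subgroup.mem_subgroupOf.mp hk₀K'
  have hk₀1 : k₀ ≠ 1 := by rintro rfl; exact hk₀ne rfl
  obtain ⟨n₀, hn₀pos, hn₀⟩ := irr_deg' hirr₀
  have hn₀ne : (n₀ : ℂ) ≠ 0 := by exact_mod_cast hn₀pos.ne'
  have hidx : ((K.subgroupOf (Subgroup.normalizer (K : Set G))).index : ℂ) ≠ 0 := by
    exact_mod_cast Subgroup.index_ne_zero_of_finite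
  have hgenStar : ∀ χ ∈ S, Cfsg.IsGeneralizedCharacter G (star χ) :=
    fun χ hχ => hstar.2.2.2 χ (zspan_mem hχ)
  have hRgen : ∀ χ ∈ S, Cfsg.IsGeneralizedCharacter ↥(Subgroup.normalizer (K : Set G)) (fun n : ↥(Subgroup.normalizer (K : Set G)) => star χ n - χ n) := by
    intro χ hχ
    exact Lead.isGen_sub (isGen_restrict _ (hgenStar χ hχ))
      (Lead.isGen_of_char (Lead.isCharacter_of_irr ((tif_mem_iff hS χ).mp hχ).1))
  have hRcl : ∀ χ ∈ S, Cfsg.IsClassFunction ↥(Subgroup.normalizer (K : Set G)) (fun n : ↥(Subgroup.normalizer (K : Set G)) => star χ n - χ n) :=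
    fun χ hχ => isClassFunction_of_gen (hRgen χ hχ)
  have hprop : ∀ χ ∈ S, ∀ χ' ∈ S, ∀ ξ ∈ S,
      ξ 1 * Cfsg.classInner χ' (fun n : ↥(Subgroup.normalizer (K : Set G)) => star χ n - χ n)
        = χ' 1 * Cfsg.classInner ξ (fun n : ↥(Subgroup.normalizer (K : Set G)) => star χ n - χ n) := by
    intro χ hχ χ' hχ' ξ hξ
    have h1 := tif_res_inner hS hstar hext (star χ) (isClassFunction_of_gen (hgenStar χ hχ))
      hχ' hξ
    rw [hstar.2.2.1 χ' (zspan_mem hχ') χ (zspan_mem hχ),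
      hstar.2.2.1 ξ (zspan_mem hξ) χ (zspan_mem hχ)] at h1
    have e : (fun n : ↥(Subgroup.normalizer (K : Set G)) => star χ n - χ n) = (fun n : ↥(Subgroup.normalizer (K : Set G)) => star χ n) - χ := rfl
    rw [e, Lead.classInner_sub_right, Lead.classInner_sub_right]
    linear_combination (-1 : ℂ) * h1
  have hform : ∀ χ ∈ S, ∀ a : ↥(Subgroup.normalizer (K : Set G)), (a : G) ∈ K → a ≠ 1 →
      star χ a - χ a = ∑ η ∈ Finset.univ.filter (fun η : Cfsg.IrrCharacter ↥(Subgroup.normalizer (K : Set G)) =>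
        ¬ ∃ a ∈ (K.subgroupOf (Subgroup.normalizer (K : Set G))), η.1 a ≠ η.1 1),
        (Cfsg.classInner (fun n : ↥(Subgroup.normalizer (K : Set G)) => star χ n - χ n) η.1
          - Cfsg.classInner (fun n : ↥(Subgroup.normalizer (K : Set G)) => star χ n - χ n) χ₀ / χ₀ 1 * η.1 1) * η.1 1 :=
    fun χ hχ a ha ha1 => tif_const hS _ (hRcl χ hχ) (hprop χ hχ) hχ₀ a ha ha1
  have hconst : ∀ χ ∈ S, ∀ a : ↥(Subgroup.normalizer (K : Set G)), (a : G) ∈ K → a ≠ 1 →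
      star χ a - χ a = star χ k₀ - χ k₀ := by
    intro χ hχ a ha ha1
    rw [hform χ hχ a ha ha1, hform χ hχ k₀ hk₀K hk₀1]
  have hrat : ∃ q : ℚ, star χ₀ k₀ - χ₀ k₀ = (q : ℂ) := by
    rw [hform χ₀ hχ₀ k₀ hk₀K hk₀1]
    apply Finset.sum_induction _ (fun x : ℂ => ∃ q : ℚ, x = (q : ℂ))
    · rintro x y ⟨q, rfl⟩ ⟨q', rfl⟩
      exact ⟨q + q', by push_cast; rfl⟩
    · exact ⟨0, by simp⟩
    · intro η _
      obtain ⟨z, hz⟩ := gen_inner_int (hRgen χ₀ hχ₀)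
        (Lead.isGen_of_char (Lead.isCharacter_of_irr η.2))
      obtain ⟨z₀, hz₀⟩ := gen_inner_int (hRgen χ₀ hχ₀)
        (Lead.isGen_of_char (Lead.isCharacter_of_irr hirr₀))
      obtain ⟨n, -, hn⟩ := Lead.irr_one_eq_nat η
      rw [hz, hz₀, hn, hn₀]
      exact ⟨((z : ℚ) - z₀ / n₀ * n) * n, by push_cast; ring⟩
  obtain ⟨q, hq⟩ := hrat
  have hE1 : ∀ χ ∈ S, (n₀ : ℂ) * (star χ k₀ - χ k₀) = χ 1 * (q : ℂ) := by
    intro χ hχ
    have h := tif_pointwise hTI hC hS hstar hext hχ hχ₀ k₀ hk₀K hk₀1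
    rw [hn₀, hq] at h
    exact h
  have hmain : ∀ χ ∈ S, ∀ k : ↥(Subgroup.normalizer (K : Set G)), (k : G) ∈ K → k ≠ 1 →
      star χ k - χ k = ((q * ((K.subgroupOf (Subgroup.normalizer (K : Set G))).index : ℚ) / (n₀ : ℚ) : ℚ) : ℂ) * χ 1 / ((K.subgroupOf (Subgroup.normalizer (K : Set G))).index : ℂ) := by
    intro χ hχ k hk hk1
    rw [hconst χ hχ k hk hk1]
    have h := hE1 χ hχ
    push_cast
    field_simp
    linear_combination h
  have hint : IsIntegral ℤ (((q * ((K.subgroupOf (Subgroup.normalizer (K : Set G))).index : ℚ) / (n₀ : ℚ) : ℚ)) : ℂ) := by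
    obtain ⟨m, hm⟩ : ∃ m : ℂ, m = ((q * ((K.subgroupOf (Subgroup.normalizer (K : Set G))).index : ℚ) / (n₀ : ℚ) : ℚ) : ℂ) := ⟨_, rfl⟩
    rw [← hm]
    rw [← hm] at hmain
    have hkk : (⟨k₀, hk₀K'⟩ : ↥(K.subgroupOf (Subgroup.normalizer (K : Set G)))) ≠ 1 := by
      intro h
      exact hk₀1 (congrArg Subtype.val h)
    have hsum0 := irr_reg_zero (X := ↥(K.subgroupOf (Subgroup.normalizer (K : Set G)))) hkk
    have hsum1 : (1 : ℂ) + ∑ θ ∈ Finset.univ.erase (Lead.irrOne ↥(K.subgroupOf (Subgroup.normalizer (K : Set G)))),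
        θ.1 1 * θ.1 ⟨k₀, hk₀K'⟩ = 0 := by
      have h := Finset.add_sum_erase Finset.univ
        (fun θ : Cfsg.IrrCharacter ↥(K.subgroupOf (Subgroup.normalizer (K : Set G))) => θ.1 1 * θ.1 ⟨k₀, hk₀K'⟩)
        (Finset.mem_univ (Lead.irrOne ↥(K.subgroupOf (Subgroup.normalizer (K : Set G)))))
      rw [hsum0] at h
      have h1 : (Lead.irrOne ↥(K.subgroupOf (Subgroup.normalizer (K : Set G)))).1 1 * (Lead.irrOne ↥(K.subgroupOf (Subgroup.normalizer (K : Set G)))).1 ⟨k₀, hk₀K'⟩ = 1 := by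
        show (1 : ℂ) * 1 = 1
        rw [mul_one]
      calc (1 : ℂ) + ∑ θ ∈ Finset.univ.erase (Lead.irrOne ↥(K.subgroupOf (Subgroup.normalizer (K : Set G)))), θ.1 1 * θ.1 ⟨k₀, hk₀K'⟩
          = (Lead.irrOne ↥(K.subgroupOf (Subgroup.normalizer (K : Set G)))).1 1 * (Lead.irrOne ↥(K.subgroupOf (Subgroup.normalizer (K : Set G)))).1 ⟨k₀, hk₀K'⟩
            + ∑ θ ∈ Finset.univ.erase (Lead.irrOne ↥(K.subgroupOf (Subgroup.normalizer (K : Set G)))), θ.1 1 * θ.1 ⟨k₀, hk₀K'⟩ := by rw [h1]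
        _ = 0 := h
    have hm_eq : m = - ∑ θ ∈ Finset.univ.erase (Lead.irrOne ↥(K.subgroupOf (Subgroup.normalizer (K : Set G)))),
        (m * θ.1 1) * θ.1 ⟨k₀, hk₀K'⟩ := by
      have h5 : ∑ θ ∈ Finset.univ.erase (Lead.irrOne ↥(K.subgroupOf (Subgroup.normalizer (K : Set G)))), (m * θ.1 1) * θ.1 ⟨k₀, hk₀K'⟩
          = m * ∑ θ ∈ Finset.univ.erase (Lead.irrOne ↥(K.subgroupOf (Subgroup.normalizer (K : Set G)))), θ.1 1 * θ.1 ⟨k₀, hk₀K'⟩ := by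
        rw [Finset.mul_sum]
        apply Finset.sum_congr rfl
        intro θ _
        ring
      rw [h5]
      linear_combination m * hsum1
    rw [hm_eq]
    apply IsIntegral.neg
    apply IsIntegral.sum
    intro θ hθ
    have hθne : θ ≠ Lead.irrOne ↥(K.subgroupOf (Subgroup.normalizer (K : Set G))) := Finset.ne_of_mem_erase hθ
    apply IsIntegral.mul _ (Lead.irr_isIntegral θ _)
    obtain ⟨hirrθ, -, hdeg, hnt⟩ := frob_ind_props (K.subgroupOf (Subgroup.normalizer (K : Set G))) (tif_cent hC) θ hθne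
    have hθS : Cfsg.indFun (K.subgroupOf (Subgroup.normalizer (K : Set G))) θ.1 ∈ S := (tif_mem_iff hS _).mpr ⟨hirrθ, hnt⟩
    have h2 := hmain _ hθS k₀ hk₀K hk₀1
    rw [hdeg] at h2
    have h3 : m * θ.1 1 = star (Cfsg.indFun (K.subgroupOf (Subgroup.normalizer (K : Set G))) θ.1) k₀ - Cfsg.indFun (K.subgroupOf (Subgroup.normalizer (K : Set G))) θ.1 k₀ := by
      rw [h2]
      field_simp
    rw [h3]
    exact IsIntegral.sub (gen_isIntegral (hgenStar _ hθS) _)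
      (Lead.irr_isIntegral ⟨_, hirrθ⟩ k₀)
  obtain ⟨z, hz⟩ := rat_int_of_isIntegral _ hint
  refine ⟨z, fun χ hχ k hk hk1 => ?_⟩
  rw [hmain χ hχ k hk hk1, hz]

end tif

end Cfsg.Agent.Lib.Helper6
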