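import Mathlib
import Cfsg.Prelude.Def_Characters
import Cfsg.Prelude.Def_Blocks
import Cfsg.Agent.Lib.Helper6.PRegChar
import Cfsg.Agent.Lib.Helper6.TIFrob
import Cfsg.Agent.Lib.Lead.Char14

/-!
# The `p`-regular part of an irreducible character: the exact power of `p` needed
-/

set_option autoImplicit false

namespace Cfsg.Agent.Lib.Helper6

open Cfsg.Agent.Lib

theorem irr_omega_isIntegral {G : Type*} [Group G] [Finite G] (χ : Cfsg.IrrCharacter G) (g : G) :
    IsIntegral ℤ (((Subgroup.centralizer ({g} : Set G)).index : ℂ) * χ.1 g / χ.1 1) := by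
  obtain ⟨n, ρ, hρ, hρχ⟩ := χ.2
  haveI := hρ
  have h := Lead.omega_isIntegral ρ g
  rw [← hρχ, Representation.char_one]
  exact h

theorem charDegree_irr {G : Type*} [Group G] {χ : G → ℂ} {d : ℕ} (hd : χ 1 = (d : ℂ)) :
    Cfsg.charDegree χ = d := by
  unfold Cfsg.charDegree
  rw [hd]
  simp

/-- the coefficients of the `p`-regular part are divisible by the `p`-part of the degree -/
theorem preg_part_div {G : Type*} [Group G] [Finite G] (p : ℕ) [hpf : Fact p.Prime]
    (χ : Cfsg.IrrCharacter G) :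
    Cfsg.IsGeneralizedCharacter G (fun x : G => if p ∣ orderOf x then (0 : ℂ)
      else ((p ^ ((Nat.card G).factorization p
        - (Cfsg.charDegree (χ : G → ℂ)).factorization p) : ℕ) : ℂ) * (χ : G → ℂ) x) := by
  classical
  haveI : Fintype G := Fintype.ofFinite G
  haveI : Fintype (Cfsg.IrrCharacter G) := Fintype.ofFinite _
  haveI : Fintype (ConjClasses G) := Fintype.ofFinite _
  have hp := hpf.out
  obtain ⟨d, hd, hddvd, hdpos⟩ := Lead.irr_deg_dvd_card χ
  rw [charDegree_irr hd]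
  have hG0 : Nat.card G ≠ 0 := Nat.card_pos.ne'
  have hba : d.factorization p ≤ (Nat.card G).factorization p :=
    (Nat.factorization_le_iff_dvd hdpos.ne' hG0).mpr hddvd p
  have hgen := preg_part_isGen p χ
  obtain ⟨c, hc⟩ := gen_decomp hgen
  have hdC : (d : ℂ) ≠ 0 := by exact_mod_cast hdpos.ne'
  have hpa : ((p ^ (Nat.card G).factorization p : ℕ) : ℂ) ≠ 0 := by
    exact_mod_cast (pow_pos hp.pos _).ne'
  have hdiv : ∀ ξ : Cfsg.IrrCharacter G, ((p ^ d.factorization p : ℕ) : ℤ) ∣ c ξ := by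
    intro ξ
    have hinner : Cfsg.classInner (fun x : G => if p ∣ orderOf x then 0
        else ((p ^ (Nat.card G).factorization p : ℕ) : ℂ) * (χ : G → ℂ) x) ξ.1 = (c ξ : ℂ) := by
      rw [hc]
      exact gen_coeff c ξ
    unfold Cfsg.classInner at hinner
    obtain ⟨rep, hrep⟩ : ∃ rep : ConjClasses G → G, ∀ C, ConjClasses.mk (rep C) = C :=
      ⟨fun C => Classical.choose (ConjClasses.exists_rep C),
        fun C => Classical.choose_spec (ConjClasses.exists_rep C)⟩
    have hFcl : Cfsg.IsClassFunction G (fun g : G => (if p ∣ orderOf g then 0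
        else ((p ^ (Nat.card G).factorization p : ℕ) : ℂ) * (χ : G → ℂ) g)
        * (starRingEnd ℂ) (ξ.1 g)) := by
      intro g h
      have ho : orderOf (h * g * h⁻¹) = orderOf g := MulEquiv.orderOf_eq (MulAut.conj h) g
      show (if p ∣ orderOf (h * g * h⁻¹) then 0 else _) * _ = (if p ∣ orderOf g then 0 else _) * _
      rw [ho, Lead.isClassFunction_of_irr χ g h, Lead.isClassFunction_of_irr ξ g h]
    have hsum := Lead.sum_eq_sum_classes _ hFcl rep hrep
    rw [hsum] at hinner
    have hW : ∑ C : ConjClasses G, ((Subgroup.centralizer ({rep C} : Set G)).index : ℂ)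
          * ((if p ∣ orderOf (rep C) then 0
            else ((p ^ (Nat.card G).factorization p : ℕ) : ℂ) * (χ : G → ℂ) (rep C))
            * (starRingEnd ℂ) (ξ.1 (rep C)))
        = ((p ^ (Nat.card G).factorization p : ℕ) : ℂ) * (d : ℂ)
          * ∑ C : ConjClasses G, (if p ∣ orderOf (rep C) then 0
            else ((Subgroup.centralizer ({rep C} : Set G)).index : ℂ) * χ.1 (rep C) / χ.1 1
              * ξ.1 (rep C)⁻¹) := by
      rw [Finset.mul_sum]
      apply Finset.sum_congr rfl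
      intro C _
      by_cases hC : p ∣ orderOf (rep C)
      · rw [if_pos hC, if_pos hC]; ring
      · rw [if_neg hC, if_neg hC, Lead.irr_conj_inv ξ (rep C), hd]
        field_simp
    have hWint : IsIntegral ℤ (∑ C : ConjClasses G, (if p ∣ orderOf (rep C) then (0 : ℂ)
            else ((Subgroup.centralizer ({rep C} : Set G)).index : ℂ) * χ.1 (rep C) / χ.1 1
              * ξ.1 (rep C)⁻¹)) := by
      apply IsIntegral.sum
      intro C _
      by_cases hC : p ∣ orderOf (rep C)
      · rw [if_pos hC]; exact isIntegral_zero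
      · rw [if_neg hC]
        exact IsIntegral.mul (irr_omega_isIntegral χ (rep C)) (Lead.irr_isIntegral ξ _)
    rw [hW] at hinner
    obtain ⟨W, hWint, hinner⟩ : ∃ W : ℂ, IsIntegral ℤ W ∧ (Nat.card G : ℂ)⁻¹
        * (((p ^ (Nat.card G).factorization p : ℕ) : ℂ) * (d : ℂ) * W) = (c ξ : ℂ) :=
      ⟨_, hWint, hinner⟩
    obtain ⟨n', hn'⟩ : ∃ n' : ℕ, n' = Nat.card G / p ^ (Nat.card G).factorization p := ⟨_, rfl⟩
    have hcardeq : (Nat.card G : ℂ) = ((p ^ (Nat.card G).factorization p : ℕ) : ℂ) * (n' : ℂ) := by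
      rw [hn', ← Nat.cast_mul, Nat.ordProj_mul_ordCompl_eq_self]
    have hcopn : Nat.Coprime p n' := by rw [hn']; exact Nat.coprime_ordCompl hp hG0
    have hcardC : (Nat.card G : ℂ) ≠ 0 := by exact_mod_cast hG0
    have hWeq : W = (((c ξ : ℚ) * (n' : ℚ) / (d : ℚ) : ℚ) : ℂ) := by
      have h1 : ((p ^ (Nat.card G).factorization p : ℕ) : ℂ) * (d : ℂ) * W
          = (c ξ : ℂ) * (Nat.card G : ℂ) := by
        rw [← hinner]
        field_simp
      rw [hcardeq] at h1
      have h2 : (d : ℂ) * W = (c ξ : ℂ) * (n' : ℂ) := by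
        apply mul_left_cancel₀ hpa
        linear_combination h1
      push_cast
      rw [eq_div_iff hdC]
      linear_combination h2
    rw [hWeq] at hWint
    obtain ⟨z, hz⟩ := rat_int_of_isIntegral _ hWint
    have hz2 : c ξ * (n' : ℤ) = (d : ℤ) * z := by
      have h1 : ((c ξ : ℚ) * (n' : ℚ) / (d : ℚ)) = (z : ℚ) := by exact_mod_cast hz
      have hdQ : (d : ℚ) ≠ 0 := by exact_mod_cast hdpos.ne'
      rw [div_eq_iff hdQ] at h1
      have h2 : ((c ξ * (n' : ℤ) : ℤ) : ℚ) = (((d : ℤ) * z : ℤ) : ℚ) := by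
        push_cast
        rw [h1]; ring
      exact_mod_cast h2
    have h3 : ((p ^ d.factorization p : ℕ) : ℤ) ∣ c ξ * (n' : ℤ) := by
      rw [hz2]
      exact Dvd.dvd.mul_right (Int.natCast_dvd_natCast.mpr (Nat.ordProj_dvd d p)) z
    have hcop : IsCoprime ((p ^ d.factorization p : ℕ) : ℤ) (n' : ℤ) :=
      Nat.isCoprime_iff_coprime.mpr (Nat.Coprime.pow_left _ hcopn)
    exact hcop.dvd_of_dvd_mul_right h3
  choose c' hc' using hdiv
  have key : ∀ x : G, ((p ^ d.factorization p : ℕ) : ℂ) * (∑ φ : Cfsg.IrrCharacter G, c' φ • φ.1) x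
      = (if p ∣ orderOf x then 0
        else ((p ^ (Nat.card G).factorization p : ℕ) : ℂ) * (χ : G → ℂ) x) := by
    intro x
    have hx := congrFun hc x
    rw [hx, Finset.sum_apply, Finset.sum_apply, Finset.mul_sum]
    apply Finset.sum_congr rfl
    intro φ _
    rw [zsmul_fun_apply, Pi.smul_apply, smul_eq_mul, hc' φ]
    push_cast
    ring
  have hpb : ((p ^ d.factorization p : ℕ) : ℂ) ≠ 0 := by
    exact_mod_cast (pow_pos hp.pos _).ne'
  have heq : (fun x : G => if p ∣ orderOf x then (0 : ℂ)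
      else ((p ^ ((Nat.card G).factorization p - d.factorization p) : ℕ) : ℂ) * (χ : G → ℂ) x)
      = ∑ φ : Cfsg.IrrCharacter G, c' φ • φ.1 := by
    funext x
    apply mul_left_cancel₀ hpb
    rw [key x]
    by_cases hx : p ∣ orderOf x
    · rw [if_pos hx, if_pos hx, mul_zero]
    · rw [if_neg hx, if_neg hx, ← mul_assoc, ← Nat.cast_mul, ← pow_add,
        Nat.add_sub_cancel' hba]
  rw [heq]
  exact Lead.isGen_sum _ _ (fun φ _ =>
    isGen_zsmul (Lead.isGen_of_char (Lead.isCharacter_of_irr φ.2)) (c' φ))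

/-- one more factor `p` cannot be divided out -/
theorem preg_part_not_div {G : Type*} [Group G] [Finite G] (p : ℕ) [hpf : Fact p.Prime]
    (χ : Cfsg.IrrCharacter G) :
    ¬ Cfsg.IsGeneralizedCharacter G (fun x : G => if p ∣ orderOf x then (0 : ℂ)
      else ((p ^ (Nat.card G).factorization p : ℕ) : ℂ)
        / ((p ^ ((Cfsg.charDegree (χ : G → ℂ)).factorization p + 1) : ℕ) : ℂ)
        * (χ : G → ℂ) x) := by
  classical
  intro hgen
  haveI : Fintype G := Fintype.ofFinite G
  have hp := hpf.out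
  obtain ⟨d, hd, hddvd, hdpos⟩ := Lead.irr_deg_dvd_card χ
  rw [charDegree_irr hd] at hgen
  obtain ⟨P⟩ : Nonempty (Sylow p G) := inferInstance
  haveI : Fintype (P : Subgroup G) := Fintype.ofFinite _
  have hres := isGen_restrict (P : Subgroup G) hgen
  obtain ⟨z, hz⟩ := gen_inner_int hres (Lead.isGen_of_char Lead.isCharacter_one)
  unfold Cfsg.classInner at hz
  rw [Finset.sum_eq_single 1] at hz
  · rw [Sylow.card_eq_multiplicity] at hz
    have h1 : ¬ p ∣ orderOf (((1 : (P : Subgroup G)) : G)) := by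
      rw [Subgroup.coe_one, orderOf_one]
      exact hp.one_lt.ne' ∘ Nat.dvd_one.mp
    beta_reduce at hz
    rw [if_neg h1, Subgroup.coe_one, hd, map_one, mul_one] at hz
    have hpa : ((p ^ (Nat.card G).factorization p : ℕ) : ℂ) ≠ 0 := by
      exact_mod_cast (pow_pos hp.pos _).ne'
    have hpb : ((p ^ (d.factorization p + 1) : ℕ) : ℂ) ≠ 0 := by
      exact_mod_cast (pow_pos hp.pos _).ne'
    have h2 : (d : ℂ) = (z : ℂ) * ((p ^ (d.factorization p + 1) : ℕ) : ℂ) := by
      rw [← hz]
      field_simp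
    have h3 : (d : ℤ) = z * ((p ^ (d.factorization p + 1) : ℕ) : ℤ) := by exact_mod_cast h2
    have h4 : ((p ^ (d.factorization p + 1) : ℕ) : ℤ) ∣ (d : ℤ) := ⟨z, by rw [h3]; ring⟩
    exact Nat.pow_succ_factorization_not_dvd hdpos.ne' hp (Int.natCast_dvd_natCast.mp h4)
  · intro g _ hg1
    have hdvd : p ∣ orderOf (g : G) := by
      obtain ⟨n, hn⟩ := P.2 g
      have h1 : orderOf g ∣ p ^ n := orderOf_dvd_of_pow_eq_one hn
      obtain ⟨i, -, hi⟩ := (Nat.dvd_prime_pow hp).mp h1
      rw [Subgroup.orderOf_coe, hi]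
      have hi0 : i ≠ 0 := by
        rintro rfl
        rw [pow_zero, orderOf_eq_one_iff] at hi
        exact hg1 hi
      exact dvd_pow_self p hi0
    beta_reduce
    rw [if_pos hdvd, zero_mul]
  · intro h; exact absurd (Finset.mem_univ _) h

end Cfsg.Agent.Lib.Helper6
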