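import Mathlib
import Cfsg.Prelude.Def_Characters
import Cfsg.Prelude.Def_Blocks
import Cfsg.Prelude.Def_Transfer
import Cfsg.Agent.Lib.Lead.Char9
import Cfsg.Agent.Lib.Lead.Char4
import Cfsg.Agent.Lib.Lead.LinTransfer
import Cfsg.Agent.Lib.Lead.PFrat
import Cfsg.Agent.Lib.Helper6.LinChar3
import Cfsg.Agent.Lib.Helper6.LinChar
import Cfsg.Agent.Lib.Helper6.CFus
import Cfsg.Agent.Lib.Helper6.PRegChar2
import Cfsg.Agent.Lib.Helper1.GT1
import Cfsg.Agent.Lib.Helper2.Tate2

/-!
# Thompson: if `p` divides every nonlinear irreducible degree, there is a normal `p`-complement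
-/

set_option autoImplicit false

namespace Cfsg.Agent.Lib.Helper6

open Cfsg.Agent.Lib

open Classical in
/-- the regular character: `∑ χ(1) χ(x)` -/
theorem reg_sum {G : Type*} [Group G] [Fintype G] [Fintype (Cfsg.IrrCharacter G)] (x : G) :
    ∑ χ : Cfsg.IrrCharacter G, χ.1 1 * χ.1 x = if x = 1 then (Nat.card G : ℂ) else 0 := by
  have h := Lead.col_orth' x (1 : G)
  have h2 : ∀ χ : Cfsg.IrrCharacter G, χ.1 x * (starRingEnd ℂ) (χ.1 1) = χ.1 1 * χ.1 x := by
    intro χ
    obtain ⟨n, -, hn⟩ := Lead.irr_one_eq_nat χ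
    rw [hn, Complex.conj_natCast, mul_comm]
  rw [Finset.sum_congr rfl (fun χ _ => h2 χ)] at h
  rw [h]
  by_cases hx : x = 1
  · subst hx
    rw [if_pos rfl, if_pos (IsConj.refl _)]
    congr 1
    have : Subgroup.centralizer ({1} : Set G) = ⊤ := by
      ext y
      simp [Subgroup.mem_centralizer_iff]
    rw [this, Subgroup.card_top]
  · rw [if_neg hx, if_neg]
    intro hc
    exact hx (isConj_one_left.mp hc)

/-- if `p` divides the degree of every nonlinear irreducible character, every linear character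
of a Sylow `p`-subgroup extends to the group -/
theorem thompson_ext {G : Type*} [Group G] [Finite G] (p : ℕ) [Fact p.Prime]
    (hdeg : ∀ χ : Cfsg.IrrCharacter G, Cfsg.charDegree (χ : G → ℂ) ≠ 1 →
      p ∣ Cfsg.charDegree (χ : G → ℂ))
    (P : Sylow p G) (φ : (P : Subgroup G) →* ℂˣ) :
    ∃ lam : G →* ℂˣ, ∀ x : (P : Subgroup G), lam (x : G) = φ x := by
  classical
  haveI : Fintype G := Fintype.ofFinite _
  haveI : Fintype (P : Subgroup G) := Fintype.ofFinite _
  haveI : Fintype (Cfsg.IrrCharacter G) := Fintype.ofFinite _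
  by_contra hno
  push Not at hno
  -- the multiplicities
  have hn : ∀ χ : Cfsg.IrrCharacter G, ∃ n : ℕ,
      Cfsg.classInner (fun x : (P : Subgroup G) => χ.1 x) (fun x => (φ x : ℂ)) = (n : ℂ) :=
    fun χ => Lead.classInner_char_nat
      (Lead.isCharacter_restrict (P : Subgroup G) (Lead.isCharacter_of_irr χ.2))
      (Lead.isCharacter_of_hom φ)
  choose n hn using hn
  have hd : ∀ χ : Cfsg.IrrCharacter G, ∃ d : ℕ, 0 < d ∧ χ.1 1 = (d : ℂ) :=
    fun χ => Lead.irr_one_eq_nat χ
  choose d hdpos hd using hd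
  -- the identity
  have hPne : (Nat.card (P : Subgroup G) : ℂ) ≠ 0 := Nat.cast_ne_zero.mpr Nat.card_pos.ne'
  have hsum : ∑ χ : Cfsg.IrrCharacter G, ((d χ * n χ : ℕ) : ℂ) = ((P : Subgroup G).index : ℂ) := by
    have h1 : ∀ χ : Cfsg.IrrCharacter G, ((d χ * n χ : ℕ) : ℂ)
        = (Nat.card (P : Subgroup G) : ℂ)⁻¹ *
          ∑ x : (P : Subgroup G), (χ.1 1 * χ.1 (x : G)) * (starRingEnd ℂ) ((φ x : ℂ)) := by
      intro χ
      rw [Nat.cast_mul, ← hd χ, ← hn χ]
      unfold Cfsg.classInner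
      rw [Finset.mul_sum, Finset.mul_sum, Finset.mul_sum]
      apply Finset.sum_congr rfl
      intro x _
      ring
    rw [Finset.sum_congr rfl (fun χ _ => h1 χ), ← Finset.mul_sum, Finset.sum_comm]
    have h2 : ∀ x : (P : Subgroup G),
        ∑ χ : Cfsg.IrrCharacter G, (χ.1 1 * χ.1 (x : G)) * (starRingEnd ℂ) ((φ x : ℂ))
          = if x = 1 then (Nat.card G : ℂ) else 0 := by
      intro x
      rw [← Finset.sum_mul, reg_sum]
      by_cases hx : x = 1
      · subst hx
        simp
      · rw [if_neg hx, if_neg, zero_mul]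
        intro h
        exact hx (Subtype.ext h)
    rw [Finset.sum_congr rfl (fun x _ => h2 x), Finset.sum_ite_eq' Finset.univ (1 : (P : Subgroup G))]
    rw [if_pos (Finset.mem_univ _)]
    have hidx : (Nat.card G : ℂ)
        = ((P : Subgroup G).index : ℂ) * (Nat.card (P : Subgroup G) : ℂ) := by
      rw [← Nat.cast_mul, Subgroup.index_mul_card]
    rw [hidx]
    field_simp
  have hsumN : ∑ χ : Cfsg.IrrCharacter G, d χ * n χ = (P : Subgroup G).index := by
    have : ((∑ χ : Cfsg.IrrCharacter G, d χ * n χ : ℕ) : ℂ) = ((P : Subgroup G).index : ℂ) := by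
      rw [Nat.cast_sum]
      exact hsum
    exact_mod_cast this
  -- every term is divisible by p
  have hdvd : ∀ χ : Cfsg.IrrCharacter G, p ∣ d χ * n χ := by
    intro χ
    by_cases h1 : d χ = 1
    · -- linear
      have hχ1 : χ.1 1 = 1 := by rw [hd χ, h1, Nat.cast_one]
      obtain ⟨lam, hlam⟩ := Lead.hom_of_isCharacter_one (Lead.isCharacter_of_irr χ.2) hχ1
      have hres : (fun x : (P : Subgroup G) => χ.1 x)
          = fun x => ((lam.comp (P : Subgroup G).subtype) x : ℂ) := by
        funext x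
        rw [hlam]
        rfl
      have hin := hn χ
      rw [hres, hom_inner, if_neg] at hin
      · have : n χ = 0 := by exact_mod_cast hin.symm
        rw [this, mul_zero]
        exact dvd_zero p
      · intro heq
        obtain ⟨x, hx⟩ := hno lam
        apply hx
        rw [← heq]
        rfl
    · have hcd : Cfsg.charDegree χ.1 = d χ := charDegree_irr (hd χ)
      have := hdeg χ (by rw [hcd]; exact h1)
      rw [hcd] at this
      exact Dvd.dvd.mul_right this _
  have : p ∣ (P : Subgroup G).index := by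
    rw [← hsumN]
    exact Finset.dvd_sum (fun χ _ => hdvd χ)
  exact P.not_dvd_index this

/-- Thompson: if `p` divides the degree of every nonlinear irreducible character, the group has
a normal `p`-complement -/
theorem thompson_npc {G : Type*} [Group G] [Finite G] (p : ℕ) [Fact p.Prime]
    (hdeg : ∀ χ : Cfsg.IrrCharacter G, Cfsg.charDegree (χ : G → ℂ) ≠ 1 →
      p ∣ Cfsg.charDegree (χ : G → ℂ)) : Cfsg.HasNormalPComplement p G := by
  classical
  have hp : p.Prime := Fact.out
  let P : Sylow p G := default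
  obtain ⟨a, ha⟩ := IsPGroup.iff_card.mp P.isPGroup'
  obtain ⟨m, hm⟩ : ∃ m, m = (P : Subgroup G).index := ⟨_, rfl⟩
  have hcard : Nat.card G = m * p ^ a := by
    rw [hm, ← ha]
    exact (Subgroup.index_mul_card _).symm
  have hcop : Nat.Coprime m (p ^ a) := by
    rw [hm]
    exact Nat.Coprime.pow_right a ((Nat.Prime.coprime_iff_not_dvd hp).mpr P.not_dvd_index).symm
  let N : Subgroup G := ⨅ lam : G →* ℂˣ, (lam ^ m).ker
  haveI hNn : N.Normal := Subgroup.normal_iInf_normal (fun lam => MonoidHom.normal_ker _)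
  have hmemN : ∀ g : G, g ∈ N ↔ ∀ lam : G →* ℂˣ, (lam g) ^ m = 1 := by
    intro g
    simp only [N, Subgroup.mem_iInf, MonoidHom.mem_ker, MonoidHom.pow_apply]
  have hQp : IsPGroup p (G ⧸ N) := by
    intro x
    obtain ⟨g, rfl⟩ := QuotientGroup.mk_surjective x
    refine ⟨a, ?_⟩
    rw [← QuotientGroup.mk_pow, QuotientGroup.eq_one_iff, hmemN]
    intro lam
    rw [map_pow, ← pow_mul, mul_comm, ← hcard, ← map_pow, pow_card_eq_one', map_one]
  have hfr : N ⊓ (P : Subgroup G)
      ≤ (frattini ↥(P : Subgroup G)).map (P : Subgroup G).subtype := by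
    intro x hx
    obtain ⟨hxN, hxP⟩ := hx
    rw [Subgroup.mem_map]
    refine ⟨⟨x, hxP⟩, ?_, rfl⟩
    by_contra hnf
    have hnc : (⟨x, hxP⟩ : (P : Subgroup G)) ∉ commutator (P : Subgroup G) :=
      fun h => hnf ((Lead.commutator_le_frattini_and_pow_mem P.isPGroup').1 h)
    have hne : (Abelianization.of (⟨x, hxP⟩ : (P : Subgroup G)))
        ∉ (⊥ : Subgroup (Abelianization (P : Subgroup G))) := by
      rw [Subgroup.mem_bot]
      intro h
      apply hnc
      rw [← Abelianization.ker_of]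
      exact MonoidHom.mem_ker.mpr h
    obtain ⟨ψ, -, hψ⟩ := exists_hom_sep (W := Abelianization (P : Subgroup G))
      (fun a b => mul_comm a b) ⊥ _ hne
    obtain ⟨lam, hlam⟩ := thompson_ext p hdeg P (ψ.comp Abelianization.of)
    apply hψ
    have h1 : lam x = ψ (Abelianization.of ⟨x, hxP⟩) := hlam ⟨x, hxP⟩
    rw [← h1]
    have h2 : (lam x) ^ m = 1 := (hmemN x).mp hxN lam
    have h3 : (lam x) ^ (p ^ a) = 1 := by
      rw [← map_pow]
      have hx1 : x ^ (p ^ a) = 1 := by
        have := pow_card_eq_one' (G := (P : Subgroup G)) (x := ⟨x, hxP⟩)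
        rw [ha] at this
        exact congrArg Subtype.val this
      rw [hx1, map_one]
    have d1 := orderOf_dvd_of_pow_eq_one h2
    have d2 := orderOf_dvd_of_pow_eq_one h3
    exact orderOf_eq_one_iff.mp (Nat.eq_one_of_dvd_coprimes hcop d1 d2)
  exact npc_of_normal_pindex N hQp (Helper2.Tate2.tate_normal P N hfr)

/-- the conclusion in elementary form -/
theorem thompson_npc' {G : Type*} [Group G] [Finite G] (p : ℕ) (hp : p.Prime)
    (hdeg : ∀ χ : Cfsg.IrrCharacter G, Cfsg.charDegree (χ : G → ℂ) ≠ 1 →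
      p ∣ Cfsg.charDegree (χ : G → ℂ)) :
    ∃ N : Subgroup G, N.Normal ∧ (Nat.card N).Coprime p ∧ ∃ k : ℕ, N.index = p ^ k := by
  haveI : Fact p.Prime := ⟨hp⟩
  obtain ⟨K, hKn, hKc, hK⟩ := Helper1.npc_iff.mp (thompson_npc p hdeg)
  refine ⟨K, hKn, hKc, ?_⟩
  haveI := hKn
  have hQ : IsPGroup p (G ⧸ K) := by
    intro x
    obtain ⟨g, rfl⟩ := QuotientGroup.mk_surjective x
    obtain ⟨k, hk⟩ := hK g
    exact ⟨k, by rw [← QuotientGroup.mk_pow]; exact (QuotientGroup.eq_one_iff _).mpr hk⟩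
  obtain ⟨k, hk⟩ := IsPGroup.iff_card.mp hQ
  exact ⟨k, by rw [Subgroup.index_eq_card]; exact hk⟩

end Cfsg.Agent.Lib.Helper6
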