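import Mathlib
import Cfsg.Prelude.Def_Characters
import Cfsg.Prelude.Def_Blocks
import Cfsg.Prelude.Def_Transfer
import Cfsg.Prelude.Def_CharExt
import Cfsg.Agent.Lib.Lead.DetChar
import Cfsg.Agent.Lib.Lead.PResidual
import Cfsg.Agent.Lib.Helper6.ThompDeg
import Cfsg.Agent.Lib.Helper6.ICC
import Cfsg.Agent.Lib.Helper7.Clifford
import Cfsg.Agent.Lib.Helper7.Codeg
import Cfsg.Agent.Lib.Helper8.Sd2
import Cfsg.Agent.S0867
import Cfsg.Agent.S0868

/-!
# `#O^p(G) ≡ ∑ χ(1)²` over the irreducible characters of `p'`-degree and `p'`-determinantal order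
-/

set_option autoImplicit false

namespace Cfsg.Agent.Lib.Helper6

open Cfsg.Agent.Lib

/-- weighted fixed-point counting for a `p`-group action -/
theorem wsum_modEq {P X : Type*} [Group P] [Finite P] [MulAction P X] [Fintype X] {p : ℕ}
    [Fact p.Prime] (hP : IsPGroup p P) (f : X → ℕ) (hf : ∀ (g : P) (x : X), f (g • x) = f x) :
    (∑ x : X, (f x : ℤ)) ≡ (∑ᶠ x ∈ {x : X | ∀ g : P, g • x = x}, (f x : ℤ)) [ZMOD p] := by
  classical
  let Z := Σ x : X, Fin (f x)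
  letI : MulAction P Z :=
    { smul := fun g s => ⟨g • s.1, ⟨s.2.1, by rw [hf]; exact s.2.2⟩⟩
      one_smul := fun s => Sigma.ext (one_smul P s.1) ((Fin.heq_ext_iff (hf 1 s.1)).mpr rfl)
      mul_smul := fun g h s => Sigma.ext (mul_smul g h s.1)
        ((Fin.heq_ext_iff (by
          show f ((g * h) • s.1) = f (g • (h • s.1))
          rw [hf, hf, hf])).mpr rfl) }
  have h := hP.card_modEq_card_fixedPoints Z
  have hZ : Nat.card Z = ∑ x : X, f x := by
    rw [Nat.card_eq_fintype_card, Fintype.card_sigma]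
    simp
  let E : ↥(MulAction.fixedPoints P Z) ≃ Σ x : {x : X // ∀ g : P, g • x = x}, Fin (f x.1) :=
    { toFun := fun s => ⟨⟨s.1.1, fun g => congrArg Sigma.fst (s.2 g)⟩, s.1.2⟩
      invFun := fun t => ⟨⟨t.1.1, t.2⟩, fun g => Sigma.ext (t.1.2 g)
        ((Fin.heq_ext_iff (hf g t.1.1)).mpr rfl)⟩
      left_inv := fun s => rfl
      right_inv := fun t => rfl }
  have hF : Nat.card ↥(MulAction.fixedPoints P Z)
      = ∑ x : {x : X // ∀ g : P, g • x = x}, f x.1 := by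
    rw [Nat.card_congr E, Nat.card_eq_fintype_card, Fintype.card_sigma]
    simp
  rw [hZ, hF] at h
  have h2 := Int.natCast_modEq_iff.mpr h
  rw [Nat.cast_sum, Nat.cast_sum] at h2
  have h3 : (∑ᶠ x ∈ {x : X | ∀ g : P, g • x = x}, (f x : ℤ))
      = ∑ x : {x : X // ∀ g : P, g • x = x}, (f x.1 : ℤ) := by
    rw [← finsum_set_coe_eq_finsum_mem, finsum_eq_sum_of_fintype]
    rfl
  rw [h3]
  exact h2

/-- characters of `O^p(G)` have determinantal order prime to `p` -/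
theorem detOrder_coprime_pResidual {G : Type*} [Group G] [Finite G] (p : ℕ) [Fact p.Prime]
    (θ : Cfsg.pResidual p G → ℂ) (hθ : Cfsg.IsCharacter (Cfsg.pResidual p G) θ) :
    (Cfsg.detOrder θ).Coprime p := by
  have hp : p.Prime := Fact.out
  obtain ⟨n, ρ, rfl⟩ := hθ
  unfold Cfsg.detOrder
  rw [Lead.detChar_eq ρ]
  obtain ⟨a, m, hm, hGm⟩ :=
    Nat.exists_eq_pow_mul_and_not_dvd (Nat.card_pos (α := G)).ne' p hp.ne_one
  have key : ∀ (g : G) (hg : g ∈ Cfsg.pResidual p G), LinearMap.det (ρ ⟨g, hg⟩) ^ m = 1 := by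
    intro g hg
    induction hg using Subgroup.closure_induction with
    | mem x hx =>
      have hx' : Nat.Coprime (orderOf x) p := hx
      have h1 : orderOf x ∣ m := by
        have h0 : orderOf x ∣ p ^ a * m := hGm ▸ orderOf_dvd_natCard x
        exact (Nat.Coprime.pow_right a hx').dvd_of_dvd_mul_left h0
      have h2 : (⟨x, Subgroup.subset_closure hx⟩ : Cfsg.pResidual p G) ^ m = 1 :=
        Subtype.ext (orderOf_dvd_iff_pow_eq_one.mp h1)
      rw [← map_pow, ← map_pow, h2, map_one, map_one]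
    | one =>
      have : (⟨1, Subgroup.one_mem _⟩ : Cfsg.pResidual p G) = 1 := rfl
      rw [this, map_one, map_one, one_pow]
    | mul x y hx hy ihx ihy =>
      have : (⟨x * y, Subgroup.mul_mem _ hx hy⟩ : Cfsg.pResidual p G) = ⟨x, hx⟩ * ⟨y, hy⟩ := rfl
      rw [this, map_mul, map_mul, mul_pow, ihx, ihy, one_mul]
    | inv x hx ih =>
      have h1 : LinearMap.det (ρ (⟨x⁻¹, Subgroup.inv_mem _ hx⟩ : Cfsg.pResidual p G))
          * LinearMap.det (ρ ⟨x, hx⟩) = 1 := by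
        rw [← map_mul, ← map_mul]
        have : (⟨x⁻¹, Subgroup.inv_mem _ hx⟩ : Cfsg.pResidual p G) * ⟨x, hx⟩ = 1 :=
          Subtype.ext (inv_mul_cancel x)
        rw [this, map_one, map_one]
      have h2 := congrArg (fun z => z ^ m) h1
      simp only [mul_pow, ih, mul_one, one_pow] at h2
      exact h2
  have hpow : (fun g : Cfsg.pResidual p G => LinearMap.det (ρ g)) ^ m = 1 := by
    funext k
    rw [Pi.pow_apply, Pi.one_apply]
    exact key k.1 k.2
  have hd : orderOf (fun g : Cfsg.pResidual p G => LinearMap.det (ρ g)) ∣ m :=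
    orderOf_dvd_of_pow_eq_one hpow
  exact Nat.Coprime.coprime_dvd_left hd ((Nat.Prime.coprime_iff_not_dvd hp).mpr hm).symm

/-- the index of `O^p(G)` is a power of `p` -/
theorem pResidual_index (G : Type*) [Group G] [Finite G] (p : ℕ) [Fact p.Prime] :
    ∃ a : ℕ, (Cfsg.pResidual p G).index = p ^ a := by
  haveI := Lead.pResidual_normal_lead (G := G) p
  have h1 := Lead.isPGroup_quotient_pResidual (G := G) p
  obtain ⟨a, ha⟩ := IsPGroup.iff_card.mp h1
  exact ⟨a, by rw [Subgroup.index_eq_card]; exact ha⟩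

/-- an irreducible character of `p'`-degree restricts irreducibly to `O^p(G)` -/
theorem restrict_irr_of_pprime {G : Type*} [Group G] [Finite G] (p : ℕ) [Fact p.Prime]
    (χ : Cfsg.IrrCharacter G) (hχ : ¬ p ∣ Cfsg.charDegree χ.1) :
    Cfsg.IsIrrCharacter (Cfsg.pResidual p G) (fun k : Cfsg.pResidual p G => χ.1 k) := by
  classical
  have hp : p.Prime := Fact.out
  haveI hKn : (Cfsg.pResidual p G).Normal := Lead.pResidual_normal_lead p
  obtain ⟨K, hK⟩ : ∃ K : Subgroup G, K = Cfsg.pResidual p G := ⟨_, rfl⟩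
  rw [← hK]
  haveI hKn' : K.Normal := hK ▸ hKn
  haveI : Fintype G := Fintype.ofFinite _
  haveI : Fintype K := Fintype.ofFinite _
  obtain ⟨a, ha⟩ : ∃ a, K.index = p ^ a := hK ▸ pResidual_index G p
  obtain ⟨d, hdpos, hd⟩ := Lead.irr_one_eq_nat χ
  have hcd : Cfsg.charDegree χ.1 = d := charDegree_irr hd
  rw [hcd] at hχ
  -- a constituent
  have hres_ne : (fun h : K => χ.1 h) ≠ 0 := fun e => Lead.irr_deg_ne_zero χ (congrFun e 1)
  obtain ⟨θ, hθ⟩ := Helper7.Cliff.exists_constituent (fun h : K => χ.1 h)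
    (Helper7.Cliff.isClassFunction_restrict K χ.1 (Lead.isClassFunction_of_irr χ)) hres_ne
  obtain ⟨e, he0, hdeg⟩ := Helper7.Cliff.clifford_deg K χ θ hθ
  obtain ⟨dθ, hdθpos, hdθ⟩ := Lead.irr_one_eq_nat θ
  obtain ⟨t, ht⟩ : ∃ t, t = Nat.card {ψ : Cfsg.IrrCharacter K // ∃ x : G, ψ.1 = Lead.conjFun K θ.1 x} :=
    ⟨_, rfl⟩
  rw [← ht] at hdeg
  have hnat : d = e * t * dθ := by
    rw [hd, hdθ] at hdeg
    exact_mod_cast hdeg
  have ht1 : t = 1 := by
    have h1 : t ∣ p ^ a := by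
      rw [ht, ← ha]
      exact Helper7.Cliff.card_conj_dvd_index K θ
    obtain ⟨j, -, hj⟩ := (Nat.dvd_prime_pow hp).mp h1
    rcases Nat.eq_zero_or_pos j with h0 | hpos
    · rw [hj, h0, pow_zero]
    · exfalso
      apply hχ
      rw [hnat, hj]
      exact Dvd.dvd.mul_right (Dvd.dvd.mul_left (dvd_pow_self p hpos.ne') e) dθ
  have hinv : ∀ x : G, Lead.conjFun K θ.1 x = θ.1 :=
    Helper7.Cliff.conjFun_eq_of_card_eq_one K θ (ht ▸ ht1)
  have hdθp : ¬ p ∣ dθ := fun h => hχ (hnat ▸ Dvd.dvd.mul_left h _)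
  -- the extension
  have hcop : Nat.Coprime K.index (Cfsg.detOrder θ.1 * dθ) := by
    rw [ha]
    apply Nat.Coprime.pow_left
    apply Nat.Coprime.mul_right
    · subst hK
      exact (detOrder_coprime_pResidual p θ.1 (Lead.isCharacter_of_irr θ.2)).symm
    · exact (Nat.Prime.coprime_iff_not_dvd hp).mpr hdθp
  obtain ⟨χ₀, ⟨hχ₀irr, hχ₀res, -⟩, -⟩ := Cfsg.Agent.S0867.result K θ.1 θ.2
    (fun g n => by
      have := congrFun (hinv g) n
      rwa [Lead.conjFun_apply] at this) dθ hdθ hcop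
  have hχ₀fun : (fun h : K => χ₀ h) = θ.1 := funext hχ₀res
  have hχ₀over : Cfsg.classInner (fun h : K => χ₀ h) θ.1 ≠ 0 := by
    rw [hχ₀fun, Lead.irr_inner θ θ, if_pos rfl]
    exact one_ne_zero
  have hprop : ∀ n : K, χ.1 1 * χ₀ n = χ₀ 1 * χ.1 n :=
    fun n => cliff_prop K ⟨χ₀, hχ₀irr⟩ χ θ hχ₀over hθ n
  have hχ₀1 : χ₀ 1 = dθ := by
    have := hχ₀res 1
    rw [← hdθ, ← this]
    rfl
  have hdθne : (dθ : ℂ) ≠ 0 := Nat.cast_ne_zero.mpr hdθpos.ne'
  have hprop' : ∀ n : K, (d : ℂ) * θ.1 n = dθ * χ.1 n := by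
    intro n
    have := hprop n
    rw [hd, hχ₀1, hχ₀res n] at this
    exact this
  -- the quotient character
  obtain ⟨η, hη⟩ : ∃ η : G → ℂ, η = fun g => (Nat.card K : ℂ)⁻¹ *
      ∑ n : K, χ.1 ((n : G) * g) * (starRingEnd ℂ) (χ₀ ((n : G) * g)) := ⟨_, rfl⟩
  obtain ⟨hη1, -, -⟩ := Cfsg.Agent.S0868.result K χ₀ hχ₀irr (by rw [hχ₀fun]; exact θ.2)
    χ.1 χ.2 η hη
  have hηirr : Cfsg.IsIrrCharacter G η := by
    apply hη1
    rw [hχ₀fun]
    exact hθ
  have hηK : ∀ k ∈ K, η k = η 1 := by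
    intro k hk
    rw [hη]
    show (Nat.card K : ℂ)⁻¹ * _ = (Nat.card K : ℂ)⁻¹ * _
    congr 1
    apply Fintype.sum_equiv (Equiv.mulRight (⟨k, hk⟩ : K))
    intro n
    simp
  obtain ⟨ψ', hψ'⟩ := Helper7.Codeg.exists_irr_quot ⟨η, hηirr⟩ K hηK
  obtain ⟨c, hc, hcdvd, hcpos⟩ := Lead.irr_deg_dvd_card ψ'
  have hη1c : η 1 = c := by
    rw [← hc]
    exact (hψ' 1).symm
  have hcpa : c ∣ p ^ a := by
    rw [← ha, Subgroup.index_eq_card]
    exact hcdvd
  have hη1v : η 1 * dθ = d := by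
    have h1 : ∀ n : K, χ.1 ((n : G) * 1) * (starRingEnd ℂ) (χ₀ ((n : G) * 1))
        = (d : ℂ) / dθ * (θ.1 n * (starRingEnd ℂ) (θ.1 n)) := by
      intro n
      rw [mul_one, hχ₀res n]
      have := hprop' n
      field_simp
      linear_combination (-(starRingEnd ℂ) (θ.1 n)) * this
    have h2 := Lead.irr_inner θ θ
    unfold Cfsg.classInner at h2
    rw [if_pos rfl] at h2
    rw [hη]
    show (Nat.card K : ℂ)⁻¹ * (∑ n : K, _) * dθ = d
    rw [Finset.sum_congr rfl (fun n _ => h1 n), ← Finset.mul_sum]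
    calc (Nat.card K : ℂ)⁻¹ * ((d : ℂ) / dθ * ∑ n : K, θ.1 n * (starRingEnd ℂ) (θ.1 n)) * dθ
        = ((d : ℂ) / dθ * dθ) * ((Nat.card K : ℂ)⁻¹ * ∑ n : K, θ.1 n * (starRingEnd ℂ) (θ.1 n)) := by
          ring
      _ = d := by rw [h2, mul_one, div_mul_cancel₀ _ hdθne]
  have hcd' : c * dθ = d := by
    rw [hη1c] at hη1v
    exact_mod_cast hη1v
  have hc1 : c = 1 := by
    obtain ⟨j, -, hj⟩ := (Nat.dvd_prime_pow hp).mp hcpa
    rcases Nat.eq_zero_or_pos j with h0 | hpos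
    · rw [hj, h0, pow_zero]
    · exfalso
      apply hχ
      rw [← hcd', hj]
      exact Dvd.dvd.mul_right (dvd_pow_self p hpos.ne') dθ
  have hfin : (fun k : K => χ.1 k) = θ.1 := by
    funext n
    have := hprop' n
    have hdd : d = dθ := by rw [← hcd', hc1, one_mul]
    rw [hdd] at this
    exact (mul_left_cancel₀ hdθne this).symm
  rw [hfin]
  exact θ.2

/-- a character of `O^p(G)` fixed by a Sylow `p`-subgroup is `G`-invariant -/
theorem inv_of_sylow_fixed {G : Type*} [Group G] [Finite G] (p : ℕ) [Fact p.Prime]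
    [hn : (Cfsg.pResidual p G).Normal] (P : Sylow p G)
    (θ : Cfsg.IrrCharacter (Cfsg.pResidual p G))
    (hfix : ∀ g : G, g ∈ (P : Subgroup G) → Lead.conjFun (Cfsg.pResidual p G) θ.1 g = θ.1)
    (x : G) : Lead.conjFun (Cfsg.pResidual p G) θ.1 x = θ.1 := by
  have hx : x ∈ ((Cfsg.pResidual p G ⊔ (P : Subgroup G) : Subgroup G) : Set G) := by
    rw [Lead.pResidual_sup_sylow_lead p P]
    exact Set.mem_univ x
  rw [Subgroup.normal_mul] at hx
  obtain ⟨k, hk, u, hu, rfl⟩ := Set.mem_mul.mp hx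
  rw [← Lead.conjFun_mul]
  have h1 : Lead.conjFun (Cfsg.pResidual p G) θ.1 k = θ.1 := by
    funext n
    rw [Lead.conjFun_apply]
    exact Lead.isClassFunction_of_irr θ n ⟨k, hk⟩
  rw [h1]
  exact hfix u hu

/-- `#O^p(G) ≡ ∑ χ(1)²` over irreducible characters of `p'`-degree and `p'`-determinantal
order -/
theorem opcount {G : Type*} [Group G] [Finite G] (p : ℕ) (hp : p.Prime) :
    (Nat.card (Cfsg.pResidual p G) : ℤ) ≡
      (∑ᶠ χ ∈ {χ : Cfsg.IrrCharacter G | ¬ p ∣ Cfsg.charDegree (χ : G → ℂ) ∧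
          ¬ p ∣ Cfsg.detOrder (χ : G → ℂ)}, (Cfsg.charDegree (χ : G → ℂ) : ℤ) ^ 2) [ZMOD p] := by
  classical
  haveI : Fact p.Prime := ⟨hp⟩
  haveI hKn : (Cfsg.pResidual p G).Normal := Lead.pResidual_normal_lead p
  haveI : Fintype G := Fintype.ofFinite _
  haveI : Fintype (Cfsg.pResidual p G) := Fintype.ofFinite _
  haveI : Fintype (Cfsg.IrrCharacter (Cfsg.pResidual p G)) := Fintype.ofFinite _
  haveI : Fintype (Cfsg.IrrCharacter G) := Fintype.ofFinite _
  obtain ⟨a, ha⟩ := pResidual_index G p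
  let P : Sylow p G := default
  letI act := Helper7.Cliff.irrAction (G := G) (Cfsg.pResidual p G)
  let f : Cfsg.IrrCharacter (Cfsg.pResidual p G) → ℕ := fun θ => Cfsg.charDegree θ.1 ^ 2
  have hsmul1 : ∀ (g : G) (θ : Cfsg.IrrCharacter (Cfsg.pResidual p G)),
      (g • θ).1 1 = θ.1 1 := by
    intro g θ
    show Lead.conjFun (Cfsg.pResidual p G) θ.1 g⁻¹ 1 = θ.1 1
    rw [Lead.conjFun_apply]
    exact congrArg θ.1 (Subtype.ext (by simp))
  have hf : ∀ (g : (P : Subgroup G)) (θ : Cfsg.IrrCharacter (Cfsg.pResidual p G)),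
      f (g • θ) = f θ := by
    intro g θ
    show Cfsg.charDegree (((g : G) • θ)).1 ^ 2 = Cfsg.charDegree θ.1 ^ 2
    unfold Cfsg.charDegree
    rw [hsmul1]
  have h1 := wsum_modEq (p := p) P.isPGroup' f hf
  have hdeg : ∀ θ : Cfsg.IrrCharacter (Cfsg.pResidual p G),
      θ.1 1 = (Cfsg.charDegree θ.1 : ℂ) := by
    intro θ
    obtain ⟨d, -, hd⟩ := Lead.irr_one_eq_nat θ
    rw [charDegree_irr hd, hd]
  have hsumK : (∑ θ : Cfsg.IrrCharacter (Cfsg.pResidual p G), (f θ : ℤ))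
      = (Nat.card (Cfsg.pResidual p G) : ℤ) := by
    have h := reg_sum (G := Cfsg.pResidual p G) 1
    rw [if_pos rfl] at h
    have h2 : ((∑ θ : Cfsg.IrrCharacter (Cfsg.pResidual p G), (f θ : ℤ) : ℤ) : ℂ)
        = ((Nat.card (Cfsg.pResidual p G) : ℤ) : ℂ) := by
      rw [Int.cast_sum, Int.cast_natCast, ← h]
      apply Finset.sum_congr rfl
      intro θ _
      rw [hdeg θ]
      show (((Cfsg.charDegree θ.1 ^ 2 : ℕ) : ℤ) : ℂ) = _
      push_cast
      ring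
    exact_mod_cast h2
  rw [hsumK] at h1
  refine h1.trans ?_
  obtain ⟨Fix, hFix⟩ : ∃ Fix : Set (Cfsg.IrrCharacter (Cfsg.pResidual p G)),
      Fix = {θ | ∀ g : (P : Subgroup G), g • θ = θ} := ⟨_, rfl⟩
  rw [← hFix]
  obtain ⟨I, hI⟩ : ∃ I : Set (Cfsg.IrrCharacter (Cfsg.pResidual p G)),
      I = {θ | θ ∈ Fix ∧ ¬ p ∣ Cfsg.charDegree θ.1} := ⟨_, rfl⟩
  have hsplit : (∑ᶠ θ ∈ Fix, (f θ : ℤ)) ≡ (∑ᶠ θ ∈ I, (f θ : ℤ)) [ZMOD p] := by
    have hsub : I ⊆ Fix := by
      intro θ h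
      rw [hI] at h
      exact h.1
    have h2 := finsum_mem_add_sdiff (f := fun θ => (f θ : ℤ)) hsub (Set.toFinite Fix)
    rw [← h2]
    have h3 : (p : ℤ) ∣ ∑ᶠ θ ∈ Fix \ I, (f θ : ℤ) := by
      rw [finsum_mem_eq_finite_toFinset_sum _ (Set.toFinite _)]
      apply Finset.dvd_sum
      intro θ hθ
      rw [Set.Finite.mem_toFinset] at hθ
      have hpd : p ∣ Cfsg.charDegree θ.1 := by
        by_contra h
        apply hθ.2
        rw [hI]
        exact ⟨hθ.1, h⟩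
      show (p : ℤ) ∣ ((Cfsg.charDegree θ.1 ^ 2 : ℕ) : ℤ)
      exact_mod_cast Dvd.dvd.pow hpd two_ne_zero
    apply Int.modEq_iff_dvd.mpr
    rw [sub_add_cancel_left]
    exact (dvd_neg).mpr h3
  refine hsplit.trans ?_
  -- the bijection
  have hPfix : ∀ θ : Cfsg.IrrCharacter (Cfsg.pResidual p G), θ ∈ Fix →
      ∀ x : G, Lead.conjFun (Cfsg.pResidual p G) θ.1 x = θ.1 := by
    intro θ hθ x
    rw [hFix] at hθ
    apply inv_of_sylow_fixed p P θ
    intro g hg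
    have h := hθ ⟨g⁻¹, (P : Subgroup G).inv_mem hg⟩
    have h' := congrArg Subtype.val h
    have h'' : Lead.conjFun (Cfsg.pResidual p G) θ.1 (g⁻¹)⁻¹ = θ.1 := h'
    rwa [inv_inv] at h''
  have hcopK : ∀ θ : Cfsg.IrrCharacter (Cfsg.pResidual p G), ¬ p ∣ Cfsg.charDegree θ.1 →
      Nat.Coprime (Cfsg.pResidual p G).index (Cfsg.detOrder θ.1 * Cfsg.charDegree θ.1) := by
    intro θ hθ
    rw [ha]
    apply Nat.Coprime.pow_left
    apply Nat.Coprime.mul_right
    · exact (detOrder_coprime_pResidual p θ.1 (Lead.isCharacter_of_irr θ.2)).symm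
    · exact (Nat.Prime.coprime_iff_not_dvd hp).mpr hθ
  let e : Cfsg.IrrCharacter G → Cfsg.IrrCharacter (Cfsg.pResidual p G) := fun χ =>
    if h : Cfsg.IsIrrCharacter (Cfsg.pResidual p G) (fun k : Cfsg.pResidual p G => χ.1 k)
    then ⟨_, h⟩
    else ⟨_, Helper8.isIrrCharacter_of_hom8 (1 : (Cfsg.pResidual p G) →* ℂˣ)⟩
  have he : ∀ (χ : Cfsg.IrrCharacter G)
      (h : Cfsg.IsIrrCharacter (Cfsg.pResidual p G) (fun k : Cfsg.pResidual p G => χ.1 k)),
      e χ = ⟨_, h⟩ := by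
    intro χ h
    simp only [e]
    rw [dif_pos h]
  have hbij : Set.BijOn e {χ : Cfsg.IrrCharacter G | ¬ p ∣ Cfsg.charDegree (χ : G → ℂ) ∧
      ¬ p ∣ Cfsg.detOrder (χ : G → ℂ)} I := by
    refine ⟨?_, ?_, ?_⟩
    · intro χ hχ
      have hirr := restrict_irr_of_pprime p χ hχ.1
      rw [he χ hirr, hI]
      refine ⟨?_, hχ.1⟩
      rw [hFix]
      intro g
      apply Subtype.ext
      show Lead.conjFun (Cfsg.pResidual p G) (fun k : Cfsg.pResidual p G => χ.1 k) (g : G)⁻¹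
        = fun k : Cfsg.pResidual p G => χ.1 k
      funext n
      rw [Lead.conjFun_apply]
      exact Lead.isClassFunction_of_irr χ _ _
    · intro χ₁ h₁ χ₂ h₂ h12
      have hirr₁ := restrict_irr_of_pprime p χ₁ h₁.1
      have hirr₂ := restrict_irr_of_pprime p χ₂ h₂.1
      rw [he χ₁ hirr₁, he χ₂ hirr₂] at h12
      have hres : (fun k : Cfsg.pResidual p G => χ₁.1 k) = fun k : Cfsg.pResidual p G => χ₂.1 k :=
        congrArg Subtype.val h12
      have hd1 : (fun k : Cfsg.pResidual p G => χ₁.1 k) 1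
          = (Cfsg.charDegree (fun k : Cfsg.pResidual p G => χ₁.1 k) : ℂ) := hdeg ⟨_, hirr₁⟩
      obtain ⟨χ₀, -, huniq⟩ := Cfsg.Agent.S0867.result (Cfsg.pResidual p G)
        (fun k : Cfsg.pResidual p G => χ₁.1 k) hirr₁
        (fun g n => Lead.isClassFunction_of_irr χ₁ _ _) _ hd1 (hcopK ⟨_, hirr₁⟩ h₁.1)
      have hc : ∀ χ : Cfsg.IrrCharacter G, ¬ p ∣ Cfsg.detOrder χ.1 →
          Nat.Coprime (Cfsg.pResidual p G).index (Cfsg.detOrder χ.1) := by
        intro χ h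
        rw [ha]
        exact Nat.Coprime.pow_left a ((Nat.Prime.coprime_iff_not_dvd hp).mpr h)
      have e1 := huniq χ₁.1 χ₁.2 (fun n => rfl) (hc χ₁ h₁.2)
      have e2 := huniq χ₂.1 χ₂.2 (fun n => (congrFun hres n).symm) (hc χ₂ h₂.2)
      exact Subtype.ext (e1.trans e2.symm)
    · intro θ hθ
      rw [hI] at hθ
      have hinv := hPfix θ hθ.1
      obtain ⟨χ₀, ⟨hχ₀irr, hχ₀res, hχ₀det⟩, -⟩ := Cfsg.Agent.S0867.result (Cfsg.pResidual p G)
        θ.1 θ.2
        (fun g n => by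
          have := congrFun (hinv g) n
          rwa [Lead.conjFun_apply] at this) _ (hdeg θ) (hcopK θ hθ.2)
      have hfun : (fun k : Cfsg.pResidual p G => χ₀ k) = θ.1 := funext hχ₀res
      have hirr : Cfsg.IsIrrCharacter (Cfsg.pResidual p G)
          (fun k : Cfsg.pResidual p G => χ₀ k) := by
        rw [hfun]
        exact θ.2
      refine ⟨⟨χ₀, hχ₀irr⟩, ⟨?_, ?_⟩, ?_⟩
      · have : Cfsg.charDegree χ₀ = Cfsg.charDegree θ.1 := by
          unfold Cfsg.charDegree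
          have := hχ₀res 1
          rw [← this]
          rfl
        show ¬ p ∣ Cfsg.charDegree χ₀
        rw [this]
        exact hθ.2
      · show ¬ p ∣ Cfsg.detOrder χ₀
        rw [hχ₀det]
        exact (Nat.Prime.coprime_iff_not_dvd hp).mp
          (detOrder_coprime_pResidual p θ.1 (Lead.isCharacter_of_irr θ.2)).symm
      · rw [he ⟨χ₀, hχ₀irr⟩ hirr]
        exact Subtype.ext hfun
  have hval : ∀ χ ∈ {χ : Cfsg.IrrCharacter G | ¬ p ∣ Cfsg.charDegree (χ : G → ℂ) ∧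
      ¬ p ∣ Cfsg.detOrder (χ : G → ℂ)},
      (Cfsg.charDegree (χ : G → ℂ) : ℤ) ^ 2 = (f (e χ) : ℤ) := by
    intro χ hχ
    have hirr := restrict_irr_of_pprime p χ hχ.1
    rw [he χ hirr]
    show _ = ((Cfsg.charDegree (fun k : Cfsg.pResidual p G => χ.1 k) ^ 2 : ℕ) : ℤ)
    have : Cfsg.charDegree (fun k : Cfsg.pResidual p G => χ.1 k) = Cfsg.charDegree χ.1 := rfl
    rw [this]
    push_cast
    rfl
  rw [finsum_mem_eq_of_bijOn (g := fun θ => (f θ : ℤ)) e hbij hval]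

end Cfsg.Agent.Lib.Helper6
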