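import Mathlib
import Cfsg.Agent.Lib.Lead.Hall
import Cfsg.Agent.Lib.Helper3.PSolv
import Cfsg.Agent.Lib.Helper7.PPrime

set_option autoImplicit false
open Pointwise

namespace Cfsg.Agent.Lib.Helper6

open Cfsg.Agent.Lib Cfsg.Agent.Lib.Lead

universe u

/-- Schur–Zassenhaus dominance for a normal `p`-subgroup of `p'`-index -/
theorem szD {X : Type*} [Group X] [Finite X] (p : ℕ) [Fact p.Prime] (M : Subgroup X) [M.Normal]
    (hMp : IsPGroup p M) (m : ℕ) (hX : Nat.card X = Nat.card M * m) (hm : m.Coprime p)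
    (K : Subgroup X) (hK : (Nat.card K).Coprime p) :
    ∃ H : Subgroup X, Nat.card H = m ∧ K ≤ H := by
  obtain ⟨k, hk⟩ := IsPGroup.iff_card.mp hMp
  have hMcop : (Nat.card M).Coprime m := by rw [hk]; exact Nat.Coprime.pow_left k hm.symm
  have hKM : (Nat.card K).Coprime (Nat.card M) := by rw [hk]; exact Nat.Coprime.pow_right k hK
  have hidx : M.index = m := by
    have := Subgroup.card_mul_index M
    rw [hX] at this
    exact Nat.eq_of_mul_eq_mul_left Nat.card_pos this
  obtain ⟨H₀, hH₀⟩ := Subgroup.exists_right_complement'_of_coprime (N := M)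
    (by rw [hidx]; exact hMcop)
  have hH₀card : Nat.card H₀ = m := by rw [← hidx]; exact hH₀.symm.index_eq_card.symm
  have hMK : M ⊓ K = ⊥ := (Subgroup.disjoint_of_coprime_natCard hKM.symm).eq_bot
  have hX' : Nat.card ↥(M ⊔ K) = Nat.card M * Nat.card K :=
    card_sup_of_normal_of_disjoint M K hMK
  have hc := card_complement_inf M H₀ hH₀ (M ⊔ K) le_sup_left
  have hcK : Nat.card ↥(H₀ ⊓ (M ⊔ K)) = Nat.card K :=
    Nat.eq_of_mul_eq_mul_left Nat.card_pos (hc.trans hX')
  haveI := hMp.isNilpotent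
  obtain ⟨x, hx, hxK⟩ := sz_conj M K (H₀ ⊓ (M ⊔ K))
    (by rw [Subgroup.normalizer_eq_top]; exact le_top) inf_le_right hcK hKM.symm
    (Or.inl inferInstance)
  refine ⟨MulAut.conj x⁻¹ • H₀, by rw [card_conj_smul, hH₀card], ?_⟩
  intro y hy
  rw [mem_conj_smul, inv_inv]
  have h5 : x * y * x⁻¹ ∈ MulAut.conj x • K := conj_mem_conj_smul hy
  rw [hxK] at h5
  exact h5.1

/-- dominance statement for `p`-complements -/
def PD (p : ℕ) (G : Type u) [Group G] : Prop :=
  ∀ m n : ℕ, Nat.card G = m * n → m.Coprime p → (∃ k, n = p ^ k) → ∀ K : Subgroup G,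
    (Nat.card K).Coprime p → ∃ H : Subgroup G, Nat.card H = m ∧ K ≤ H

theorem pD_all (p : ℕ) [Fact p.Prime] : ∀ (N : ℕ) (G : Type u) [Group G] [Finite G],
    Nat.card G = N → Cfsg.IsPSolvable p G → PD p G := by
  intro N
  induction N using Nat.strong_induction_on with
  | _ N ih =>
  intro G _ _ hN hG m n hmn hcop ⟨k, hk⟩ K hK
  have hp : p.Prime := Fact.out
  by_cases htriv : Subsingleton G
  · have h1 : Nat.card G = 1 := Nat.card_eq_one_iff_unique.mpr ⟨htriv, ⟨1⟩⟩
    have hm : m = 1 := by
      rw [h1] at hmn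
      exact Nat.eq_one_of_mul_eq_one_right hmn.symm
    refine ⟨⊥, by rw [hm]; simp, ?_⟩
    intro x _
    rw [Subgroup.mem_bot]
    exact Subsingleton.elim _ _
  · haveI : Nontrivial G := not_subsingleton_iff_nontrivial.mp htriv
    obtain ⟨M, hMn, hMbot, hM⟩ := Helper3.exists_normal_pgroup_or_coprime hG
    haveI := hMn
    have hMcard1 : 1 < Nat.card M := by
      rcases Nat.lt_or_ge 1 (Nat.card M) with h | h
      · exact h
      · exfalso
        have : Nat.card M = 1 := le_antisymm h Nat.card_pos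
        exact hMbot (Subgroup.card_eq_one.mp this)
    have hQcard : Nat.card G = Nat.card (G ⧸ M) * Nat.card M :=
      Subgroup.card_eq_card_quotient_mul_card_subgroup M
    have hQlt : Nat.card (G ⧸ M) < Nat.card G := by
      rw [hQcard]
      have : 0 < Nat.card (G ⧸ M) := Nat.card_pos
      nlinarith
    have ihQ : PD p (G ⧸ M) :=
      ih _ (hN ▸ hQlt) (G ⧸ M) rfl (Helper3.isPSolvable_quotient p M hG)
    have hKb : Nat.card (K.map (QuotientGroup.mk' M)) ∣ Nat.card K := Subgroup.card_map_dvd K _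
    have hMdvd : Nat.card M ∣ m * n := hmn ▸ Subgroup.card_subgroup_dvd_card M
    rcases hM with hMp | hMcop'
    · obtain ⟨j, hj⟩ := IsPGroup.iff_card.mp hMp
      have hMcop : (Nat.card M).Coprime m := by
        rw [hj]; exact Nat.Coprime.pow_left j hcop.symm
      have hMn' : Nat.card M ∣ n := hMcop.dvd_of_dvd_mul_left hMdvd
      obtain ⟨n', rfl⟩ := hMn'
      have hQ : Nat.card (G ⧸ M) = m * n' := by
        apply Nat.eq_of_mul_eq_mul_right (Nat.card_pos (α := M)); rw [← hQcard, hmn]; ring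
      have hn' : ∃ k', n' = p ^ k' := by
        have h1 : n' ∣ p ^ k := hk ▸ Dvd.intro_left _ rfl
        obtain ⟨i, -, hi⟩ := (Nat.dvd_prime_pow hp).mp h1
        exact ⟨i, hi⟩
      obtain ⟨Lb, hLb, hKLb⟩ := ihQ m n' hQ hcop hn' (K.map (QuotientGroup.mk' M))
        (Nat.Coprime.coprime_dvd_left hKb hK)
      have hLcard : Nat.card (Lb.comap (QuotientGroup.mk' M)) = Nat.card M * m := by
        rw [card_comap_mk, hLb]
      have hKL : K ≤ Lb.comap (QuotientGroup.mk' M) :=
        (Subgroup.le_comap_map _ K).trans (Subgroup.comap_mono hKLb)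
      have hML : M ≤ Lb.comap (QuotientGroup.mk' M) := by
        intro x hx
        show QuotientGroup.mk' M x ∈ Lb
        have : QuotientGroup.mk' M x = 1 := by
          rw [← MonoidHom.mem_ker, QuotientGroup.ker_mk']; exact hx
        rw [this]; exact Lb.one_mem
      obtain ⟨H', hH', hKH'⟩ := szD p (M.subgroupOf (Lb.comap (QuotientGroup.mk' M)))
        (hMp.comap_subtype) m (by rw [card_subgroupOf_of_le hML, hLcard]) hcop
        (K.subgroupOf (Lb.comap (QuotientGroup.mk' M)))
        (by rw [card_subgroupOf_of_le hKL]; exact hK)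
      refine ⟨H'.map (Subgroup.subtype _), by
        rw [Subgroup.card_map_of_injective (Subgroup.subtype_injective _), hH'], ?_⟩
      intro y hy
      exact ⟨⟨y, hKL hy⟩, hKH' hy, rfl⟩
    · have hMm : Nat.card M ∣ m := by
        have h2 : (Nat.card M).Coprime n := by rw [hk]; exact Nat.Coprime.pow_right k hMcop'
        exact h2.dvd_of_dvd_mul_right hMdvd
      obtain ⟨m', rfl⟩ := hMm
      have hQ : Nat.card (G ⧸ M) = m' * n := by
        apply Nat.eq_of_mul_eq_mul_right (Nat.card_pos (α := M)); rw [← hQcard, hmn]; ring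
      obtain ⟨Hb, hHb, hKHb⟩ := ihQ m' n hQ
        (Nat.Coprime.coprime_dvd_left (Dvd.intro_left _ rfl) hcop) ⟨k, hk⟩
        (K.map (QuotientGroup.mk' M)) (Nat.Coprime.coprime_dvd_left hKb hK)
      refine ⟨Hb.comap (QuotientGroup.mk' M), by rw [card_comap_mk, hHb], ?_⟩
      exact (Subgroup.le_comap_map _ K).trans (Subgroup.comap_mono hKHb)

/-- conjugacy statement for `p`-complements -/
def PC (p : ℕ) (G : Type u) [Group G] : Prop :=
  ∀ m n : ℕ, Nat.card G = m * n → m.Coprime p → (∃ k, n = p ^ k) → ∀ H H' : Subgroup G,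
    Nat.card H = m → Nat.card H' = m → ∃ g : G, MulAut.conj g • H = H'

theorem pC_all (p : ℕ) [Fact p.Prime] : ∀ (N : ℕ) (G : Type u) [Group G] [Finite G],
    Nat.card G = N → Cfsg.IsPSolvable p G → PC p G := by
  intro N
  induction N using Nat.strong_induction_on with
  | _ N ih =>
  intro G _ _ hN hG m n hmn hcop ⟨k, hk⟩ H H' hH hH'
  have hp : p.Prime := Fact.out
  by_cases htriv : Subsingleton G
  · refine ⟨1, ?_⟩
    ext x
    have hx : x = 1 := Subsingleton.elim _ _
    simp [hx, Subgroup.one_mem]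
  · haveI : Nontrivial G := not_subsingleton_iff_nontrivial.mp htriv
    obtain ⟨M, hMn, hMbot, hM⟩ := Helper3.exists_normal_pgroup_or_coprime hG
    haveI := hMn
    have hMcard1 : 1 < Nat.card M := by
      rcases Nat.lt_or_ge 1 (Nat.card M) with h | h
      · exact h
      · exfalso
        have : Nat.card M = 1 := le_antisymm h Nat.card_pos
        exact hMbot (Subgroup.card_eq_one.mp this)
    have hQcard : Nat.card G = Nat.card (G ⧸ M) * Nat.card M :=
      Subgroup.card_eq_card_quotient_mul_card_subgroup M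
    have hQlt : Nat.card (G ⧸ M) < Nat.card G := by
      rw [hQcard]
      have : 0 < Nat.card (G ⧸ M) := Nat.card_pos
      nlinarith
    have ihQ : PC p (G ⧸ M) :=
      ih _ (hN ▸ hQlt) (G ⧸ M) rfl (Helper3.isPSolvable_quotient p M hG)
    have hMdvd : Nat.card M ∣ m * n := hmn ▸ Subgroup.card_subgroup_dvd_card M
    have hker : (QuotientGroup.mk' M).ker = M := QuotientGroup.ker_mk' M
    have hm0 : m ≠ 0 := by
      rintro rfl; rw [zero_mul] at hmn; exact (Nat.card_pos (α := G)).ne' hmn
    rcases hM with hMp | hMcop'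
    · obtain ⟨j, hj⟩ := IsPGroup.iff_card.mp hMp
      have hMcop : (Nat.card M).Coprime m := by
        rw [hj]; exact Nat.Coprime.pow_left j hcop.symm
      have hMn' : Nat.card M ∣ n := hMcop.dvd_of_dvd_mul_left hMdvd
      obtain ⟨n', rfl⟩ := hMn'
      have hQ : Nat.card (G ⧸ M) = m * n' := by
        apply Nat.eq_of_mul_eq_mul_right (Nat.card_pos (α := M)); rw [← hQcard, hmn]; ring
      have hn' : ∃ k', n' = p ^ k' := by
        have h1 : n' ∣ p ^ k := hk ▸ Dvd.intro_left _ rfl
        obtain ⟨i, -, hi⟩ := (Nat.dvd_prime_pow hp).mp h1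
        exact ⟨i, hi⟩
      have hsupcard : ∀ X : Subgroup G, Nat.card X = m →
          Nat.card ↥(M ⊔ X) = Nat.card M * m := by
        intro X hX
        rw [card_sup_of_normal_of_disjoint M X
          ((Subgroup.disjoint_of_coprime_natCard (by rw [hX]; exact hMcop)).eq_bot), hX]
      have hcardb : ∀ X : Subgroup G, Nat.card X = m →
          Nat.card (X.map (QuotientGroup.mk' M)) = m := by
        intro X hX
        have h1 := card_comap_mk M (X.map (QuotientGroup.mk' M))
        rw [Subgroup.comap_map_eq, hker, sup_comm, hsupcard X hX] at h1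
        exact (Nat.eq_of_mul_eq_mul_left Nat.card_pos h1).symm
      obtain ⟨gb, hgb⟩ := ihQ m n' hQ hcop hn'
        (H.map (QuotientGroup.mk' M)) (H'.map (QuotientGroup.mk' M)) (hcardb H hH) (hcardb H' hH')
      obtain ⟨g, rfl⟩ := QuotientGroup.mk'_surjective M gb
      rw [← map_conj_smul] at hgb
      have e3 := congrArg (Subgroup.comap (QuotientGroup.mk' M)) hgb
      rw [Subgroup.comap_map_eq, Subgroup.comap_map_eq, hker] at e3
      have hcH₁ : Nat.card ↥(MulAut.conj g • H) = m := by rw [card_conj_smul, hH]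
      have hLcard : Nat.card ↥(H' ⊔ M) = Nat.card M * m := by
        rw [sup_comm]; exact hsupcard H' hH'
      haveI := hMp.isNilpotent
      have hH₁L : MulAut.conj g • H ≤ H' ⊔ M := e3 ▸ le_sup_left
      obtain ⟨x, -, hx⟩ := sz_conj_internal (H' ⊔ M) M (MulAut.conj g • H) H' le_sup_right hH₁L
        le_sup_left (by rw [Subgroup.normalizer_eq_top]; exact le_top) (by rw [hcH₁, hLcard])
        (by rw [hcH₁, hH']) (by rw [hcH₁]; exact hMcop) (Or.inl inferInstance)
      exact ⟨x * g, by rw [map_mul, mul_smul]; exact hx⟩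
    · have hMle : ∀ X : Subgroup G, Nat.card X = m → M ≤ X := by
        intro X hX
        have h1 := Helper7.card_sup_mul_card_inf X M
        have h2 : Nat.card ↥(X ⊔ M) ∣ Nat.card X * Nat.card M := Dvd.intro _ h1
        have h3 : (Nat.card ↥(X ⊔ M)).Coprime p :=
          Nat.Coprime.coprime_dvd_left h2 (Nat.Coprime.mul_left (hX ▸ hcop) hMcop')
        have h4 : Nat.card ↥(X ⊔ M) ∣ m * n := hmn ▸ Subgroup.card_subgroup_dvd_card _
        have h5 : Nat.card ↥(X ⊔ M) ∣ m :=
          (by rw [hk]; exact Nat.Coprime.pow_right k h3 :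
            (Nat.card ↥(X ⊔ M)).Coprime n).dvd_of_dvd_mul_right h4
        have h6 : Nat.card ↥(X ⊔ M) ≤ Nat.card X :=
          hX ▸ Nat.le_of_dvd (Nat.pos_of_ne_zero hm0) h5
        have h7 : X = X ⊔ M := Subgroup.eq_of_le_of_card_ge le_sup_left h6
        exact le_sup_right.trans h7.ge
      have hMH := hMle H hH
      have hMH' := hMle H' hH'
      have hMm : Nat.card M ∣ m := hH ▸ Subgroup.card_dvd_of_le hMH
      obtain ⟨m', rfl⟩ := hMm
      have hQ : Nat.card (G ⧸ M) = m' * n := by
        apply Nat.eq_of_mul_eq_mul_right (Nat.card_pos (α := M)); rw [← hQcard, hmn]; ring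
      have hcardb : ∀ X : Subgroup G, M ≤ X → Nat.card X = Nat.card M * m' →
          Nat.card (X.map (QuotientGroup.mk' M)) = m' := by
        intro X hMX hX
        have h1 := card_comap_mk M (X.map (QuotientGroup.mk' M))
        rw [Subgroup.comap_map_eq, hker, sup_eq_left.mpr hMX, hX] at h1
        exact (Nat.eq_of_mul_eq_mul_left Nat.card_pos h1).symm
      obtain ⟨gb, hgb⟩ := ihQ m' n hQ
        (Nat.Coprime.coprime_dvd_left (Dvd.intro_left _ rfl) hcop) ⟨k, hk⟩
        (H.map (QuotientGroup.mk' M)) (H'.map (QuotientGroup.mk' M))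
        (hcardb H hMH hH) (hcardb H' hMH' hH')
      obtain ⟨g, rfl⟩ := QuotientGroup.mk'_surjective M gb
      refine ⟨g, ?_⟩
      rw [← map_conj_smul] at hgb
      have e3 := congrArg (Subgroup.comap (QuotientGroup.mk' M)) hgb
      rw [Subgroup.comap_map_eq, Subgroup.comap_map_eq, hker, sup_eq_left.mpr hMH'] at e3
      rw [← e3]
      symm
      rw [sup_eq_left]
      have h5 : MulAut.conj g • M ≤ MulAut.conj g • H := by
        intro x hx
        rw [mem_conj_smul] at hx ⊢
        exact hMH hx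
      rwa [Subgroup.Normal.conj_smul_eq_self g M] at h5

end Cfsg.Agent.Lib.Helper6
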