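import Mathlib
import Cfsg.Agent.Lib.Lead.Block3
import Cfsg.Agent.Lib.Lead.Char7
import Cfsg.Agent.Lib.Helper8.Codeg8

set_option autoImplicit false

/-! The defect groups of the principal block are the Sylow `p`-subgroups. -/

namespace Cfsg.Agent.Lib.Helper6

open Cfsg.Agent.Lib.Lead

theorem centralChar_conj_eq {G : Type*} [Group G] [Finite G] (χ : Cfsg.IrrCharacter G) (g x : G) :
    Cfsg.centralChar χ.1 (x * g * x⁻¹) = Cfsg.centralChar χ.1 g := by
  unfold Cfsg.centralChar
  have h1 : χ.1 (x * g * x⁻¹) = χ.1 g := by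
    obtain ⟨n, ρ, hρ, hρχ⟩ := χ.2
    rw [← hρχ]
    exact Representation.char_conj ρ g x
  have h2 : (Subgroup.centralizer ({x * g * x⁻¹} : Set G)).index =
      (Subgroup.centralizer ({g} : Set G)).index := by
    rw [index_centralizer_eq, index_centralizer_eq]
    apply Nat.card_congr
    apply Equiv.subtypeEquivRight
    intro y
    have hc : IsConj g (x * g * x⁻¹) := isConj_iff.mpr ⟨x, rfl⟩
    exact ⟨fun h => hc.trans h, fun h => hc.symm.trans h⟩
  rw [h1, h2]

theorem principal_defect_sylow {G : Type*} [Group G] [Finite G] (p : ℕ) [Fact p.Prime]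
    (M : Ideal Cfsg.AlgInt) (hM : Cfsg.IsPModular p M) (D : Subgroup G) :
    Cfsg.IsDefectGroup p M (Cfsg.principalBlock M G) D ↔ ∃ S : Sylow p G, (S : Subgroup G) = D := by
  classical
  haveI : Fintype G := Fintype.ofFinite G
  haveI : Fintype (Cfsg.IrrCharacter G) := Fintype.ofFinite _
  have hmax := hM.2.1
  have hone : irrOne G ∈ Cfsg.principalBlock M G := by
    intro g
    have e : Cfsg.centralChar (fun _ : G => (1 : ℂ)) g - Cfsg.centralChar ((irrOne G) : G → ℂ) g
        = 0 := sub_self _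
    rw [e]
    exact mli_zero hmax
  have key : ∀ g : G, Cfsg.IsDefectClass M (Cfsg.principalBlock M G) g →
      ¬ p ∣ (Subgroup.centralizer ({g} : Set G)).index := by
    intro g hg hdvd
    apply hg.2.2 (irrOne G) hone
    have e : Cfsg.centralChar ((irrOne G) : G → ℂ) g =
        ((Subgroup.centralizer ({g} : Set G)).index : ℂ) := by
      show ((Subgroup.centralizer ({g} : Set G)).index : ℂ) * 1 / 1 = _
      simp
    rw [e]
    exact mli_natCast_of_dvd hM hdvd
  have hcard : ∀ g : G, ¬ p ∣ (Subgroup.centralizer ({g} : Set G)).index →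
      ∀ P : Sylow p (Subgroup.centralizer ({g} : Set G)),
      Nat.card ((P : Subgroup (Subgroup.centralizer ({g} : Set G))).map
        (Subgroup.centralizer ({g} : Set G)).subtype) = p ^ (Nat.card G).factorization p := by
    intro g hk P
    rw [Subgroup.card_map_of_injective (Subgroup.centralizer ({g} : Set G)).subtype_injective,
      Sylow.card_eq_multiplicity]
    congr 1
    have h1 : Nat.card (Subgroup.centralizer ({g} : Set G)) *
        (Subgroup.centralizer ({g} : Set G)).index = Nat.card G := Subgroup.card_mul_index _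
    rw [← h1, Nat.factorization_mul (Nat.card_pos.ne') (fun h0 => hk (by rw [h0]; exact dvd_zero p))]
    simp [Nat.factorization_eq_zero_of_not_dvd hk]
  constructor
  · rintro ⟨g, hg, P, rfl⟩
    exact ⟨Sylow.ofCard _ (hcard g (key g hg) P), rfl⟩
  · rintro ⟨S, rfl⟩
    obtain ⟨g, hg⟩ := exists_defect_class_thm p M hM _ ⟨irrOne G, rfl⟩
    have hk := key g hg
    obtain ⟨P⟩ : Nonempty (Sylow p (Subgroup.centralizer ({g} : Set G))) := inferInstance
    obtain ⟨x, hx⟩ := MulAction.exists_smul_eq G (Sylow.ofCard _ (hcard g hk P)) S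
    have hSle : (S : Subgroup G) ≤ Subgroup.centralizer ({x * g * x⁻¹} : Set G) := by
      rw [← hx]
      intro y hy
      rw [Sylow.coe_subgroup_smul, Subgroup.mem_pointwise_smul_iff_inv_smul_mem] at hy
      rw [Sylow.coe_ofCard] at hy
      obtain ⟨⟨c, hc⟩, -, hcy⟩ := hy
      have hcy' : c = x⁻¹ * y * x⁻¹⁻¹ := by
        have := hcy
        simpa [MulAut.smul_def, MulAut.conj_apply] using this
      rw [Subgroup.mem_centralizer_iff] at hc ⊢
      intro z hz
      rw [Set.mem_singleton_iff] at hz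
      subst hz
      have h1 := hc g (Set.mem_singleton g)
      rw [hcy'] at h1
      have h2 : y = x * (x⁻¹ * y * x⁻¹⁻¹) * x⁻¹ := by group
      rw [h2]
      calc x * g * x⁻¹ * (x * (x⁻¹ * y * x⁻¹⁻¹) * x⁻¹)
          = x * (g * (x⁻¹ * y * x⁻¹⁻¹)) * x⁻¹ := by group
        _ = x * ((x⁻¹ * y * x⁻¹⁻¹) * g) * x⁻¹ := by rw [h1]
        _ = x * (x⁻¹ * y * x⁻¹⁻¹) * x⁻¹ * (x * g * x⁻¹) := by group
    refine ⟨x * g * x⁻¹, ?_, S.subtype hSle, ?_⟩
    · obtain ⟨h1, h2, h3⟩ := hg
      have hcf : Cfsg.blockCoeff (Cfsg.principalBlock M G) (x * g * x⁻¹) =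
          Cfsg.blockCoeff (Cfsg.principalBlock M G) g :=
        blockCoeff_classFn (Cfsg.principalBlock M G) g x
      refine ⟨?_, ?_, ?_⟩
      · rw [hcf]; exact h1
      · rw [hcf]; exact h2
      · intro χ hχ
        rw [centralChar_conj_eq]
        exact h3 χ hχ
    · rw [Sylow.coe_subtype, Subgroup.map_subgroupOf_eq_of_le hSle]

end Cfsg.Agent.Lib.Helper6
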