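import Mathlib
import Cfsg.Agent.Lib.Helper6.Alperin
import Cfsg.Agent.Lib.Lead.NormalEA
import Cfsg.Agent.Lib.Lead.Hall
import Cfsg.Agent.Lib.Lead.Nilpotent
import Cfsg.Agent.Lib.Lead.Char7

/-!
# For odd `p`, a `p`-group without normal elementary abelian subgroups of order `p^3` has
`p`-rank at most two
-/

set_option autoImplicit false

namespace Cfsg.Agent.Lib.Helper6

open Cfsg.Agent.Lib

/-- normal subgroups of every order inside a normal subgroup of a `p`-group -/
theorem exists_normal_card_pow {R : Type*} [Group R] [Finite R] {p : ℕ} [Fact p.Prime]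
    (hR : IsPGroup p R) (N : Subgroup R) [hN : N.Normal] :
    ∀ k : ℕ, p ^ k ≤ Nat.card N → ∃ A : Subgroup R, A.Normal ∧ A ≤ N ∧ Nat.card A = p ^ k := by
  have hp : p.Prime := Fact.out
  intro k
  induction k with
  | zero =>
    intro _
    exact ⟨⊥, inferInstance, bot_le, by simp⟩
  | succ k ih =>
    intro hk
    obtain ⟨A, hAn, hAN, hAc⟩ := ih (le_trans (Nat.pow_le_pow_right hp.pos (Nat.le_succ k)) hk)
    haveI := hAn
    have hne : N.map (QuotientGroup.mk' A) ≠ ⊥ := by
      intro h
      have hNA : N ≤ A := by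
        intro x hx
        have h1 : QuotientGroup.mk' A x ∈ N.map (QuotientGroup.mk' A) :=
          Subgroup.mem_map_of_mem _ hx
        rw [h, Subgroup.mem_bot] at h1
        exact (QuotientGroup.eq_one_iff x).mp h1
      have h2 : Nat.card N ≤ Nat.card A := Subgroup.card_le_of_le hNA
      rw [hAc] at h2
      have h3 : p ^ k < p ^ (k + 1) := Nat.pow_lt_pow_right hp.one_lt (Nat.lt_succ_self k)
      omega
    haveI : (N.map (QuotientGroup.mk' A)).Normal :=
      Subgroup.Normal.map hN _ (QuotientGroup.mk'_surjective A)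
    obtain ⟨z, hzN, hzc, hzo⟩ :=
      Lead.exists_central_order_p (hR.to_quotient A) (N.map (QuotientGroup.mk' A)) hne
    have hZn : (Subgroup.zpowers z).Normal :=
      Lead.normal_of_le_center' (by rw [Subgroup.zpowers_le]; exact hzc)
    refine ⟨(Subgroup.zpowers z).comap (QuotientGroup.mk' A), Subgroup.Normal.comap hZn _, ?_, ?_⟩
    · intro x hx
      have hx' : QuotientGroup.mk' A x ∈ N.map (QuotientGroup.mk' A) :=
        (Subgroup.zpowers_le.mpr hzN) hx
      obtain ⟨n', hn', hn'x⟩ := Subgroup.mem_map.mp hx'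
      have h1 : n'⁻¹ * x ∈ A := QuotientGroup.eq.mp hn'x
      have h2 := N.mul_mem hn' (hAN h1)
      simpa using h2
    · rw [Lead.card_comap_mk, hAc, Nat.card_zpowers, hzo, pow_succ]

/-- the rank-two theorem -/
theorem prank_le_two {P : Type*} [Group P] [Finite P] {p : ℕ} [Fact p.Prime] (hp : p ≠ 2)
    (hP : IsPGroup p P)
    (h : ∀ A : Subgroup P, A.Normal → IsMulCommutative A → (∀ a ∈ A, a ^ p = 1) →
      Nat.card A ≠ p ^ 3)
    (E : Subgroup P) (hE : IsMulCommutative E) (hEe : ∀ e ∈ E, e ^ p = 1) :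
    Nat.card E ≤ p ^ 2 := by
  classical
  have hpp : p.Prime := Fact.out
  haveI : Nonempty {A : Subgroup P // A.Normal ∧ IsMulCommutative A ∧ ∀ a ∈ A, a ^ p = 1} :=
    ⟨⟨⊥, inferInstance, ⟨⟨fun a b => Subsingleton.elim _ _⟩⟩,
      fun a ha => by rw [Subgroup.mem_bot.mp ha, one_pow]⟩⟩
  obtain ⟨⟨B, hBn, hBc, hBe⟩, hBmax⟩ := Finite.exists_max
    (fun A : {A : Subgroup P // A.Normal ∧ IsMulCommutative A ∧ ∀ a ∈ A, a ^ p = 1} =>
      Nat.card A.1)
  haveI := hBn
  have hmax : ∀ B' : Subgroup P, B'.Normal → IsMulCommutative B' →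
      (∀ b ∈ B', b ^ p ^ 1 = 1) → B ≤ B' → B' = B := by
    intro B' h1 h2 h3 h4
    have h5 := hBmax ⟨B', h1, h2, fun b hb => by simpa using h3 b hb⟩
    exact (Subgroup.eq_of_le_of_card_ge h4 h5).symm
  have hΩ : ∀ x ∈ Subgroup.centralizer (B : Set P), x ^ p = 1 → x ∈ B := by
    intro x hx hxp
    exact alperin_omega hP 1 (by rw [pow_one]; exact hp) B hBc
      (fun a ha => by rw [pow_one]; exact hBe a ha) hmax x hx (by rw [pow_one]; exact hxp)
  obtain ⟨β, hβ⟩ := IsPGroup.iff_card.mp (hP.to_subgroup B)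
  have hβ2 : β ≤ 2 := by
    by_contra hgt
    push Not at hgt
    have h3 : p ^ 3 ≤ Nat.card B := by
      rw [hβ]
      exact Nat.pow_le_pow_right hpp.pos hgt
    obtain ⟨A, hAn, hAB, hAc⟩ := exists_normal_card_pow hP B 3 h3
    apply h A hAn ?_ (fun a ha => hBe a (hAB ha)) hAc
    exact ⟨⟨fun a b => Subtype.ext (by
      have h9 : (a.1 : P) * b.1 = b.1 * a.1 :=
        congrArg (fun t : B => (t : P)) (hBc.is_comm.comm ⟨a.1, hAB a.2⟩ ⟨b.1, hAB b.2⟩)
      exact h9)⟩⟩
  have hBcard : Nat.card B ≤ p ^ 2 := by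
    rw [hβ]
    exact Nat.pow_le_pow_right hpp.pos hβ2
  have hEcomm : ∀ a ∈ E, ∀ b ∈ E, a * b = b * a :=
    fun a ha b hb => congrArg Subtype.val (hE.is_comm.comm ⟨a, ha⟩ ⟨b, hb⟩)
  have hfin : E ≤ Subgroup.centralizer (B : Set P) → Nat.card E ≤ p ^ 2 := by
    intro hEC
    have hEB : E ≤ B := fun e he => hΩ e (hEC he) (hEe e he)
    exact le_trans (Subgroup.card_le_of_le hEB) hBcard
  by_cases hBZ : B ≤ Subgroup.center P
  · apply hfin
    intro e _
    rw [Subgroup.mem_centralizer_iff]
    intro b hb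
    exact (Subgroup.mem_center_iff.mp (hBZ hb) e).symm
  · obtain ⟨b, hbB, hbZ⟩ := Set.not_subset.mp hBZ
    have hb1 : b ≠ 1 := by
      rintro rfl
      exact hbZ (Subgroup.one_mem _)
    obtain ⟨K, hK⟩ : ∃ K : Subgroup P, K = Subgroup.centralizer ({b} : Set P) := ⟨_, rfl⟩
    have hKidx : K.index ≤ p := by
      have h1 : K.index = Nat.card {x : P // IsConj b x} := by
        rw [hK]
        exact Lead.index_centralizer_eq b
      have h2 : Nat.card {x : P // IsConj b x} < Nat.card B := by
        haveI : Fintype {x : P // IsConj b x} := Fintype.ofFinite _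
        haveI : Fintype B := Fintype.ofFinite _
        rw [Nat.card_eq_fintype_card, Nat.card_eq_fintype_card]
        have hmem : ∀ x : {x : P // IsConj b x}, x.1 ∈ B := by
          intro x
          obtain ⟨c, hc⟩ := isConj_iff.mp x.2
          rw [← hc]
          exact hBn.conj_mem b hbB c
        apply Fintype.card_lt_of_injective_of_notMem
          (fun x : {x : P // IsConj b x} => (⟨x.1, hmem x⟩ : B)) (b := 1)
        · intro x y hxy
          have h9 : (x.1 : P) = y.1 := congrArg (fun t : B => (t : P)) hxy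
          exact Subtype.ext h9
        · rintro ⟨x, hx⟩
          have hx1 : x.1 = 1 := congrArg Subtype.val hx
          have hconj := x.2
          rw [hx1] at hconj
          exact hb1 (isConj_one_left.mp hconj)
      obtain ⟨κ, hκ⟩ : ∃ κ, K.index = p ^ κ := by
        have hdvd : K.index ∣ Nat.card P := Subgroup.index_dvd_card K
        obtain ⟨π, hπ⟩ := IsPGroup.iff_card.mp hP
        rw [hπ] at hdvd
        obtain ⟨κ, -, hκ⟩ := (Nat.dvd_prime_pow hpp).mp hdvd
        exact ⟨κ, hκ⟩
      have hlt : p ^ κ < p ^ 2 := by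
        rw [← hκ, h1]
        exact lt_of_lt_of_le h2 hBcard
      have hκ1 : κ < 2 := (Nat.pow_lt_pow_iff_right hpp.one_lt).mp hlt
      rw [hκ]
      calc p ^ κ ≤ p ^ 1 := Nat.pow_le_pow_right hpp.pos (by omega)
        _ = p := pow_one p
    have hKC : K ≤ Subgroup.centralizer (B : Set P) := by
      intro g hg
      rw [hK] at hg
      obtain ⟨D, hD⟩ : ∃ D : Subgroup P, D = B ⊓ Subgroup.centralizer ({g} : Set P) := ⟨_, rfl⟩
      obtain ⟨Z₁, hZ₁⟩ : ∃ Z₁ : Subgroup P, Z₁ = B ⊓ Subgroup.center P := ⟨_, rfl⟩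
      have hZ₁ne : Z₁ ≠ ⊥ := by
        haveI := hP.isNilpotent
        rw [hZ₁]
        apply Lead.normal_inf_center_ne_bot B
        rintro rfl
        exact hb1 (Subgroup.mem_bot.mp hbB)
      have hZ₁D : Z₁ ≤ D := by
        intro x hx
        rw [hZ₁] at hx
        rw [hD]
        refine ⟨hx.1, ?_⟩
        show x ∈ Subgroup.centralizer ({g} : Set P)
        rw [Subgroup.mem_centralizer_iff]
        intro y hy
        rw [Set.mem_singleton_iff] at hy
        subst hy
        exact Subgroup.mem_center_iff.mp hx.2 y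
      have hbD : b ∈ D := by
        rw [hD]
        refine ⟨hbB, ?_⟩
        show b ∈ Subgroup.centralizer ({g} : Set P)
        rw [Subgroup.mem_centralizer_iff]
        intro y hy
        rw [Set.mem_singleton_iff] at hy
        subst hy
        exact (hg b rfl).symm
      have hbZ₁ : b ∉ Z₁ := fun hb => hbZ (by rw [hZ₁] at hb; exact hb.2)
      have hlt : Nat.card Z₁ < Nat.card D := by
        by_contra hh
        push Not at hh
        have := Subgroup.eq_of_le_of_card_ge hZ₁D hh
        exact hbZ₁ (this ▸ hbD)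
      have hpZ : p ≤ Nat.card Z₁ := by
        obtain ⟨ζ, hζ⟩ := IsPGroup.iff_card.mp (hP.to_subgroup Z₁)
        rcases Nat.eq_zero_or_pos ζ with h0 | hpos
        · exfalso
          apply hZ₁ne
          rw [h0, pow_zero] at hζ
          exact Subgroup.card_eq_one.mp hζ
        · rw [hζ]
          calc p = p ^ 1 := (pow_one p).symm
            _ ≤ p ^ ζ := Nat.pow_le_pow_right hpp.pos hpos
      have hDB : D = B := by
        have hle : D ≤ B := by
          rw [hD]
          exact inf_le_left
        apply Subgroup.eq_of_le_of_card_ge hle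
        obtain ⟨δ, hδ⟩ := IsPGroup.iff_card.mp (hP.to_subgroup D)
        have h1 : p < p ^ δ := by
          rw [← hδ]
          omega
        have hδ2 : 2 ≤ δ := by
          by_contra hh
          push Not at hh
          have h2 : p ^ δ ≤ p ^ 1 := Nat.pow_le_pow_right hpp.pos (by omega)
          rw [pow_one] at h2
          omega
        calc Nat.card B ≤ p ^ 2 := hBcard
          _ ≤ p ^ δ := Nat.pow_le_pow_right hpp.pos hδ2
          _ = Nat.card D := hδ.symm
      rw [Subgroup.mem_centralizer_iff]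
      intro x hx
      have hxD : x ∈ D := by
        rw [hDB]
        exact hx
      rw [hD] at hxD
      exact (hxD.2 g rfl).symm
    have hcardE : Nat.card E ≤ p * Nat.card (K ⊓ E : Subgroup P) := by
      have h1 : (K ⊓ E).index ≤ K.index * E.index := Subgroup.index_inf_le
      have h2 := Subgroup.card_mul_index (K ⊓ E)
      have h3 := Subgroup.card_mul_index E
      have hEpos : 0 < E.index := Nat.pos_of_ne_zero Subgroup.index_ne_zero_of_finite
      have h4 : Nat.card E * E.index ≤ (p * Nat.card (K ⊓ E : Subgroup P)) * E.index := by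
        calc Nat.card E * E.index = Nat.card (K ⊓ E : Subgroup P) * (K ⊓ E).index := by
              rw [h3, h2]
          _ ≤ Nat.card (K ⊓ E : Subgroup P) * (K.index * E.index) := Nat.mul_le_mul_left _ h1
          _ ≤ Nat.card (K ⊓ E : Subgroup P) * (p * E.index) :=
              Nat.mul_le_mul_left _ (Nat.mul_le_mul_right _ hKidx)
          _ = (p * Nat.card (K ⊓ E : Subgroup P)) * E.index := by ring
      exact Nat.le_of_mul_le_mul_right h4 hEpos
    have hKEB : (K ⊓ E : Subgroup P) ≤ B := fun x hx => hΩ x (hKC hx.1) (hEe x hx.2)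
    by_cases hsmall : Nat.card (K ⊓ E : Subgroup P) ≤ p
    · calc Nat.card E ≤ p * Nat.card (K ⊓ E : Subgroup P) := hcardE
        _ ≤ p * p := Nat.mul_le_mul_left _ hsmall
        _ = p ^ 2 := (pow_two p).symm
    · push Not at hsmall
      have hKEeq : (K ⊓ E : Subgroup P) = B := by
        apply Subgroup.eq_of_le_of_card_ge hKEB
        obtain ⟨δ, hδ⟩ := IsPGroup.iff_card.mp (hP.to_subgroup (K ⊓ E))
        have hδ2 : 2 ≤ δ := by
          by_contra hh
          push Not at hh
          have h2 : p ^ δ ≤ p ^ 1 := Nat.pow_le_pow_right hpp.pos (by omega)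
          rw [pow_one, ← hδ] at h2
          omega
        calc Nat.card B ≤ p ^ 2 := hBcard
          _ ≤ p ^ δ := Nat.pow_le_pow_right hpp.pos hδ2
          _ = _ := hδ.symm
      apply hfin
      intro e he
      rw [Subgroup.mem_centralizer_iff]
      intro x hx
      have hxE : x ∈ E := by
        have hx' : x ∈ (K ⊓ E : Subgroup P) := by
          rw [hKEeq]
          exact hx
        exact hx'.2
      exact hEcomm x hxE e he

end Cfsg.Agent.Lib.Helper6
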