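import Mathlib
import Cfsg.Agent.Lib.Helper6.FrobNC

set_option autoImplicit false

/-! Fusion of the order-four subgroups of a quaternion Sylow 2-subgroup. -/

namespace Cfsg.Agent.Lib.Helper6

theorem q8_F4 : ∀ x y s : QuaternionGroup 2, x ^ 2 ≠ 1 → y ^ 2 ≠ 1 → y ≠ x → y ≠ x⁻¹ →
    s = 1 ∨ s = x ^ 2 ∨ s = x ∨ s = x⁻¹ ∨ s = y ∨ s = y⁻¹ ∨ s = x * y ∨ s = (x * y)⁻¹ := by
  decide

theorem q8_F5 : ∀ x : QuaternionGroup 2, x ^ 4 = 1 := by decide

theorem q8_F3 : ∀ x y : QuaternionGroup 2, x ^ 2 * y = y * x ^ 2 := by decide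

theorem q8_F6 : ∀ x y : QuaternionGroup 2, x ^ 2 = 1 → y ^ 2 = 1 → x = 1 ∨ y = 1 ∨ x = y := by
  decide

/-- the elementwise properties of a quaternion subgroup of order 8 that we use -/
def Q8Like {G : Type*} [Group G] (T : Subgroup G) : Prop :=
  (∀ x ∈ T, ∀ y ∈ T, ∀ s ∈ T, x ^ 2 ≠ 1 → y ^ 2 ≠ 1 → y ≠ x → y ≠ x⁻¹ →
      s = 1 ∨ s = x ^ 2 ∨ s = x ∨ s = x⁻¹ ∨ s = y ∨ s = y⁻¹ ∨ s = x * y ∨ s = (x * y)⁻¹) ∧
    (∀ x ∈ T, x ^ 4 = 1) ∧ (∀ x ∈ T, ∀ y ∈ T, x ^ 2 * y = y * x ^ 2) ∧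
    (∀ x ∈ T, ∀ y ∈ T, x ^ 2 = 1 → y ^ 2 = 1 → x = 1 ∨ y = 1 ∨ x = y)

theorem q8Like_of_equiv {G : Type*} [Group G] (T : Subgroup G) (e : T ≃* QuaternionGroup 2) :
    Q8Like T := by
  refine ⟨?_, ?_, ?_, ?_⟩
  · intro x hx y hy s hs
    have := q8_F4 (e ⟨x, hx⟩) (e ⟨y, hy⟩) (e ⟨s, hs⟩)
    simpa [← map_pow, ← map_mul, ← map_inv, Subtype.ext_iff] using this
  · intro x hx
    have := q8_F5 (e ⟨x, hx⟩)
    simpa [← map_pow, Subtype.ext_iff] using this
  · intro x hx y hy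
    have := q8_F3 (e ⟨x, hx⟩) (e ⟨y, hy⟩)
    simpa [← map_pow, ← map_mul, Subtype.ext_iff] using this
  · intro x hx y hy
    have := q8_F6 (e ⟨x, hx⟩) (e ⟨y, hy⟩)
    simpa [← map_pow, Subtype.ext_iff] using this

theorem conj4_fix {G : Type*} [Group G] [Finite G] (g : G) (hcop : (orderOf g).Coprime 2) (x : G)
    (h : MulAut.conj g (MulAut.conj g (MulAut.conj g (MulAut.conj g x))) = x) :
    MulAut.conj g x = x := by
  have h4 : Commute (g ^ 4) x := by
    have h0 : MulAut.conj g (MulAut.conj g (MulAut.conj g (MulAut.conj g x)))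
        = g ^ 4 * x * (g ^ 4)⁻¹ := by
      simp only [MulAut.conj_apply, pow_succ, pow_zero, one_mul, mul_inv_rev, mul_assoc]
    rw [h0] at h
    exact (mul_inv_eq_iff_eq_mul.mp h)
  obtain ⟨m, hm⟩ := exists_pow_eq_self_of_coprime (x := g) (n := 4) (by
    have : Nat.Coprime (2 ^ 2) (orderOf g) := Nat.Coprime.pow_left 2 hcop.symm
    simpa using this)
  have h1 : Commute g x := by
    have := h4.pow_left m
    rwa [hm] at this
  rw [MulAut.conj_apply, h1.eq, mul_inv_cancel_right]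

theorem q8_conj_ne {G : Type*} [Group G] [Finite G] (T : Subgroup G) (hT : Q8Like T)
    (g : G) (hg : ∀ x ∈ T, MulAut.conj g x ∈ T) (hcop : (orderOf g).Coprime 2)
    (c : G) (hcT : c ∈ T) (hc2 : c ^ 2 ≠ 1) (hc : MulAut.conj g c ≠ c)
    (a : G) (haT : a ∈ T) (ha2 : a ^ 2 ≠ 1) :
    MulAut.conj g a ≠ a ∧ MulAut.conj g a ≠ a⁻¹ := by
  obtain ⟨H4, H5, H3, H6⟩ := hT
  have L4 : ∀ x, MulAut.conj g (MulAut.conj g (MulAut.conj g (MulAut.conj g x))) = x →
      MulAut.conj g x = x := fun x h => conj4_fix g hcop x h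
  have L2 : ∀ x, MulAut.conj g (MulAut.conj g x) = x → MulAut.conj g x = x :=
    fun x h => L4 x (by rw [h, h])
  have Li : ∀ x, MulAut.conj g x = x⁻¹ → MulAut.conj g x = x :=
    fun x h => L2 x (by rw [h, map_inv, h, inv_inv])
  generalize hφ : MulAut.conj g = φ at *
  by_contra hcon
  have hfa : φ a = a := by
    by_contra h1
    exact hcon ⟨h1, fun h2 => h1 (Li a h2)⟩
  have hca : c ≠ a := by rintro rfl; exact hc hfa
  have hca' : c ≠ a⁻¹ := by rintro rfl; exact hc (by rw [map_inv, hfa])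
  have hφc2 : (φ c) ^ 2 ≠ 1 := by
    rw [← map_pow]; intro h; exact hc2 ((MulEquiv.map_eq_one_iff φ).mp h)
  rcases H4 a haT c hcT (φ c) (hg c hcT) ha2 hc2 hca hca' with h | h | h | h | h | h | h | h
  · have h1 : c = 1 := by simpa using h
    exact hc2 (by rw [h1]; simp)
  · apply hφc2; rw [h, ← pow_mul]; exact H5 a haT
  · apply hca; apply φ.injective; rw [h, hfa]
  · apply hca'; apply φ.injective; rw [h, map_inv, hfa]
  · exact hc h
  · exact hc (Li c h)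
  · apply hc; apply L4
    simp only [h, map_mul, hfa]
    have h5 := H5 a haT
    have h6 : a * (a * (a * (a * c))) = a ^ 4 * c := by
      simp only [pow_succ, pow_zero, one_mul, mul_assoc]
    rw [h6, h5, one_mul]
  · apply hc; apply L4
    have e2 : φ (φ c) = a * c * a⁻¹ := by
      rw [h, map_inv, map_mul, hfa, h]; group
    have e4 : φ (φ (φ (φ c))) = a ^ 2 * c * (a ^ 2)⁻¹ := by
      simp only [e2, map_mul, map_inv, hfa, pow_succ, pow_zero, one_mul, mul_inv_rev, mul_assoc]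
    rw [e4, H3 a haT c hcT, mul_inv_cancel_right]

theorem q8_fuse {G : Type*} [Group G] [Finite G] (T : Subgroup G) (hT : Q8Like T)
    (g : G) (hg : ∀ x ∈ T, MulAut.conj g x ∈ T) (hcop : (orderOf g).Coprime 2)
    (c : G) (hcT : c ∈ T) (hc2 : c ^ 2 ≠ 1) (hc : MulAut.conj g c ≠ c)
    (a b : G) (haT : a ∈ T) (ha2 : a ^ 2 ≠ 1) (hbT : b ∈ T) (hb2 : b ^ 2 ≠ 1) :
    ∃ k : ℕ, MulAut.conj (g ^ k) a = b ∨ MulAut.conj (g ^ k) a = b⁻¹ := by
  have C := q8_conj_ne T hT g hg hcop c hcT hc2 hc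
  obtain ⟨H4, H5, H3, H6⟩ := hT
  have L4 : ∀ x, MulAut.conj g (MulAut.conj g (MulAut.conj g (MulAut.conj g x))) = x →
      MulAut.conj g x = x := fun x h => conj4_fix g hcop x h
  have L2 : ∀ x, MulAut.conj g (MulAut.conj g x) = x → MulAut.conj g x = x :=
    fun x h => L4 x (by rw [h, h])
  have e1 : MulAut.conj (g ^ 1) a = MulAut.conj g a := by rw [pow_one]
  have e2 : MulAut.conj (g ^ 2) a = MulAut.conj g (MulAut.conj g a) := by
    simp only [MulAut.conj_apply, pow_succ, pow_zero, one_mul, mul_inv_rev, mul_assoc]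
  generalize hφ : MulAut.conj g = φ at *
  by_cases hba : b = a
  · exact ⟨0, Or.inl (by simp [hba])⟩
  by_cases hba' : b = a⁻¹
  · exact ⟨0, Or.inr (by simp [hba'])⟩
  have hsq : ∀ x, x ^ 2 ≠ 1 → (φ x) ^ 2 ≠ 1 := by
    intro x hx; rw [← map_pow]; intro h; exact hx ((MulEquiv.map_eq_one_iff φ).mp h)
  obtain ⟨h1, h2⟩ := C a haT ha2
  have ha'T := hg a haT
  have ha'2 := hsq a ha2
  have hb4 : b ≠ 1 := by rintro rfl; simp at hb2
  have hbaa : b ≠ a ^ 2 := by rintro rfl; apply hb2; rw [← pow_mul]; exact H5 a haT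
  have key : φ (φ a) = a * φ a ∨ φ (φ a) = (a * φ a)⁻¹ := by
    obtain ⟨h3, h4⟩ := C (φ a) ha'T ha'2
    have ha''T := hg _ ha'T
    have ha''2 := hsq _ ha'2
    rcases H4 a haT (φ a) ha'T (φ (φ a)) ha''T ha2 ha'2 h1 h2 with h | h | h | h | h | h | h | h
    · exfalso; apply ha''2; rw [h]; simp
    · exfalso; apply ha''2; rw [h, ← pow_mul]; exact H5 a haT
    · exact absurd (L2 a h) h1
    · exfalso; apply h1; apply L4; rw [h, map_inv, map_inv, h, inv_inv]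
    · exact absurd h h3
    · exact absurd h h4
    · exact Or.inl h
    · exact Or.inr h
  rcases H4 a haT (φ a) ha'T b hbT ha2 ha'2 h1 h2 with h | h | h | h | h | h | h | h
  · exact absurd h hb4
  · exact absurd h hbaa
  · exact absurd h hba
  · exact absurd h hba'
  · exact ⟨1, Or.inl (by rw [e1, h])⟩
  · exact ⟨1, Or.inr (by rw [e1, h, inv_inv])⟩
  · rcases key with k1 | k1
    · exact ⟨2, Or.inl (by rw [e2, k1, h])⟩
    · exact ⟨2, Or.inr (by rw [e2, k1, h])⟩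
  · rcases key with k1 | k1
    · exact ⟨2, Or.inr (by rw [e2, k1, h, inv_inv])⟩
    · exact ⟨2, Or.inl (by rw [e2, k1, h])⟩

theorem q8_card4 {G : Type*} [Group G] [Finite G] (T : Subgroup G) (hT : Q8Like T)
    (A : Subgroup G) (hA : A ≤ T) (hA4 : Nat.card A = 4) :
    ∃ a ∈ A, a ^ 2 ≠ 1 ∧ A = Subgroup.zpowers a := by
  obtain ⟨H4, H5, H3, H6⟩ := hT
  have hex : ∃ a ∈ A, a ^ 2 ≠ 1 := by
    by_contra hcon
    push Not at hcon
    have h1 : ∀ u ∈ A, ∀ v ∈ A, u = 1 ∨ v = 1 ∨ u = v := fun u hu v hv =>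
      H6 u (hA hu) v (hA hv) (hcon u hu) (hcon v hv)
    have hne : A ≠ ⊥ := by rintro rfl; simp at hA4
    obtain ⟨⟨u, huA⟩, hu1⟩ := (Subgroup.ne_bot_iff_exists_ne_one.mp hne)
    have hu1' : u ≠ 1 := fun h => hu1 (Subtype.ext h)
    have hsub : (A : Set G) ⊆ {1, u} := by
      intro v hv
      rcases h1 u huA v hv with h | h | h
      · exact absurd h hu1'
      · left; exact h
      · right; exact h.symm
    have hc : Nat.card A ≤ 2 := by
      rw [← SetLike.coe_sort_coe, Nat.card_coe_set_eq]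
      calc (A : Set G).ncard ≤ ({1, u} : Set G).ncard := Set.ncard_le_ncard hsub (Set.toFinite _)
        _ ≤ ({u} : Set G).ncard + 1 := Set.ncard_insert_le _ _
        _ = 2 := by rw [Set.ncard_singleton]
    omega
  obtain ⟨a, haA, ha2⟩ := hex
  refine ⟨a, haA, ha2, ?_⟩
  have h4 : orderOf a ∣ 2 ^ 2 := orderOf_dvd_of_pow_eq_one (H5 a (hA haA))
  have h2 : ¬ orderOf a ∣ 2 := fun h => ha2 (orderOf_dvd_iff_pow_eq_one.mp h)
  obtain ⟨k, hk, hk2⟩ := (Nat.dvd_prime_pow Nat.prime_two).mp h4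
  have ho : orderOf a = 4 := by
    interval_cases k
    · rw [hk2] at h2; exact absurd (by norm_num) h2
    · rw [hk2] at h2; exact absurd (by norm_num) h2
    · rw [hk2]; norm_num
  symm
  apply Subgroup.eq_of_le_of_card_ge (Subgroup.zpowers_le.mpr haA)
  rw [Nat.card_zpowers, ho, hA4]

theorem q8_sylow_fusion {G : Type*} [Group G] [Finite G] (S : Sylow 2 G)
    (e : (S : Subgroup G) ≃* QuaternionGroup 2)
    (hnc : ∀ N : Subgroup G, N.Normal → ¬ Subgroup.IsComplement' N (S : Subgroup G))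
    (A B : Subgroup G) (hA : A ≤ S) (hB : B ≤ S) (hA4 : Nat.card A = 4) (hB4 : Nat.card B = 4) :
    ∃ n ∈ Subgroup.normalizer ((S : Subgroup G) : Set G), B = A.map (MulAut.conj n).toMonoidHom := by
  classical
  have hT : Q8Like (S : Subgroup G) := q8Like_of_equiv _ e
  obtain ⟨H4, H5, H3, H6⟩ := hT
  have hnpc : ¬ Cfsg.HasNormalPComplement 2 G := by
    rintro ⟨P, N, hN, hc⟩
    apply hnc N hN
    have h1 := hc.card_mul_card
    have h2 : Nat.card (S : Subgroup G) = Nat.card (P : Subgroup G) := by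
      rw [Sylow.card_eq_multiplicity, Sylow.card_eq_multiplicity]
    have h3 : Nat.card (P : Subgroup G) = 2 ^ (Nat.card G).factorization 2 :=
      Sylow.card_eq_multiplicity P
    have h4 : Nat.card N = Nat.card G / 2 ^ (Nat.card G).factorization 2 := by
      have h1' := h1
      rw [h3] at h1'
      exact (Nat.div_eq_of_eq_mul_left (by positivity) h1'.symm).symm
    apply Subgroup.isComplement'_of_coprime
    · rw [h2]; exact h1
    · rw [h2, h3, h4]
      exact (Nat.Coprime.pow_left _ (Nat.coprime_ordCompl Nat.prime_two Nat.card_pos.ne')).symm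
  have hF : ¬ FrobCond 2 G := fun h => hnpc (frobenius_npc h)
  have hex : ∃ Q : Subgroup G, Q ≤ (S : Subgroup G) ∧ ∃ g ∈ Subgroup.normalizer (Q : Set G),
      (orderOf g).Coprime 2 ∧ g ∉ Subgroup.centralizer (Q : Set G) := by
    by_contra hcon
    apply hF
    apply frobCond_of_sylow S
    intro Q hQ g hg hcop
    by_contra h
    exact hcon ⟨Q, hQ, g, hg, hcop, h⟩
  obtain ⟨Q, hQ, g, hgN, hcop, hgC⟩ := hex
  rw [Subgroup.mem_centralizer_iff] at hgC
  push Not at hgC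
  obtain ⟨x, hxQ, hx⟩ := hgC
  have hgQ : ∀ y ∈ Q, MulAut.conj g y ∈ Q := fun y hy =>
    ((Subgroup.mem_normalizer_iff.mp hgN) y).mp hy
  have L4 : ∀ x, MulAut.conj g (MulAut.conj g (MulAut.conj g (MulAut.conj g x))) = x →
      MulAut.conj g x = x := fun x h => conj4_fix g hcop x h
  have L2 : ∀ x, MulAut.conj g (MulAut.conj g x) = x → MulAut.conj g x = x :=
    fun x h => L4 x (by rw [h, h])
  have Li : ∀ x, MulAut.conj g x = x⁻¹ → MulAut.conj g x = x :=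
    fun x h => L2 x (by rw [h, map_inv, h, inv_inv])
  have hφx : MulAut.conj g x ≠ x := by
    intro h; apply hx; rw [MulAut.conj_apply] at h
    exact (mul_inv_eq_iff_eq_mul.mp h).symm
  have hx2 : x ^ 2 ≠ 1 := by
    intro h
    have h1 : (MulAut.conj g x) ^ 2 = 1 := by rw [← map_pow, h, map_one]
    rcases H6 x (hQ hxQ) (MulAut.conj g x) (hQ (hgQ x hxQ)) h h1 with h2 | h2 | h2
    · apply hφx; rw [h2, map_one]
    · apply hφx
      have h3 : x = 1 := by simpa using h2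
      rw [h3, map_one]
    · exact hφx h2.symm
  have hφx' : MulAut.conj g x ≠ x⁻¹ := fun h => hφx (Li x h)
  have hφx2 : (MulAut.conj g x) ^ 2 ≠ 1 := by
    rw [← map_pow]; intro h; exact hx2 ((MulEquiv.map_eq_one_iff _).mp h)
  have hQT : Q = (S : Subgroup G) := by
    apply le_antisymm hQ
    intro s hs
    have hφxQ := hgQ x hxQ
    rcases H4 x (hQ hxQ) (MulAut.conj g x) (hQ hφxQ) s hs hx2 hφx2 hφx hφx' with
      h | h | h | h | h | h | h | h <;> rw [h]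
    · exact Q.one_mem
    · exact Q.pow_mem hxQ 2
    · exact hxQ
    · exact Q.inv_mem hxQ
    · exact hφxQ
    · exact Q.inv_mem hφxQ
    · exact Q.mul_mem hxQ hφxQ
    · exact Q.inv_mem (Q.mul_mem hxQ hφxQ)
  subst hQT
  obtain ⟨a, haA, ha2, hAa⟩ := q8_card4 _ ⟨H4, H5, H3, H6⟩ A hA hA4
  obtain ⟨b, hbB, hb2, hBb⟩ := q8_card4 _ ⟨H4, H5, H3, H6⟩ B hB hB4
  obtain ⟨k, hk⟩ := q8_fuse _ ⟨H4, H5, H3, H6⟩ g hgQ hcop x hxQ hx2 hφx a b (hA haA) ha2
    (hB hbB) hb2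
  refine ⟨g ^ k, Subgroup.pow_mem _ hgN k, ?_⟩
  rw [hAa, hBb, MonoidHom.map_zpowers]
  rcases hk with hk | hk
  · rw [← hk]; rfl
  · have h9 : (MulAut.conj (g ^ k)).toMonoidHom a = b⁻¹ := hk
    rw [h9, Subgroup.zpowers_inv]

end Cfsg.Agent.Lib.Helper6
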