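import Mathlib
import Cfsg.Agent.Lib.Helper6.BlockKer
import Cfsg.Agent.Lib.Lead.Char13
import Cfsg.Agent.Lib.Helper7.Codeg

set_option autoImplicit false

/-! Blocks of `G / N` for a normal `p'`-subgroup `N`. -/

namespace Cfsg.Agent.Lib.Helper6

open Cfsg.Agent.Lib.Lead Cfsg.Agent.Lib.Helper8

theorem quot_block {G : Type*} [Group G] [Finite G] (p : ℕ) [Fact p.Prime]
    (M : Ideal Cfsg.AlgInt) (hM : Cfsg.IsPModular p M) (N : Subgroup G) [hNn : N.Normal]
    (hN : ¬ p ∣ Nat.card N) (χ : Cfsg.IrrCharacter (G ⧸ N)) (ψ : Cfsg.IrrCharacter G)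
    (hψ : ψ ∈ Cfsg.blockOf M ((χ : G ⧸ N → ℂ) ∘ QuotientGroup.mk)) :
    ∃ ψ' : Cfsg.IrrCharacter (G ⧸ N), (ψ : G → ℂ) = (ψ' : G ⧸ N → ℂ) ∘ QuotientGroup.mk ∧
      Cfsg.SameBlock M (χ : G ⧸ N → ℂ) (ψ' : G ⧸ N → ℂ) := by
  classical
  have hmax := hM.2.1
  have hp : p.Prime := Fact.out
  let χG : Cfsg.IrrCharacter G := ⟨fun x => χ.1 (QuotientGroup.mk' N x),
    isIrrCharacter_comp_surj (QuotientGroup.mk' N) (QuotientGroup.mk'_surjective N) χ.2⟩
  have hsame : Cfsg.SameBlock M χG.1 ψ.1 := hψ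
  have hker : ∀ g ∈ N, ψ.1 g = ψ.1 1 := by
    apply pprime_ker_block p M hM χG ψ hsame N hN
    intro g hg
    show χ.1 (QuotientGroup.mk' N g) = χ.1 (QuotientGroup.mk' N 1)
    have e : QuotientGroup.mk' N g = 1 := (QuotientGroup.eq_one_iff g).mpr hg
    rw [e, map_one]
  obtain ⟨ψ', hψ'⟩ := Cfsg.Agent.Lib.Helper7.Codeg.exists_irr_quot ψ N hker
  refine ⟨ψ', ?_, ?_⟩
  · funext g; exact (hψ' g).symm
  · intro gbar
    set L : Subgroup G :=
      (Subgroup.centralizer ({gbar} : Set (G ⧸ N))).comap (QuotientGroup.mk' N) with hL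
    have hLidx : L.index = (Subgroup.centralizer ({gbar} : Set (G ⧸ N))).index :=
      Subgroup.index_comap_of_surjective _ (QuotientGroup.mk'_surjective N)
    have hXcard : Nat.card {x : G // (QuotientGroup.mk x : G ⧸ N) = gbar} = Nat.card N := by
      have e := QuotientGroup.preimageMkEquivSubgroupProdSet N ({gbar} : Set (G ⧸ N))
      have h3 := Nat.card_congr e
      rw [Nat.card_prod] at h3
      have h4 : Nat.card (({gbar} : Set (G ⧸ N)) : Type _) = 1 := by simp
      rw [h4, mul_one] at h3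
      exact h3
    have hLmem : ∀ l : L, gbar * (QuotientGroup.mk (l : G) : G ⧸ N)
        = (QuotientGroup.mk (l : G) : G ⧸ N) * gbar := by
      intro l
      have hl : (l : G) ∈ (Subgroup.centralizer ({gbar} : Set (G ⧸ N))).comap
          (QuotientGroup.mk' N) := l.2
      rw [Subgroup.mem_comap, Subgroup.mem_centralizer_iff] at hl
      exact hl gbar (Set.mem_singleton _)
    letI : MulAction L {x : G // (QuotientGroup.mk x : G ⧸ N) = gbar} :=
      { smul := fun l x => ⟨(l : G) * x.1 * (l : G)⁻¹, by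
          rw [QuotientGroup.mk_mul, QuotientGroup.mk_mul, QuotientGroup.mk_inv, x.2, ← hLmem l,
            mul_inv_cancel_right]⟩
        one_smul := fun x => Subtype.ext (by
          show ((1 : L) : G) * x.1 * ((1 : L) : G)⁻¹ = x.1
          simp)
        mul_smul := fun l l' x => Subtype.ext (by
          show ((l * l' : L) : G) * x.1 * ((l * l' : L) : G)⁻¹
            = (l : G) * ((l' : G) * x.1 * (l' : G)⁻¹) * (l : G)⁻¹
          simp [mul_assoc]) }
    obtain ⟨P⟩ : Nonempty (Sylow p L) := inferInstance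
    have hfix := P.isPGroup'.nonempty_fixed_point_of_prime_not_dvd_card
      {x : G // (QuotientGroup.mk x : G ⧸ N) = gbar} (by rw [hXcard]; exact hN)
    obtain ⟨x, hx⟩ := hfix
    have hg'bar : (QuotientGroup.mk x.1 : G ⧸ N) = gbar := x.2
    have hPC : ∀ l : L, l ∈ (P : Subgroup L) → (l : G) * x.1 = x.1 * (l : G) := by
      intro l hl
      have h1 := hx ⟨l, hl⟩
      have h2 : (l : G) * x.1 * (l : G)⁻¹ = x.1 := congrArg Subtype.val h1
      exact mul_inv_eq_iff_eq_mul.mp h2
    have hCL : Subgroup.centralizer ({x.1} : Set G) ≤ L := by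
      intro c hc
      rw [hL, Subgroup.mem_comap, Subgroup.mem_centralizer_iff]
      intro y hy
      rw [Set.mem_singleton_iff] at hy
      rw [Subgroup.mem_centralizer_iff] at hc
      have h1 := hc x.1 (Set.mem_singleton _)
      rw [hy, ← hg'bar]
      exact congrArg (QuotientGroup.mk : G → G ⧸ N) h1
    have hm : ¬ p ∣ (Subgroup.centralizer ({x.1} : Set G)).relIndex L := by
      have hPle : (P : Subgroup L) ≤ (Subgroup.centralizer ({x.1} : Set G)).subgroupOf L := by
        intro l hl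
        rw [Subgroup.mem_subgroupOf, Subgroup.mem_centralizer_iff]
        intro y hy
        rw [Set.mem_singleton_iff] at hy
        rw [hy]
        exact (hPC l hl).symm
      intro hdvd
      exact P.not_dvd_index (dvd_trans hdvd (Subgroup.index_dvd_of_le hPle))
    have hidx : (Subgroup.centralizer ({x.1} : Set G)).index
        = (Subgroup.centralizer ({x.1} : Set G)).relIndex L * L.index :=
      (Subgroup.relIndex_mul_index hCL).symm
    have hD := hsame x.1
    unfold Cfsg.centralChar at hD ⊢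
    have e1 : χG.1 x.1 = χ.1 gbar := by
      show χ.1 (QuotientGroup.mk x.1) = χ.1 gbar
      exact congrArg χ.1 hg'bar
    have e2 : χG.1 1 = χ.1 1 := by
      show χ.1 (QuotientGroup.mk' N 1) = χ.1 1
      rw [map_one]
    have e3 : ψ.1 x.1 = ψ'.1 gbar := (hψ' x.1).symm.trans (congrArg ψ'.1 hg'bar)
    have e4 : ψ.1 1 = ψ'.1 1 := by rw [← hψ' 1]; rfl
    rw [e1, e2, e3, e4, hidx, hLidx] at hD
    have hminv : Cfsg.MemLocalRing M
        ((((Subgroup.centralizer ({x.1} : Set G)).relIndex L : ℕ) : ℂ)⁻¹) :=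
      mlr_inv (mlr_natCast hmax _) (not_mli_natCast hM hm)
    have hm0 : (((Subgroup.centralizer ({x.1} : Set G)).relIndex L : ℕ) : ℂ) ≠ 0 := by
      have : (Subgroup.centralizer ({x.1} : Set G)).relIndex L ≠ 0 :=
        fun h0 => hm (by rw [h0]; exact dvd_zero p)
      exact_mod_cast this
    have hχ1 := irr_deg_ne_zero χ
    have hψ1 := irr_deg_ne_zero ψ'
    have h5 := mli_mul hmax hminv hD
    have e5 : (((Subgroup.centralizer ({x.1} : Set G)).relIndex L : ℕ) : ℂ)⁻¹ *
        ((((Subgroup.centralizer ({x.1} : Set G)).relIndex L *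
            (Subgroup.centralizer ({gbar} : Set (G ⧸ N))).index : ℕ) : ℂ) * χ.1 gbar / χ.1 1 -
          (((Subgroup.centralizer ({x.1} : Set G)).relIndex L *
            (Subgroup.centralizer ({gbar} : Set (G ⧸ N))).index : ℕ) : ℂ) * ψ'.1 gbar / ψ'.1 1)
        = ((Subgroup.centralizer ({gbar} : Set (G ⧸ N))).index : ℂ) * χ.1 gbar / χ.1 1 -
          ((Subgroup.centralizer ({gbar} : Set (G ⧸ N))).index : ℂ) * ψ'.1 gbar / ψ'.1 1 := by
      push_cast
      field_simp
    rw [e5] at h5
    exact h5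

end Cfsg.Agent.Lib.Helper6
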