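import Mathlib
import Cfsg.Agent.Lib.Helper5.ChermakDelgado

set_option autoImplicit false

namespace Cfsg.Agent.Lib.Helper6

open scoped Pointwise

/-- if `H ≤ K` and `C ≤ K` with `[H : H ∩ C] = [K : C]` then `K = H C` -/
theorem exists_mul_of_relIndex_eq {G : Type*} [Group G] [Finite G] (H C K : Subgroup G)
    (hHK : H ≤ K) (hCK : C ≤ K) (h : C.relIndex H = C.relIndex K) :
    ∀ k ∈ K, ∃ x ∈ H, ∃ c ∈ C, k = x * c := by
  have h1 := Cfsg.Agent.Lib.Helper5.card_mul_set_mul_card_inf H C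
  have h2 := Cfsg.Agent.Lib.Helper5.card_mul_relIndex_of_le (inf_le_left : H ⊓ C ≤ H)
  rw [Subgroup.inf_relIndex_left] at h2
  have h3 := Cfsg.Agent.Lib.Helper5.card_mul_relIndex_of_le hCK
  have hcard : Nat.card ((H : Set G) * (C : Set G) : Set G) = Nat.card K := by
    have hpos : 0 < Nat.card (H ⊓ C : Subgroup G) := Nat.card_pos
    rw [← h2, h] at h1
    rw [← h3]
    apply Nat.eq_of_mul_eq_mul_right hpos
    rw [h1]; ring
  have hsub : ((H : Set G) * (C : Set G) : Set G) ⊆ (K : Set G) := by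
    rintro _ ⟨x, hx, c, hc, rfl⟩
    exact K.mul_mem (hHK hx) (hCK hc)
  have heq : ((H : Set G) * (C : Set G) : Set G) = (K : Set G) := by
    apply Set.eq_of_subset_of_ncard_le hsub _ (Set.toFinite _)
    rw [← Nat.card_coe_set_eq, ← Nat.card_coe_set_eq, hcard]
    exact le_of_eq rfl
  intro k hk
  have hk' : k ∈ ((H : Set G) * (C : Set G) : Set G) := by rw [heq]; exact hk
  obtain ⟨x, hx, c, hc, rfl⟩ := hk'
  exact ⟨x, hx, c, hc, rfl⟩

end Cfsg.Agent.Lib.Helper6
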