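import Mathlib
import Cfsg.Agent.Lib.Helper1.AltIso

set_option autoImplicit false

namespace Cfsg.Agent.Lib.Helper6

open scoped Pointwise

section S168

variable {G : Type*} [Group G] [Finite G]

theorem syl_card {p : ℕ} [Fact p.Prime] (P : Sylow p G) (k m : ℕ)
    (hG : Nat.card G = p ^ k * m) (hm : ¬ p ∣ m) : Nat.card (P : Subgroup G) = p ^ k := by
  have hp : p.Prime := Fact.out
  have hm0 : m ≠ 0 := by rintro rfl; exact hm (dvd_zero p)
  have h1 := P.card_eq_multiplicity
  rw [hG, Nat.factorization_mul (pow_ne_zero _ hp.ne_zero) hm0, Nat.Prime.factorization_pow hp,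
    Finsupp.add_apply, Finsupp.single_eq_same, Nat.factorization_eq_zero_of_not_dvd hm,
    add_zero] at h1
  exact h1

theorem syl_ne_one [IsSimpleGroup G] {p : ℕ} [Fact p.Prime] (P : Sylow p G)
    (h1 : 1 < Nat.card (P : Subgroup G)) (h2 : Nat.card (P : Subgroup G) < Nat.card G) :
    Nat.card (Sylow p G) ≠ 1 := by
  intro hc
  haveI : Subsingleton (Sylow p G) := (Nat.card_eq_one_iff_unique.mp hc).1
  have hn : (P : Subgroup G).Normal := P.normal_of_subsingleton
  rcases hn.eq_bot_or_eq_top with hb | ht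
  · rw [hb, Subgroup.card_bot] at h1
    omega
  · rw [ht, Subgroup.card_top] at h2
    omega

theorem syl_norm_card {p : ℕ} [Fact p.Prime] (P : Sylow p G) :
    Nat.card (Subgroup.normalizer ((P : Subgroup G) : Set G)) * Nat.card (Sylow p G)
      = Nat.card G := by
  have h1 : Nat.card (Sylow p G) = (Subgroup.normalizer ((P : Subgroup G) : Set G)).index :=
    P.card_eq_index_normalizer
  rw [h1]; exact Subgroup.card_mul_index _

theorem syl_factorial [IsSimpleGroup G] {p : ℕ} [Fact p.Prime] (P : Sylow p G)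
    (hne : Nat.card (Sylow p G) ≠ 1) : Nat.card G ∣ (Nat.card (Sylow p G)).factorial := by
  have h1 : Nat.card (Sylow p G) = (Subgroup.normalizer ((P : Subgroup G) : Set G)).index :=
    P.card_eq_index_normalizer
  rw [h1]
  apply Cfsg.Agent.Lib.Helper1.card_dvd_factorial_index
  intro htop
  apply hne
  rw [h1, htop, Subgroup.index_top]

theorem syl_dvd_index {p : ℕ} [Fact p.Prime] (P : Sylow p G) :
    Nat.card (Sylow p G) ∣ (P : Subgroup G).index := P.card_dvd_index

theorem syl_mod {p : ℕ} [Fact p.Prime] : Nat.card (Sylow p G) % p = 1 % p :=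
  card_sylow_modEq_one p G

/-- an element of order 3 normalizing a group of order 8 centralizes a nontrivial element -/
theorem fix_of_order3 (P : Subgroup G) (hP : Nat.card P = 8) (a : G) (ha : orderOf a = 3)
    (haN : ∀ w ∈ P, a * w * a⁻¹ ∈ P) : ∃ w ∈ P, w ≠ 1 ∧ a * w * a⁻¹ = w := by
  classical
  haveI : Fact (Nat.Prime 3) := ⟨by norm_num⟩
  haveI : Fintype P := Fintype.ofFinite _
  let f : Function.End P := fun w => ⟨a * w * a⁻¹, haN w w.2⟩
  have hf3 : f ^ 3 ^ 1 = 1 := by
    rw [pow_one]
    refine funext fun w => ?_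
    apply Subtype.ext
    show a * (a * (a * w * a⁻¹) * a⁻¹) * a⁻¹ = w
    have ha3 : a ^ 3 = 1 := by rw [← ha]; exact pow_orderOf_eq_one _
    have h1 : a * (a * (a * (w : G) * a⁻¹) * a⁻¹) * a⁻¹ = a ^ 3 * w * (a ^ 3)⁻¹ := by
      simp only [pow_succ, pow_zero, one_mul, mul_inv_rev, mul_assoc]
    rw [h1, ha3]; simp
  have hmod := Equiv.Perm.card_fixedPoints_modEq (p := 3) (n := 1) hf3
  by_contra hcon
  push Not at hcon
  have hone : Fintype.card (Function.fixedPoints f) = 1 := by
    rw [Fintype.card_eq_one_iff]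
    refine ⟨⟨1, ?_⟩, fun y => ?_⟩
    · show f 1 = 1
      apply Subtype.ext
      show a * 1 * a⁻¹ = 1
      simp
    · apply Subtype.ext
      by_contra hy
      have hy1 : ((y : P) : G) ≠ 1 := fun hh => hy (Subtype.ext hh)
      exact hcon (y.1 : G) y.1.2 hy1 (congrArg Subtype.val y.2)
  rw [hone] at hmod
  have hc : Fintype.card P = 8 := by rw [← Nat.card_eq_fintype_card]; exact hP
  rw [hc] at hmod
  exact absurd hmod (by decide)

end S168

end Cfsg.Agent.Lib.Helper6
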