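import Mathlib
import Cfsg.Agent.Lib.Helper6.S168a

set_option autoImplicit false

namespace Cfsg.Agent.Lib.Helper6

open scoped Pointwise

section S168

variable {G : Type*} [Group G] [Finite G]

/-- the Sylow 3-subgroup generated by an element of order 3 -/
theorem syl3_of_order3 (h : Nat.card G = 168) (a : G) (ha : orderOf a = 3) :
    ∃ Q : Sylow 3 G, Subgroup.zpowers a = (Q : Subgroup G) := by
  haveI : Fact (Nat.Prime 3) := ⟨by norm_num⟩
  have hA : IsPGroup 3 (Subgroup.zpowers a) := by
    apply IsPGroup.of_card (n := 1)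
    rw [Nat.card_zpowers, ha, pow_one]
  obtain ⟨Q, hQ⟩ := hA.exists_le_sylow
  refine ⟨Q, ?_⟩
  apply Subgroup.eq_of_le_of_card_ge hQ
  have hc := syl_card Q 1 56 (by rw [h]; norm_num) (by norm_num)
  rw [hc, Nat.card_zpowers, ha, pow_one]

theorem n3_ne_7 [IsSimpleGroup G] (h : Nat.card G = 168) (n7 : Nat.card (Sylow 7 G) = 8) :
    Nat.card (Sylow 3 G) ≠ 7 := by
  haveI : Fact (Nat.Prime 3) := ⟨by norm_num⟩
  haveI : Fact (Nat.Prime 7) := ⟨by norm_num⟩
  intro h37
  obtain ⟨P7⟩ := (inferInstance : Nonempty (Sylow 7 G))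
  have c7 : Nat.card (P7 : Subgroup G) = 7 := by
    have := syl_card P7 1 24 (by rw [h]; norm_num) (by norm_num); simpa using this
  obtain ⟨M, hM⟩ : ∃ M : Subgroup G, M = Subgroup.normalizer ((P7 : Subgroup G) : Set G) :=
    ⟨_, rfl⟩
  have cM : Nat.card M = 21 := by
    have h1 := syl_norm_card P7
    rw [n7, h, ← hM] at h1
    omega
  have hP7M : (P7 : Subgroup G) ≤ M := by rw [hM]; exact Subgroup.le_normalizer
  obtain ⟨a, ha⟩ := exists_prime_orderOf_dvd_card' (G := M) 3 (by rw [cM]; norm_num)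
  have haG : orderOf (a : G) = 3 := by rw [Subgroup.orderOf_coe]; exact ha
  obtain ⟨Q, hQeq⟩ := syl3_of_order3 h (a : G) haG
  have hQM : (Q : Subgroup G) ≤ M := by
    rw [← hQeq, Subgroup.zpowers_le]; exact a.2
  have c3 : Nat.card (Q : Subgroup G) = 3 := by
    have := syl_card Q 1 56 (by rw [h]; norm_num) (by norm_num); simpa using this
  have cNQ : Nat.card (Subgroup.normalizer ((Q : Subgroup G) : Set G)) = 24 := by
    have h1 := syl_norm_card Q
    rw [h37, h] at h1
    omega
  have hcompl : Subgroup.IsComplement' (P7 : Subgroup G)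
      (Subgroup.normalizer ((Q : Subgroup G) : Set G)) := by
    apply Subgroup.isComplement'_of_coprime
    · rw [c7, cNQ, h]
    · rw [c7, cNQ]; norm_num
  have hall : ∀ g : G, ∀ q ∈ (Q : Subgroup G), g * q * g⁻¹ ∈ M := by
    intro g q hq
    obtain ⟨⟨y, n⟩, hyn⟩ := hcompl.2 g
    have hn : (n : G) ∈ Subgroup.normalizer ((Q : Subgroup G) : Set G) := n.2
    rw [Subgroup.mem_set_normalizer_iff] at hn
    have h1 : (n : G) * q * (n : G)⁻¹ ∈ (Q : Subgroup G) := (hn q).mp hq
    have hyn' : (y : G) * (n : G) = g := hyn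
    have h2 : g * q * g⁻¹ = (y : G) * ((n : G) * q * (n : G)⁻¹) * (y : G)⁻¹ := by
      rw [← hyn']; group
    rw [h2]
    have hyM : (y : G) ∈ M := hP7M y.2
    exact M.mul_mem (M.mul_mem hyM (hQM h1)) (M.inv_mem hyM)
  have hcore : (Q : Subgroup G) ≤ M.normalCore := fun q hq b => hall b q hq
  rcases (Subgroup.normalCore_normal M).eq_bot_or_eq_top with hb | ht
  · rw [hb] at hcore
    have h1 : (Q : Subgroup G) = ⊥ := le_bot_iff.mp hcore
    rw [h1, Subgroup.card_bot] at c3
    omega
  · have h1 : M = ⊤ := by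
      apply top_le_iff.mp
      rw [← ht]; exact Subgroup.normalCore_le M
    rw [h1, Subgroup.card_top, h] at cM
    omega

theorem n2_ne_7 [IsSimpleGroup G] (h : Nat.card G = 168) (n3 : Nat.card (Sylow 3 G) = 28) :
    Nat.card (Sylow 2 G) ≠ 7 := by
  classical
  haveI : Fact (Nat.Prime 2) := ⟨by norm_num⟩
  haveI : Fact (Nat.Prime 3) := ⟨by norm_num⟩
  intro h27
  obtain ⟨P2⟩ := (inferInstance : Nonempty (Sylow 2 G))
  have c2 : Nat.card (P2 : Subgroup G) = 8 := by
    have := syl_card P2 3 21 (by rw [h]; norm_num) (by norm_num); simpa using this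
  obtain ⟨N2, hN2⟩ : ∃ N2 : Subgroup G, N2 = Subgroup.normalizer ((P2 : Subgroup G) : Set G) :=
    ⟨_, rfl⟩
  have cN2 : Nat.card N2 = 24 := by
    have h1 := syl_norm_card P2
    rw [h27, h, ← hN2] at h1
    omega
  obtain ⟨a, ha⟩ := exists_prime_orderOf_dvd_card' (G := N2) 3 (by rw [cN2]; norm_num)
  have haG : orderOf (a : G) = 3 := by rw [Subgroup.orderOf_coe]; exact ha
  have haN : ∀ w ∈ (P2 : Subgroup G), (a : G) * w * (a : G)⁻¹ ∈ (P2 : Subgroup G) := by
    intro w hw
    have h0 : ∀ x ∈ N2, x ∈ Subgroup.normalizer ((P2 : Subgroup G) : Set G) :=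
      fun x hx => by rw [← hN2]; exact hx
    have h1 := h0 (a : G) a.2
    rw [Subgroup.mem_set_normalizer_iff] at h1
    exact (h1 w).mp hw
  obtain ⟨w, hwP, hw1, hwa⟩ := fix_of_order3 (P2 : Subgroup G) c2 (a : G) haG haN
  obtain ⟨k, hk⟩ := (P2.isPGroup' ⟨w, hwP⟩)
  have hwk : w ^ (2 ^ k) = 1 := by simpa using congrArg Subtype.val hk
  have hex : ∃ k, w ^ (2 ^ k) = 1 := ⟨k, hwk⟩
  obtain ⟨k0, hk0, hmin⟩ : ∃ k0, w ^ (2 ^ k0) = 1 ∧ ∀ j < k0, w ^ (2 ^ j) ≠ 1 :=
    ⟨Nat.find hex, Nat.find_spec hex, fun j hj => Nat.find_min hex hj⟩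
  cases k0 with
  | zero => exact absurd (by simpa using hk0) hw1
  | succ k1 =>
    obtain ⟨t, ht⟩ : ∃ t : G, t = w ^ (2 ^ k1) := ⟨_, rfl⟩
    have ht1 : t ≠ 1 := by rw [ht]; exact hmin k1 (Nat.lt_succ_self _)
    have ht2 : t ^ 2 = 1 := by rw [ht, ← pow_mul, ← pow_succ]; exact hk0
    have hto : orderOf t = 2 := orderOf_eq_prime ht2 ht1
    have hcw : Commute (a : G) w := by
      show (a : G) * w = w * (a : G)
      calc (a : G) * w = ((a : G) * w * (a : G)⁻¹) * (a : G) := by group
        _ = w * (a : G) := by rw [hwa]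
    have hcomm : Commute (a : G) t := by rw [ht]; exact hcw.pow_right _
    have ho6 : orderOf ((a : G) * t) = 6 := by
      rw [hcomm.orderOf_mul_eq_mul_orderOf_of_coprime (by rw [haG, hto]; norm_num), haG, hto]
    obtain ⟨Q, hQeq⟩ := syl3_of_order3 h (a : G) haG
    have c3 : Nat.card (Q : Subgroup G) = 3 := by
      have := syl_card Q 1 56 (by rw [h]; norm_num) (by norm_num); simpa using this
    have cNQ : Nat.card (Subgroup.normalizer ((Q : Subgroup G) : Set G)) = 6 := by
      have h1 := syl_norm_card Q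
      rw [n3, h] at h1
      omega
    have hc : ∀ q ∈ (Q : Subgroup G), (a : G) * t * q * ((a : G) * t)⁻¹ = q := by
      intro q hq
      rw [← hQeq] at hq
      obtain ⟨m, rfl⟩ := Subgroup.mem_zpowers_iff.mp hq
      have h1 : Commute ((a : G) * t) ((a : G) ^ m) :=
        ((Commute.refl (a : G)).mul_left hcomm.symm).zpow_right m
      rw [h1.eq, mul_inv_cancel_right]
    have hatN : (a : G) * t ∈ Subgroup.normalizer ((Q : Subgroup G) : Set G) := by
      rw [Subgroup.mem_set_normalizer_iff]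
      intro q
      constructor
      · intro hq
        have hq' : q ∈ (Q : Subgroup G) := hq
        have h1 := hc q hq'
        show (a : G) * t * q * ((a : G) * t)⁻¹ ∈ (Q : Subgroup G)
        rw [h1]; exact hq'
      · intro hq
        have hq' : (a : G) * t * q * ((a : G) * t)⁻¹ ∈ (Q : Subgroup G) := hq
        have h4 := hc _ hq'
        have h2 : (a : G) * t * q * ((a : G) * t)⁻¹ = q :=
          mul_left_cancel (mul_right_cancel h4)
        show q ∈ (Q : Subgroup G)
        rw [← h2]; exact hq'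
    have hNeq : Subgroup.zpowers ((a : G) * t)
        = Subgroup.normalizer ((Q : Subgroup G) : Set G) := by
      apply Subgroup.eq_of_le_of_card_ge
      · rw [Subgroup.zpowers_le]; exact hatN
      · rw [cNQ, Nat.card_zpowers, ho6]
    have hNC : Subgroup.normalizer ((Q : Subgroup G) : Set G)
        ≤ Subgroup.centralizer ((Q : Subgroup G) : Set G) := by
      intro n hn
      rw [Subgroup.mem_centralizer_iff]
      intro q hq
      have hqN : q ∈ Subgroup.zpowers ((a : G) * t) := by
        rw [hNeq]; exact Subgroup.le_normalizer hq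
      rw [← hNeq] at hn
      obtain ⟨i, rfl⟩ := Subgroup.mem_zpowers_iff.mp hn
      obtain ⟨j, rfl⟩ := Subgroup.mem_zpowers_iff.mp hqN
      exact (Commute.zpow_zpow_self _ j i).eq
    have hcompl := MonoidHom.ker_transferSylow_isComplement' Q hNC
    have hcard := hcompl.card_mul_card
    rw [h, c3] at hcard
    rcases (inferInstance : ((MonoidHom.transferSylow Q hNC).ker).Normal).eq_bot_or_eq_top
      with hb | htop
    · rw [hb, Subgroup.card_bot] at hcard
      omega
    · rw [htop, Subgroup.card_top, h] at hcard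
      omega

theorem s168_main [IsSimpleGroup G] (h : Nat.card G = 168) :
    Nat.card (Sylow 2 G) = 21 ∧ Nat.card (Sylow 3 G) = 28 ∧ Nat.card (Sylow 7 G) = 8 := by
  haveI : Fact (Nat.Prime 2) := ⟨by norm_num⟩
  haveI : Fact (Nat.Prime 3) := ⟨by norm_num⟩
  haveI : Fact (Nat.Prime 7) := ⟨by norm_num⟩
  obtain ⟨P7⟩ := (inferInstance : Nonempty (Sylow 7 G))
  obtain ⟨P3⟩ := (inferInstance : Nonempty (Sylow 3 G))
  obtain ⟨P2⟩ := (inferInstance : Nonempty (Sylow 2 G))
  have c7 : Nat.card (P7 : Subgroup G) = 7 := by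
    have := syl_card P7 1 24 (by rw [h]; norm_num) (by norm_num); simpa using this
  have c3 : Nat.card (P3 : Subgroup G) = 3 := by
    have := syl_card P3 1 56 (by rw [h]; norm_num) (by norm_num); simpa using this
  have c2 : Nat.card (P2 : Subgroup G) = 8 := by
    have := syl_card P2 3 21 (by rw [h]; norm_num) (by norm_num); simpa using this
  have n7 : Nat.card (Sylow 7 G) = 8 := by
    have hne := syl_ne_one P7 (by rw [c7]; norm_num) (by rw [c7, h]; norm_num)
    have hmod : Nat.card (Sylow 7 G) % 7 = 1 % 7 := syl_mod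
    have hdvd : Nat.card (Sylow 7 G) ∣ 24 := by
      have h1 := syl_dvd_index P7
      have h2 := Subgroup.card_mul_index (P7 : Subgroup G)
      rw [c7, h] at h2
      have h3 : (P7 : Subgroup G).index = 24 := by omega
      rw [h3] at h1; exact h1
    obtain ⟨k, hk⟩ := hdvd
    have hle : Nat.card (Sylow 7 G) ≤ 24 := Nat.le_of_dvd (by norm_num) ⟨k, hk⟩
    generalize Nat.card (Sylow 7 G) = n at *
    interval_cases n <;> omega
  have n3 : Nat.card (Sylow 3 G) = 28 := by
    have hne := syl_ne_one P3 (by rw [c3]; norm_num) (by rw [c3, h]; norm_num)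
    have hne7 := n3_ne_7 h n7
    have hfac := syl_factorial P3 hne
    rw [h] at hfac
    have hmod : Nat.card (Sylow 3 G) % 3 = 1 % 3 := syl_mod
    have hdvd : Nat.card (Sylow 3 G) ∣ 56 := by
      have h1 := syl_dvd_index P3
      have h2 := Subgroup.card_mul_index (P3 : Subgroup G)
      rw [c3, h] at h2
      have h3 : (P3 : Subgroup G).index = 56 := by omega
      rw [h3] at h1; exact h1
    obtain ⟨k, hk⟩ := hdvd
    have hle : Nat.card (Sylow 3 G) ≤ 56 := Nat.le_of_dvd (by norm_num) ⟨k, hk⟩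
    have hne4 : Nat.card (Sylow 3 G) ≠ 4 := by
      intro h4
      rw [h4] at hfac
      exact absurd hfac (by decide)
    clear hfac n7
    generalize Nat.card (Sylow 3 G) = n at *
    interval_cases n <;> omega
  have n2 : Nat.card (Sylow 2 G) = 21 := by
    have hne := syl_ne_one P2 (by rw [c2]; norm_num) (by rw [c2, h]; norm_num)
    have hne7 := n2_ne_7 h n3
    have hfac := syl_factorial P2 hne
    rw [h] at hfac
    have hdvd : Nat.card (Sylow 2 G) ∣ 21 := by
      have h1 := syl_dvd_index P2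
      have h2 := Subgroup.card_mul_index (P2 : Subgroup G)
      rw [c2, h] at h2
      have h3 : (P2 : Subgroup G).index = 21 := by omega
      rw [h3] at h1; exact h1
    obtain ⟨k, hk⟩ := hdvd
    have hle : Nat.card (Sylow 2 G) ≤ 21 := Nat.le_of_dvd (by norm_num) ⟨k, hk⟩
    have hne3 : Nat.card (Sylow 2 G) ≠ 3 := by
      intro h4
      rw [h4] at hfac
      exact absurd hfac (by decide)
    clear hfac n3 n7
    generalize Nat.card (Sylow 2 G) = n at *
    interval_cases n <;> omega
  exact ⟨n2, n3, n7⟩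

end S168

end Cfsg.Agent.Lib.Helper6
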