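import Mathlib
import Cfsg.Prelude.Def_ParabolicCharacters
import Cfsg.Prelude.Def_Characters
import Cfsg.Agent.Lib.Helper6.GL2Fix

set_option autoImplicit false

namespace Cfsg.Agent.Lib.Helper6

open Matrix

variable {F : Type*} [Field F]

local notation "MF" => Matrix (Fin 2) (Fin 2) F
local notation "SLF" => Matrix.SpecialLinearGroup (Fin 2) F
local notation "HB" => Subgroup.comap Matrix.SpecialLinearGroup.toGL (Cfsg.upperTriangularGL 2 F)

theorem sl2_mem (x : SLF) : x ∈ HB ↔ (x : MF) 1 0 = 0 := by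
  rw [Subgroup.mem_comap]
  show ((Matrix.SpecialLinearGroup.toGL x : GL (Fin 2) F) : MF).BlockTriangular id ↔ _
  rw [bt2_iff]
  rfl

theorem sl2_det (x : SLF) : (x : MF) 0 0 * (x : MF) 1 1 - (x : MF) 0 1 * (x : MF) 1 0 = 1 := by
  rw [← Matrix.det_fin_two]; exact x.det_coe

theorem sl2_conj10 (g x : SLF) : ((x⁻¹ * g * x : SLF) : MF) 1 0
    = ((g : MF) 1 0 * (x : MF) 0 0 + (g : MF) 1 1 * (x : MF) 1 0) * (x : MF) 0 0
      - ((g : MF) 0 0 * (x : MF) 0 0 + (g : MF) 0 1 * (x : MF) 1 0) * (x : MF) 1 0 := by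
  rw [Matrix.SpecialLinearGroup.coe_mul, Matrix.SpecialLinearGroup.coe_mul,
    Matrix.SpecialLinearGroup.coe_inv, Matrix.adjugate_fin_two]
  simp only [Matrix.mul_apply, Fin.sum_univ_two]
  simp only [Matrix.of_apply, Matrix.cons_val', Matrix.cons_val_zero, Matrix.cons_val_one,
    Matrix.cons_val_fin_one]
  ring

theorem sl2_conj00 (g x : SLF) : ((x⁻¹ * g * x : SLF) : MF) 0 0
    = (x : MF) 1 1 * ((g : MF) 0 0 * (x : MF) 0 0 + (g : MF) 0 1 * (x : MF) 1 0)
      - (x : MF) 0 1 * ((g : MF) 1 0 * (x : MF) 0 0 + (g : MF) 1 1 * (x : MF) 1 0) := by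
  rw [Matrix.SpecialLinearGroup.coe_mul, Matrix.SpecialLinearGroup.coe_mul,
    Matrix.SpecialLinearGroup.coe_inv, Matrix.adjugate_fin_two]
  simp only [Matrix.mul_apply, Fin.sum_univ_two]
  simp only [Matrix.of_apply, Matrix.cons_val', Matrix.cons_val_zero, Matrix.cons_val_one,
    Matrix.cons_val_fin_one]
  ring

theorem sl2_ext [DecidableEq F] (α : MulChar F ℂ) (y : SLF) :
    Cfsg.extendByZero HB (fun b => α (((b : SLF) : MF) 0 0)) y
      = if (y : MF) 1 0 = 0 then α ((y : MF) 0 0) else 0 := by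
  unfold Cfsg.extendByZero
  split_ifs with h
  · have hy : y ∈ HB := (sl2_mem y).2 h
    exact Subtype.val_injective.extend_apply _ _ ⟨y, hy⟩
  · apply Function.extend_apply'
    rintro ⟨b, rfl⟩
    exact h ((sl2_mem _).1 b.2)

theorem sl2_mkq (x y : SLF) : (QuotientGroup.mk x : SLF ⧸ HB) = QuotientGroup.mk y ↔
    (x : MF) 0 0 * (y : MF) 1 0 = (x : MF) 1 0 * (y : MF) 0 0 := by
  rw [QuotientGroup.eq, sl2_mem, Matrix.SpecialLinearGroup.coe_mul,
    Matrix.SpecialLinearGroup.coe_inv, Matrix.adjugate_fin_two]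
  simp [Matrix.mul_apply, Fin.sum_univ_two]
  constructor <;> intro h <;> linear_combination h

def sl2m (t : F) : SLF := ⟨!![t, -1; 1, 0], by simp [Matrix.det_fin_two]⟩

theorem sl2m_coe (t : F) : ((sl2m t : SLF) : MF) = !![t, -1; 1, 0] := rfl

theorem sl2_index [Fintype F] : Nat.card (SLF ⧸ HB) = Fintype.card F + 1 := by
  classical
  let ψ : Option F → SLF ⧸ HB := fun o => match o with
    | none => (QuotientGroup.mk 1 : SLF ⧸ HB)
    | some t => (QuotientGroup.mk (sl2m t) : SLF ⧸ HB)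
  have hbij : Function.Bijective ψ := by
    constructor
    · intro o1 o2 h
      rcases o1 with _ | t1 <;> rcases o2 with _ | t2
      · rfl
      · exfalso
        have h' : (QuotientGroup.mk 1 : SLF ⧸ HB) = (QuotientGroup.mk (sl2m t2) : SLF ⧸ HB) := h
        rw [sl2_mkq, sl2m_coe] at h'
        simp at h'
      · exfalso
        have h' : (QuotientGroup.mk 1 : SLF ⧸ HB) = (QuotientGroup.mk (sl2m t1) : SLF ⧸ HB) :=
          h.symm
        rw [sl2_mkq, sl2m_coe] at h'
        simp at h'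
      · have h' : (QuotientGroup.mk (sl2m t1) : SLF ⧸ HB)
            = (QuotientGroup.mk (sl2m t2) : SLF ⧸ HB) := h
        rw [sl2_mkq, sl2m_coe, sl2m_coe] at h'
        simp at h'
        rw [h']
    · intro q
      obtain ⟨x, rfl⟩ := QuotientGroup.mk_surjective q
      by_cases hc : (x : MF) 1 0 = 0
      · refine ⟨none, ?_⟩
        show (QuotientGroup.mk 1 : SLF ⧸ HB) = _
        rw [sl2_mkq]
        simp [hc]
      · refine ⟨some ((x : MF) 0 0 / (x : MF) 1 0), ?_⟩
        show (QuotientGroup.mk (sl2m _) : SLF ⧸ HB) = _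
        rw [sl2_mkq, sl2m_coe]
        simp
        field_simp
  rw [← Nat.card_congr (Equiv.ofBijective ψ hbij), Nat.card_eq_fintype_card, Fintype.card_option]

theorem sl2_cardH [Fintype F] [DecidableEq F] :
    (Finset.univ.filter (fun x : SLF => (x : MF) 1 0 = 0)).card = Nat.card HB := by
  rw [Nat.card_congr (Equiv.subtypeEquivRight (fun x : SLF => sl2_mem x)),
    Nat.card_eq_fintype_card, Fintype.card_subtype]

theorem sl2_cardH' [Fintype F] [DecidableEq F] :
    (Finset.univ.filter (fun x : SLF => (x : MF) 0 0 = 0)).card = Nat.card HB := by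
  rw [← sl2_cardH]
  refine (Finset.card_equiv (Equiv.mulLeft (sl2m 0)) (fun x => ?_)).symm
  simp only [Finset.mem_filter, Finset.mem_univ, true_and, Equiv.coe_mulLeft]
  rw [Matrix.SpecialLinearGroup.coe_mul, sl2m_coe]
  simp [Matrix.mul_apply, Fin.sum_univ_two]

theorem eig_of (g : MF) (a c : F) (hv : a ≠ 0 ∨ c ≠ 0)
    (hc : (g 0 0 * a + g 0 1 * c) * c = (g 1 0 * a + g 1 1 * c) * a) :
    ∃ (l : F) (v : Fin 2 → F), v ≠ 0 ∧ g.mulVec v = l • v := by
  by_cases ha : a = 0
  · have hc0 : c ≠ 0 := by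
      rcases hv with h | h
      · exact absurd ha h
      · exact h
    have hg01 : g 0 1 = 0 := by
      rw [ha] at hc
      have h2 : g 0 1 * (c * c) = 0 := by linear_combination hc
      rcases mul_eq_zero.1 h2 with h1 | h1
      · exact h1
      · exact absurd (mul_self_eq_zero.1 h1) hc0
    refine ⟨g 1 1, ![a, c], ?_, ?_⟩
    · intro h
      apply hc0
      have := congrFun h 1
      simpa using this
    · ext i
      fin_cases i
      · simp [Matrix.mulVec, dotProduct, Fin.sum_univ_two, ha, hg01]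
      · simp [Matrix.mulVec, dotProduct, Fin.sum_univ_two, ha]
  · refine ⟨(g 0 0 * a + g 0 1 * c) / a, ![a, c], ?_, ?_⟩
    · intro h
      apply ha
      have := congrFun h 0
      simpa using this
    · ext i
      fin_cases i
      · simp [Matrix.mulVec, dotProduct, Fin.sum_univ_two]
        field_simp
      · simp [Matrix.mulVec, dotProduct, Fin.sum_univ_two]
        field_simp
        linear_combination (-1 : F) * hc

theorem sl2_ind [Fintype F] [DecidableEq F] (α : MulChar F ℂ) (g : Matrix.SpecialLinearGroup (Fin 2) F) :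
    ((g : Matrix (Fin 2) (Fin 2) F) 0 1 = 0 → (g : Matrix (Fin 2) (Fin 2) F) 1 0 = 0 → (g : Matrix (Fin 2) (Fin 2) F) 0 0 ^ 2 ≠ 1 →
      (Cfsg.indFun ((Cfsg.upperTriangularGL 2 F).comap Matrix.SpecialLinearGroup.toGL) (fun b => α (((b : Matrix.SpecialLinearGroup (Fin 2) F) : Matrix (Fin 2) (Fin 2) F) 0 0))) g = α ((g : Matrix (Fin 2) (Fin 2) F) 0 0) + α ((g : Matrix (Fin 2) (Fin 2) F) 1 1)) ∧
    ((∀ (c : F) (v : Fin 2 → F), v ≠ 0 → (g : Matrix (Fin 2) (Fin 2) F).mulVec v ≠ c • v) → (Cfsg.indFun ((Cfsg.upperTriangularGL 2 F).comap Matrix.SpecialLinearGroup.toGL) (fun b => α (((b : Matrix.SpecialLinearGroup (Fin 2) F) : Matrix (Fin 2) (Fin 2) F) 0 0))) g = 0) ∧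
    ((g : Matrix (Fin 2) (Fin 2) F) 1 0 = 0 → (g : Matrix (Fin 2) (Fin 2) F) 0 0 = (g : Matrix (Fin 2) (Fin 2) F) 1 1 → (g : Matrix (Fin 2) (Fin 2) F) 0 1 ≠ 0 →
      (Cfsg.indFun ((Cfsg.upperTriangularGL 2 F).comap Matrix.SpecialLinearGroup.toGL) (fun b => α (((b : Matrix.SpecialLinearGroup (Fin 2) F) : Matrix (Fin 2) (Fin 2) F) 0 0))) g = α ((g : Matrix (Fin 2) (Fin 2) F) 0 0)) ∧
    ((g : Matrix (Fin 2) (Fin 2) F) 0 1 = 0 → (g : Matrix (Fin 2) (Fin 2) F) 1 0 = 0 → (g : Matrix (Fin 2) (Fin 2) F) 0 0 = (g : Matrix (Fin 2) (Fin 2) F) 1 1 →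
      (Cfsg.indFun ((Cfsg.upperTriangularGL 2 F).comap Matrix.SpecialLinearGroup.toGL) (fun b => α (((b : Matrix.SpecialLinearGroup (Fin 2) F) : Matrix (Fin 2) (Fin 2) F) 0 0))) g = ((Fintype.card F : ℂ) + 1) * α ((g : Matrix (Fin 2) (Fin 2) F) 0 0)) := by
  have hN : (Nat.card HB : ℂ) ≠ 0 := by
    exact_mod_cast (Nat.card_pos (α := HB)).ne'
  have hdg := sl2_det g
  refine ⟨?_, ?_, ?_, ?_⟩
  · intro h01 h10 hsq
    have hgg : (g : MF) 0 0 * (g : MF) 1 1 = 1 := by rw [h01] at hdg; linear_combination hdg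
    have hne : (g : MF) 0 0 ≠ (g : MF) 1 1 := by
      intro h
      apply hsq
      rw [pow_two]
      rw [← h] at hgg
      exact hgg
    have hterm : ∀ x : SLF,
        Cfsg.extendByZero HB (fun b => α (((b : SLF) : MF) 0 0)) (x⁻¹ * g * x)
        = (if (x : MF) 1 0 = 0 then α ((g : MF) 0 0) else 0)
          + (if (x : MF) 0 0 = 0 then α ((g : MF) 1 1) else 0) := by
      intro x
      have hdx := sl2_det x
      have e10 : ((x⁻¹ * g * x : SLF) : MF) 1 0
          = ((g : MF) 1 1 - (g : MF) 0 0) * ((x : MF) 0 0 * (x : MF) 1 0) := by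
        rw [sl2_conj10, h01, h10]; ring
      have e00 : ((x⁻¹ * g * x : SLF) : MF) 0 0
          = (x : MF) 1 1 * (g : MF) 0 0 * (x : MF) 0 0 - (x : MF) 0 1 * (g : MF) 1 1 * (x : MF) 1 0 := by
        rw [sl2_conj00, h01, h10]; ring
      rw [sl2_ext, e10, e00]
      by_cases hc : (x : MF) 1 0 = 0
      · have ha : (x : MF) 0 0 ≠ 0 := by
          intro ha
          rw [ha, hc] at hdx
          simp at hdx
        have hz : ((g : MF) 1 1 - (g : MF) 0 0) * ((x : MF) 0 0 * (x : MF) 1 0) = 0 := by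
          rw [hc]; ring
        rw [if_pos hc, if_neg ha, add_zero, if_pos hz]
        congr 1
        linear_combination ((g : MF) 0 0) * hdx
          + ((x : MF) 0 1 * ((g : MF) 0 0 - (g : MF) 1 1)) * hc
      · by_cases ha : (x : MF) 0 0 = 0
        · have hz : ((g : MF) 1 1 - (g : MF) 0 0) * ((x : MF) 0 0 * (x : MF) 1 0) = 0 := by
            rw [ha]; ring
          rw [if_neg hc, if_pos ha, zero_add, if_pos hz]
          congr 1
          linear_combination ((g : MF) 1 1) * hdx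
            + ((x : MF) 1 1 * ((g : MF) 0 0 - (g : MF) 1 1)) * ha
        · rw [if_neg hc, if_neg ha, add_zero, if_neg]
          intro h
          rcases mul_eq_zero.1 h with h1 | h1
          · exact hne (sub_eq_zero.1 h1).symm
          · rcases mul_eq_zero.1 h1 with h3 | h3
            · exact ha h3
            · exact hc h3
    unfold Cfsg.indFun
    rw [Finset.sum_congr rfl (fun x _ => hterm x)]
    simp only [Finset.sum_add_distrib, Finset.sum_ite, Finset.sum_const, Finset.sum_const_zero,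
      add_zero, smul_zero, nsmul_eq_mul]
    rw [sl2_cardH, sl2_cardH']
    field_simp
  · intro hno
    have hterm : ∀ x : SLF,
        Cfsg.extendByZero HB (fun b => α (((b : SLF) : MF) 0 0)) (x⁻¹ * g * x) = 0 := by
      intro x
      rw [sl2_ext, if_neg]
      intro h
      rw [sl2_conj10] at h
      have hdx := sl2_det x
      obtain ⟨l, v, hv, hlv⟩ := eig_of (g : MF) ((x : MF) 0 0) ((x : MF) 1 0) (by
        by_contra hcon
        push Not at hcon
        rw [hcon.1, hcon.2] at hdx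
        simp at hdx) (by linear_combination (-1 : F) * h)
      exact hno l v hv hlv
    unfold Cfsg.indFun
    rw [Finset.sum_congr rfl (fun x _ => hterm x), Finset.sum_const_zero, mul_zero]
  · intro h10 heq hne
    have hterm : ∀ x : SLF,
        Cfsg.extendByZero HB (fun b => α (((b : SLF) : MF) 0 0)) (x⁻¹ * g * x)
        = if (x : MF) 1 0 = 0 then α ((g : MF) 0 0) else 0 := by
      intro x
      have hdx := sl2_det x
      have e10 : ((x⁻¹ * g * x : SLF) : MF) 1 0
          = -((g : MF) 0 1 * ((x : MF) 1 0 * (x : MF) 1 0)) := by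
        rw [sl2_conj10, h10, heq]; ring
      have e00 : ((x⁻¹ * g * x : SLF) : MF) 0 0
          = (x : MF) 1 1 * ((g : MF) 0 0 * (x : MF) 0 0 + (g : MF) 0 1 * (x : MF) 1 0)
            - (x : MF) 0 1 * (g : MF) 0 0 * (x : MF) 1 0 := by
        rw [sl2_conj00, h10, ← heq]; ring
      rw [sl2_ext, e10, e00]
      by_cases hc : (x : MF) 1 0 = 0
      · have hz : -((g : MF) 0 1 * ((x : MF) 1 0 * (x : MF) 1 0)) = 0 := by rw [hc]; ring
        rw [if_pos hc, if_pos hz]
        congr 1
        linear_combination ((g : MF) 0 0) * hdx + ((x : MF) 1 1 * (g : MF) 0 1) * hc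
      · rw [if_neg hc, if_neg]
        intro h
        have h2 : (g : MF) 0 1 * ((x : MF) 1 0 * (x : MF) 1 0) = 0 := by
          linear_combination (-1 : F) * h
        rcases mul_eq_zero.1 h2 with h1 | h1
        · exact hne h1
        · exact hc (mul_self_eq_zero.1 h1)
    unfold Cfsg.indFun
    rw [Finset.sum_congr rfl (fun x _ => hterm x), Finset.sum_ite, Finset.sum_const,
      Finset.sum_const_zero, add_zero, sl2_cardH, nsmul_eq_mul]
    exact inv_mul_cancel_left₀ hN _
  · intro h01 h10 heq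
    have hterm : ∀ x : SLF,
        Cfsg.extendByZero HB (fun b => α (((b : SLF) : MF) 0 0)) (x⁻¹ * g * x)
        = α ((g : MF) 0 0) := by
      intro x
      have hdx := sl2_det x
      have e10 : ((x⁻¹ * g * x : SLF) : MF) 1 0 = 0 := by
        rw [sl2_conj10, h01, h10, heq]; ring
      have e00 : ((x⁻¹ * g * x : SLF) : MF) 0 0
          = (g : MF) 0 0 * ((x : MF) 0 0 * (x : MF) 1 1 - (x : MF) 0 1 * (x : MF) 1 0) := by
        rw [sl2_conj00, h01, h10, ← heq]; ring
      rw [sl2_ext, if_pos e10, e00, hdx, mul_one]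
    unfold Cfsg.indFun
    rw [Finset.sum_congr rfl (fun x _ => hterm x), Finset.sum_const, Finset.card_univ,
      ← Nat.card_eq_fintype_card, Subgroup.card_eq_card_quotient_mul_card_subgroup HB,
      sl2_index, nsmul_eq_mul]
    push_cast
    field_simp

end Cfsg.Agent.Lib.Helper6
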