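import Mathlib
import Cfsg.Agent.Lib.Helper6.BrauerFix
import Cfsg.Agent.Lib.Helper6.FixClass
import Cfsg.Agent.Lib.Lead.Glauberman
import Cfsg.Agent.Lib.Lead.Char15

/-!
Semidirect products `L = K ⋊ W₁` with `C_K(x) = W₂` for all `x ∈ W₁#`: fixed characters.
-/

set_option autoImplicit false

namespace Cfsg.Agent.Lib.Helper6

open Cfsg.Agent.Lib

theorem semi_decomp {L : Type*} [Group L] (K W₁ : Subgroup L) [hK : K.Normal]
    (hKW₁' : K ⊔ W₁ = ⊤) (t : L) : ∃ k ∈ K, ∃ x ∈ W₁, t = k * x := by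
  have h : t ∈ (↑(K ⊔ W₁) : Set L) := by rw [hKW₁']; exact Subgroup.mem_top t
  rw [Subgroup.normal_mul] at h
  obtain ⟨k, hk, x, hx, rfl⟩ := Set.mem_mul.mp h
  exact ⟨k, hk, x, hx, rfl⟩

theorem semi_card {L : Type*} [Group L] (K W₁ : Subgroup L) [hK : K.Normal]
    (hKW₁ : K ⊓ W₁ = ⊥) (hKW₁' : K ⊔ W₁ = ⊤) : Nat.card K * Nat.card W₁ = Nat.card L := by
  apply Subgroup.IsComplement'.card_mul_card
  apply Subgroup.isComplement'_of_disjoint_and_mul_eq_univ (disjoint_iff.mpr hKW₁)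
  rw [← Subgroup.normal_mul, hKW₁', Subgroup.coe_top]

theorem semi_coprime {L : Type*} [Group L] [Finite L] (K W₁ : Subgroup L) [hK : K.Normal]
    (hKW₁ : K ⊓ W₁ = ⊥) (hKW₁' : K ⊔ W₁ = ⊤) (hHall : Nat.Coprime (Nat.card W₁) W₁.index) :
    (Nat.card W₁).Coprime (Nat.card K) := by
  have h1 := semi_card K W₁ hKW₁ hKW₁'
  have h2 := W₁.card_mul_index
  have h3 : Nat.card K = W₁.index := by
    have h4 : Nat.card W₁ * Nat.card K = Nat.card W₁ * W₁.index := by rw [h2, mul_comm, h1]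
    exact Nat.eq_of_mul_eq_mul_left Nat.card_pos h4
  rw [h3]; exact hHall

/-- the inertia subgroup of a class function of a normal subgroup -/
def inertiaSub {L : Type*} [Group L] (K : Subgroup L) [hK : K.Normal] (θ : K → ℂ) :
    Subgroup L where
  carrier := {x | ∀ k : K, θ ⟨x * k * x⁻¹, hK.conj_mem (k : L) k.2 x⟩ = θ k}
  one_mem' := by
    intro k
    congr 1
    apply Subtype.ext
    simp
  mul_mem' := by
    intro x y hx hy k
    have h1 := hx ⟨y * k * y⁻¹, hK.conj_mem (k : L) k.2 y⟩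
    rw [hy k] at h1
    rw [← h1]
    congr 1
    apply Subtype.ext
    show x * y * k * (x * y)⁻¹ = x * (y * k * y⁻¹) * x⁻¹
    group
  inv_mem' := by
    intro x hx k
    have h1 := hx ⟨x⁻¹ * k * x⁻¹⁻¹, hK.conj_mem (k : L) k.2 x⁻¹⟩
    rw [← h1]
    congr 1
    apply Subtype.ext
    show x * (x⁻¹ * k * x⁻¹⁻¹) * x⁻¹ = (k : L)
    group

theorem mem_inertiaSub {L : Type*} [Group L] (K : Subgroup L) [hK : K.Normal] (θ : K → ℂ)
    (x : L) : x ∈ inertiaSub K θ ↔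
      (fun k : K => θ ⟨x * k * x⁻¹, hK.conj_mem (k : L) k.2 x⟩) = θ := by
  constructor
  · intro h
    funext k
    exact h k
  · intro h k
    exact congrFun h k

theorem conj_form {L : Type*} [Group L] (K : Subgroup L) [hK : K.Normal] (θ : K → ℂ) (x : L) :
    (fun k : K => θ ⟨x * k * x⁻¹, hK.conj_mem (k : L) k.2 x⟩)
      = θ ∘ (MulAut.conjNormal x : K ≃* K) := by
  funext k
  show _ = θ ((MulAut.conjNormal x : K ≃* K) k)
  congr 1

/-- the number of irreducible characters of `K` fixed by a nontrivial element of `W₁` -/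
theorem semi_fixed_count {L : Type*} [Group L] [Finite L] (K W₁ W₂ : Subgroup L) [hK : K.Normal]
    (hKW₁ : K ⊓ W₁ = ⊥) (hKW₁' : K ⊔ W₁ = ⊤) (hW₁c : IsCyclic W₁)
    (hHall : Nat.Coprime (Nat.card W₁) W₁.index) (hW₂c : IsCyclic W₂) (hW₂K : W₂ ≤ K)
    (hC : ∀ x ∈ W₁, x ≠ 1 → K ⊓ Subgroup.centralizer ({x} : Set L) = W₂)
    (s : L) (hs : s ∈ W₁) (hs1 : s ≠ 1) :
    Nat.card {θ : Cfsg.IrrCharacter K //
      (θ : K → ℂ) ∘ (MulAut.conjNormal s : K ≃* K) = (θ : K → ℂ)} = Nat.card W₂ := by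
  rw [← Lead.fixed_count_aut]
  symm
  have hcop := semi_coprime K W₁ hKW₁ hKW₁' hHall
  have hsK : (orderOf s).Coprime (Nat.card K) :=
    Nat.Coprime.coprime_dvd_left (Subgroup.orderOf_dvd_natCard W₁ hs) hcop
  have hmemC : ∀ (a : L), a ∈ W₁ → a ≠ 1 → ∀ w : L, w ∈ W₂ ↔ w ∈ K ∧ a * w = w * a := by
    intro a ha ha1 w
    rw [← hC a ha ha1, Subgroup.mem_inf, Subgroup.mem_centralizer_iff]
    constructor
    · rintro ⟨h1, h2⟩
      exact ⟨h1, h2 a (Set.mem_singleton a)⟩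
    · rintro ⟨h1, h2⟩
      refine ⟨h1, ?_⟩
      intro y hy
      rw [Set.mem_singleton_iff] at hy
      rw [hy]; exact h2
  have hW₂fix : ∀ w ∈ W₂, ∀ a ∈ W₁, a * w * a⁻¹ = w := by
    intro w hw a ha
    by_cases ha1 : a = 1
    · rw [ha1]; group
    · rw [((hmemC a ha ha1 w).mp hw).2]; group
  have hW₂comm : ∀ a ∈ W₂, ∀ b ∈ W₂, a * b = b * a := by
    intro a ha b hb
    letI := IsCyclic.commGroup (α := W₂)
    have h1 := mul_comm (⟨a, ha⟩ : W₂) ⟨b, hb⟩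
    exact congrArg Subtype.val h1
  have hsolv : Group.IsSolvable W₁ := by
    letI := IsCyclic.commGroup (α := W₁)
    exact Group.isSolvable_of_comm (fun a b => mul_comm a b)
  apply Nat.card_congr
  refine Equiv.ofBijective (fun w : W₂ =>
    (⟨ConjClasses.mk (⟨(w : L), hW₂K w.2⟩ : K), ?_⟩ : {C : ConjClasses K //
      ConjClasses.map (MulAut.conjNormal s : K ≃* K).toMonoidHom C = C})) ⟨?_, ?_⟩
  · rw [fixclass_iff K s ⟨(w : L), hW₂K w.2⟩]
    refine ⟨1, K.one_mem, ?_⟩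
    show s * (w : L) * s⁻¹ = 1 * (w : L) * 1⁻¹
    rw [hW₂fix w w.2 s hs]; group
  · intro w w' hww
    have h1 : ConjClasses.mk (⟨(w : L), hW₂K w.2⟩ : K)
        = ConjClasses.mk (⟨(w' : L), hW₂K w'.2⟩ : K) := congrArg Subtype.val hww
    rw [ConjClasses.mk_eq_mk_iff_isConj, isConj_iff] at h1
    obtain ⟨k, hk⟩ := h1
    have hk' : (k : L) * w * (k : L)⁻¹ = w' := congrArg Subtype.val hk
    obtain ⟨c, hc, hcw⟩ := Lead.glauberman_conj (isAct_conjElt L) W₁ K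
      (by rw [Subgroup.normalizer_eq_top]; exact le_top) hcop (Or.inl hsolv) (w : L) (w' : L)
      (fun a ha => hW₂fix w w.2 a ha) (fun a ha => hW₂fix w' w'.2 a ha) (k : L) k.2 hk'
    have hcW₂ : c ∈ W₂ :=
      (hmemC s hs hs1 c).mpr ⟨hc.1, Subgroup.mem_centralizer_iff.mp hc.2 s hs⟩
    apply Subtype.ext
    have hcw' : c * (w : L) * c⁻¹ = w' := hcw
    rw [← hcw', hW₂comm c hcW₂ w w.2]
    group
  · rintro ⟨C, hCfix⟩
    obtain ⟨k, rfl⟩ := ConjClasses.exists_rep C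
    obtain ⟨k', hk', hcomm⟩ := fixed_class_rep K s hsK (k : L) ((fixclass_iff K s k).mp hCfix)
    have hmemK : k' * (k : L) * k'⁻¹ ∈ K := K.mul_mem (K.mul_mem hk' k.2) (K.inv_mem hk')
    have hw : k' * (k : L) * k'⁻¹ ∈ W₂ := (hmemC s hs hs1 _).mpr ⟨hmemK, hcomm⟩
    refine ⟨⟨_, hw⟩, ?_⟩
    apply Subtype.ext
    show ConjClasses.mk (⟨k' * (k : L) * k'⁻¹, _⟩ : K) = ConjClasses.mk k
    rw [ConjClasses.mk_eq_mk_iff_isConj, isConj_comm, isConj_iff]
    exact ⟨⟨k', hk'⟩, Subtype.ext rfl⟩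

end Cfsg.Agent.Lib.Helper6
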