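import Mathlib
import Cfsg.Agent.Lib.Helper6.TIFrob

/-!
# Exceptional characters of a TI subgroup with Frobenius normalizer are exactly the irreducible
characters that are not constant on the nonidentity elements of the subgroup
-/

set_option autoImplicit false

namespace Cfsg.Agent.Lib.Helper6

open Cfsg.Agent.Lib

section tif2

variable {G : Type*} [Group G] [Fintype G] {K : Subgroup G}
  [Fintype ↥(Subgroup.normalizer (K : Set G))]
  {S : Set (↥(Subgroup.normalizer (K : Set G)) → ℂ)}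
  {star : (↥(Subgroup.normalizer (K : Set G)) → ℂ) → (G → ℂ)}

omit [Fintype G] in
theorem tif_not_const (hC : ∀ k ∈ K, k ≠ 1 → Subgroup.centralizer ({k} : Set G) ≤ K) (hS : S = {χ : ↥(Subgroup.normalizer (K : Set G)) → ℂ | Cfsg.IsIrrCharacter ↥(Subgroup.normalizer (K : Set G)) χ ∧ ∃ k : ↥(Subgroup.normalizer (K : Set G)), (k : G) ∈ K ∧ χ k ≠ χ 1}) {χ ξ : ↥(Subgroup.normalizer (K : Set G)) → ℂ} (hχ : χ ∈ S) (hξ : ξ ∈ S) (hne : ξ ≠ χ) :
    ∃ a b : ↥(Subgroup.normalizer (K : Set G)), (a : G) ∈ K ∧ (b : G) ∈ K ∧ a ≠ 1 ∧ b ≠ 1 ∧ χ a ≠ χ b := by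
  classical
  by_contra hcon
  push Not at hcon
  obtain ⟨hirrχ, k₁, hk₁K', hk₁ne⟩ := (tif_mem_iff hS χ).mp hχ
  have hk₁K : (k₁ : G) ∈ K := Subgroup.mem_subgroupOf.mp hk₁K'
  have hk₁1 : k₁ ≠ 1 := by rintro rfl; exact hk₁ne rfl
  obtain ⟨hirrξ, k₂, hk₂K', hk₂ne⟩ := (tif_mem_iff hS ξ).mp hξ
  have hpt : ∀ n : ↥(Subgroup.normalizer (K : Set G)), χ n * (starRingEnd ℂ) (ξ n)
      = (if n = 1 then (χ 1 - χ k₁) * (starRingEnd ℂ) (ξ 1) else 0)
        + χ k₁ * (starRingEnd ℂ) (ξ n) := by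
    intro n
    by_cases hn1 : n = 1
    · rw [if_pos hn1, hn1]; ring
    · rw [if_neg hn1, zero_add]
      by_cases hnK : (n : G) ∈ K
      · rw [hcon n k₁ hnK hk₁K hn1 hk₁1]
      · rw [tif_S_vanish hC hS hξ n hnK, map_zero, mul_zero, mul_zero]
  have h1 : Cfsg.classInner χ ξ = 0 := irr_orth' hirrχ hirrξ (fun h => hne h.symm)
  have hξ1 : ξ ≠ fun _ => 1 := by
    intro h
    apply hk₂ne
    rw [h]
  have h2 : Cfsg.classInner ξ (fun _ => (1 : ℂ)) = 0 :=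
    irr_orth' hirrξ Lead.isIrrCharacter_one hξ1
  unfold Cfsg.classInner at h1 h2
  have hc : (Nat.card ↥(Subgroup.normalizer (K : Set G)) : ℂ)⁻¹ ≠ 0 := inv_ne_zero (Nat.cast_ne_zero.mpr Nat.card_pos.ne')
  have h1' := (mul_eq_zero.mp h1).resolve_left hc
  have h2' := (mul_eq_zero.mp h2).resolve_left hc
  have h3 : ∑ n : ↥(Subgroup.normalizer (K : Set G)), (starRingEnd ℂ) (ξ n) = 0 := by
    have h4 : ∑ n : ↥(Subgroup.normalizer (K : Set G)), ξ n = 0 := by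
      rw [← h2']
      apply Finset.sum_congr rfl
      intro n _
      rw [map_one, mul_one]
    rw [← map_sum, h4, map_zero]
  rw [Finset.sum_congr rfl (fun n _ => hpt n), Finset.sum_add_distrib, Finset.sum_ite_eq',
    ← Finset.mul_sum, h3, mul_zero, add_zero, if_pos (Finset.mem_univ _)] at h1'
  rcases mul_eq_zero.mp h1' with h | h
  · exact hk₁ne (sub_eq_zero.mp h).symm
  · obtain ⟨n, hn, hξn⟩ := irr_deg' hirrξ
    rw [hξn, Complex.conj_natCast] at h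
    exact (Nat.cast_ne_zero.mpr hn.ne') h

theorem tif_exc_not_const (hTI : ∀ g : G, g ∉ Subgroup.normalizer (K : Set G) → ∀ k ∈ K, g * k * g⁻¹ ∈ K → k = 1) (hC : ∀ k ∈ K, k ≠ 1 → Subgroup.centralizer ({k} : Set G) ≤ K) (hS : S = {χ : ↥(Subgroup.normalizer (K : Set G)) → ℂ | Cfsg.IsIrrCharacter ↥(Subgroup.normalizer (K : Set G)) χ ∧ ∃ k : ↥(Subgroup.normalizer (K : Set G)), (k : G) ∈ K ∧ χ k ≠ χ 1}) (htwo : ∃ χ ∈ S, ∃ ξ ∈ S, χ ≠ ξ) (hstar : Cfsg.IsLinearIsometryOn (Cfsg.zspan S) star) (hext : ∀ α ∈ Cfsg.zspanOn S ({1}ᶜ : Set ↥(Subgroup.normalizer (K : Set G))), star α = Cfsg.indFun (Subgroup.normalizer (K : Set G)) α)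
    {χ : ↥(Subgroup.normalizer (K : Set G)) → ℂ} (hχ : χ ∈ S) :
    ∃ a ∈ K, ∃ b ∈ K, a ≠ 1 ∧ b ≠ 1 ∧ star χ a ≠ star χ b := by
  obtain ⟨m, hm⟩ := tif_shift hTI hC hS htwo hstar hext
  obtain ⟨χ₁, hχ₁, χ₂, hχ₂, h12⟩ := htwo
  have hex : ∃ ξ ∈ S, ξ ≠ χ := by
    by_cases h : χ₁ = χ
    · exact ⟨χ₂, hχ₂, fun h2 => h12 (h.trans h2.symm)⟩
    · exact ⟨χ₁, hχ₁, h⟩
  obtain ⟨ξ, hξ, hne⟩ := hex
  obtain ⟨a, b, haK, hbK, ha1, hb1, hab⟩ := tif_not_const hC hS hχ hξ hne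
  refine ⟨a, haK, b, hbK, fun h => ha1 (OneMemClass.coe_eq_one.mp h),
    fun h => hb1 (OneMemClass.coe_eq_one.mp h), ?_⟩
  intro h
  apply hab
  have h1 := hm χ hχ a haK ha1
  have h2 := hm χ hχ b hbK hb1
  rw [h] at h1
  exact sub_right_injective (h1.trans h2.symm)

theorem tif_const_of_not_exc (hS : S = {χ : ↥(Subgroup.normalizer (K : Set G)) → ℂ | Cfsg.IsIrrCharacter ↥(Subgroup.normalizer (K : Set G)) χ ∧ ∃ k : ↥(Subgroup.normalizer (K : Set G)), (k : G) ∈ K ∧ χ k ≠ χ 1}) (hstar : Cfsg.IsLinearIsometryOn (Cfsg.zspan S) star) (hext : ∀ α ∈ Cfsg.zspanOn S ({1}ᶜ : Set ↥(Subgroup.normalizer (K : Set G))), star α = Cfsg.indFun (Subgroup.normalizer (K : Set G)) α) (hne : S.Nonempty) (ψ : G → ℂ)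
    (hψ : Cfsg.IsIrrCharacter G ψ) (hnot : ∀ χ ∈ S, ψ ≠ star χ ∧ ψ ≠ -star χ)
    (a b : G) (ha : a ∈ K) (hb : b ∈ K) (ha1 : a ≠ 1) (hb1 : b ≠ 1) : ψ a = ψ b := by
  classical
  haveI : Fintype (Cfsg.IrrCharacter ↥(Subgroup.normalizer (K : Set G))) := Fintype.ofFinite _
  obtain ⟨η₀, hη₀⟩ := hne
  have horth : ∀ χ ∈ S, Cfsg.classInner (star χ) ψ = 0 := by
    intro χ hχ
    have hgen := hstar.2.2.2 χ (zspan_mem hχ)
    have hnorm : Cfsg.classInner (star χ) (star χ) = 1 := by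
      rw [hstar.2.2.1 χ (zspan_mem hχ) χ (zspan_mem hχ)]
      exact irr_norm' ((tif_mem_iff hS χ).mp hχ).1
    obtain ⟨p, hp⟩ := gen_norm_one_cases (star χ) hgen hnorm
    have hpψ : p.1 ≠ ψ := by
      intro h
      rcases hp with hp | hp
      · exact (hnot χ hχ).1 (by rw [hp, h])
      · exact (hnot χ hχ).2 (by rw [hp, h, neg_neg])
    have h0 : Cfsg.classInner p.1 ψ = 0 := irr_orth' p.2 hψ hpψ
    rcases hp with hp | hp
    · rw [hp, h0]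
    · rw [hp, classInner_neg_left, h0, neg_zero]
  have hcl : Cfsg.IsClassFunction G ψ := Lead.isClassFunction_of_irr ⟨ψ, hψ⟩
  have hRcl : Cfsg.IsClassFunction ↥(Subgroup.normalizer (K : Set G)) (fun n : ↥(Subgroup.normalizer (K : Set G)) => ψ n) := fun g h => hcl g h
  have hprop : ∀ χ' ∈ S, ∀ ξ ∈ S, ξ 1 * Cfsg.classInner χ' (fun n : ↥(Subgroup.normalizer (K : Set G)) => ψ n)
      = χ' 1 * Cfsg.classInner ξ (fun n : ↥(Subgroup.normalizer (K : Set G)) => ψ n) := by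
    intro χ' hχ' ξ hξ
    have h1 := tif_res_inner hS hstar hext ψ hcl hχ' hξ
    rw [horth χ' hχ', horth ξ hξ, mul_zero, mul_zero, sub_zero] at h1
    exact sub_eq_zero.mp h1.symm
  have hKN : K ≤ Subgroup.normalizer (K : Set G) := Subgroup.le_normalizer
  have e1 := tif_const hS _ hRcl hprop hη₀ ⟨a, hKN ha⟩ ha (fun h => ha1 (congrArg Subtype.val h))
  have e2 := tif_const hS _ hRcl hprop hη₀ ⟨b, hKN hb⟩ hb (fun h => hb1 (congrArg Subtype.val h))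
  exact e1.trans e2.symm

end tif2

end Cfsg.Agent.Lib.Helper6
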