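import Mathlib

set_option autoImplicit false

namespace Cfsg.Agent.Lib.Helper6

open Matrix

abbrev M5 := Matrix (Fin 5) (Fin 5) (ZMod 2)
abbrev SL5 := Matrix.SpecialLinearGroup (Fin 5) (ZMod 2)

def tvb : Fin 5 → ℕ := ![0, 4, 1, 2, 3]

theorem tvb_le : ∀ j : Fin 5, tvb j ≤ 4 := by decide

theorem tvb_zero : tvb 0 = 0 := rfl
theorem tvb_one : tvb 1 = 4 := rfl

def SUT (k : ℕ) (N : M5) : Prop := ∀ i j, tvb j < tvb i + k → N i j = 0

theorem SUT_mono {k : ℕ} {N : M5} (h : SUT (k + 1) N) : SUT k N :=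
  fun i j hij => h i j (by omega)

theorem SUT_mul {k : ℕ} {N N' : M5} (h : SUT k N) (h' : SUT 1 N') : SUT (k + 1) (N * N') := by
  intro i j hij
  rw [Matrix.mul_apply]
  apply Finset.sum_eq_zero
  intro l _
  by_cases hl : tvb l < tvb i + k
  · rw [h i l hl, zero_mul]
  · rw [h' l j (by omega), mul_zero]

theorem SUT_add {k : ℕ} {N N' : M5} (h : SUT k N) (h' : SUT k N') : SUT k (N + N') := by
  intro i j hij
  rw [Matrix.add_apply, h i j hij, h' i j hij, add_zero]

theorem SUT_one : SUT 0 (1 : M5) := by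
  intro i j hij
  have hne : i ≠ j := by
    rintro rfl
    omega
  exact Matrix.one_apply_ne hne

theorem SUT_pow {N : M5} (h : SUT 1 N) (k : ℕ) : SUT k (N ^ k) := by
  induction k with
  | zero => rw [pow_zero]; exact SUT_one
  | succ k ih => rw [pow_succ]; exact SUT_mul ih h

theorem SUT_five {N : M5} (h : SUT 5 N) : N = 0 := by
  ext i j
  have := tvb_le j
  exact h i j (by omega)

theorem char2_sq (A : M5) : (1 + A) ^ 2 = 1 + A ^ 2 := by
  have h0 : A + A = 0 := by
    ext i j
    exact CharTwo.add_self_eq_zero _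
  rw [pow_two, pow_two, mul_add, add_mul, add_mul, one_mul, mul_one, one_mul]
  calc 1 + A + (A + A * A) = 1 + (A + A) + A * A := by abel
    _ = 1 + A * A := by rw [h0, add_zero]

theorem SUT_pow8 {N : M5} (h : SUT 1 N) : (1 + N) ^ 8 = 1 := by
  have h5 : N ^ 5 = 0 := SUT_five (SUT_pow h 5)
  have h8 : N ^ 8 = 0 := by
    have : N ^ 8 = N ^ 5 * N ^ 3 := by rw [← pow_add]
    rw [this, h5, zero_mul]
  have e1 : (1 + N) ^ 8 = (((1 + N) ^ 2) ^ 2) ^ 2 := by rw [← pow_mul, ← pow_mul]
  rw [e1, char2_sq, char2_sq, char2_sq, ← pow_mul, ← pow_mul, h8, add_zero]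

/-- membership predicate -/
def Pmem (M : SL5) : Prop := SUT 1 ((M : M5) - 1)

theorem Pmem_one : Pmem 1 := by
  intro i j _
  simp

theorem Pmem_mul {M M' : SL5} (h : Pmem M) (h' : Pmem M') : Pmem (M * M') := by
  have e : ((M * M' : SL5) : M5) - 1
      = ((M : M5) - 1) * ((M' : M5) - 1) + (((M : M5) - 1) + ((M' : M5) - 1)) := by
    rw [Matrix.SpecialLinearGroup.coe_mul]
    noncomm_ring
  unfold Pmem
  rw [e]
  exact SUT_add (SUT_mono (SUT_mul h h')) (SUT_add h h')

theorem Pmem_pow {M : SL5} (h : Pmem M) (n : ℕ) : Pmem (M ^ n) := by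
  induction n with
  | zero => rw [pow_zero]; exact Pmem_one
  | succ n ih => rw [pow_succ]; exact Pmem_mul ih h

theorem Pmem_pow8 {M : SL5} (h : Pmem M) : M ^ 8 = 1 := by
  apply Subtype.ext
  have e : (M : M5) = 1 + ((M : M5) - 1) := by abel
  show ((M ^ 8 : SL5) : M5) = 1
  rw [Matrix.SpecialLinearGroup.coe_pow, e]
  exact SUT_pow8 h

theorem Pmem_inv {M : SL5} (h : Pmem M) : Pmem M⁻¹ := by
  have e : M⁻¹ = M ^ 7 := by
    apply inv_eq_of_mul_eq_one_right
    rw [← pow_succ']
    exact Pmem_pow8 h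
  rw [e]
  exact Pmem_pow h 7

def tvP : Subgroup SL5 where
  carrier := {M | Pmem M}
  mul_mem' := fun h h' => Pmem_mul h h'
  one_mem' := Pmem_one
  inv_mem' := fun h => Pmem_inv h

theorem tvP_isPGroup : IsPGroup 2 tvP := by
  intro g
  refine ⟨3, ?_⟩
  apply Subtype.ext
  show ((g : SL5)) ^ (2 ^ 3) = 1
  exact Pmem_pow8 g.2

/-- elements of `tvP` commute with the transvection `1 + E₀₁`. -/
theorem tvP_comm (s : SL5) (hs : (s : M5) = Matrix.transvection 0 1 1) (M : SL5) (hM : M ∈ tvP) :
    M * s = s * M := by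
  have hN : SUT 1 ((M : M5) - 1) := hM
  apply Subtype.ext
  show (M : M5) * (s : M5) = (s : M5) * (M : M5)
  rw [hs, Matrix.transvection]
  have e : (M : M5) = 1 + ((M : M5) - 1) := by abel
  have h1 : ((M : M5) - 1) * Matrix.single 0 1 1 = 0 := by
    ext i j
    rw [Matrix.mul_apply]
    apply Finset.sum_eq_zero
    intro l _
    rw [Matrix.single_apply]
    split_ifs with h
    · obtain ⟨h1, _⟩ := h
      subst h1
      rw [hN i 0 (by rw [tvb_zero]; omega), zero_mul]
    · rw [mul_zero]
  have h2 : Matrix.single 0 1 1 * ((M : M5) - 1) = 0 := by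
    ext i j
    rw [Matrix.mul_apply]
    apply Finset.sum_eq_zero
    intro l _
    rw [Matrix.single_apply]
    split_ifs with h
    · obtain ⟨_, h1⟩ := h
      subst h1
      have := tvb_le j
      rw [hN 1 j (by rw [tvb_one]; omega), mul_zero]
    · rw [zero_mul]
  rw [e]
  calc (1 + ((M : M5) - 1)) * (1 + Matrix.single 0 1 1)
      = 1 + ((M : M5) - 1) + Matrix.single 0 1 1 + ((M : M5) - 1) * Matrix.single 0 1 1 := by
        noncomm_ring
    _ = 1 + ((M : M5) - 1) + Matrix.single 0 1 1 + Matrix.single 0 1 1 * ((M : M5) - 1) := by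
        rw [h1, h2]
    _ = (1 + Matrix.single 0 1 1) * (1 + ((M : M5) - 1)) := by noncomm_ring

/-- commuting with an elementary matrix -/
theorem comm_single (C : M5) (a b : Fin 5)
    (h : C * Matrix.single a b 1 = Matrix.single a b 1 * C) :
    (∀ i, i ≠ a → C i a = 0) ∧ (∀ j, j ≠ b → C b j = 0) ∧ C a a = C b b := by
  have e1 : ∀ i j, (C * (Matrix.single a b 1 : M5)) i j = if j = b then C i a else 0 := by
    intro i j
    rw [Matrix.mul_apply]
    by_cases hj : j = b
    · subst hj
      rw [if_pos rfl, Finset.sum_eq_single a]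
      · rw [Matrix.single_apply, if_pos ⟨rfl, rfl⟩, mul_one]
      · intro l _ hl
        rw [Matrix.single_apply, if_neg (fun hh => hl hh.1.symm), mul_zero]
      · intro hh; exact absurd (Finset.mem_univ _) hh
    · rw [if_neg hj]
      apply Finset.sum_eq_zero
      intro l _
      rw [Matrix.single_apply, if_neg (fun hh => hj hh.2.symm), mul_zero]
  have e2 : ∀ i j, ((Matrix.single a b 1 : M5) * C) i j = if i = a then C b j else 0 := by
    intro i j
    rw [Matrix.mul_apply]
    by_cases hi : i = a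
    · subst hi
      rw [if_pos rfl, Finset.sum_eq_single b]
      · rw [Matrix.single_apply, if_pos ⟨rfl, rfl⟩, one_mul]
      · intro l _ hl
        rw [Matrix.single_apply, if_neg (fun hh => hl hh.2.symm), zero_mul]
      · intro hh; exact absurd (Finset.mem_univ _) hh
    · rw [if_neg hi]
      apply Finset.sum_eq_zero
      intro l _
      rw [Matrix.single_apply, if_neg (fun hh => hi hh.1.symm), zero_mul]
  refine ⟨fun i hi => ?_, fun j hj => ?_, ?_⟩
  · have h1 := congrFun (congrFun h i) b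
    rw [e1, e2, if_pos rfl, if_neg hi] at h1
    exact h1
  · have h1 := congrFun (congrFun h a) j
    rw [e1, e2, if_neg hj, if_pos rfl] at h1
    exact h1.symm
  · have h1 := congrFun (congrFun h a) b
    rw [e1, e2, if_pos rfl, if_pos rfl] at h1
    exact h1

def tvT (a b : Fin 5) (hab : a ≠ b) : SL5 :=
  ⟨Matrix.transvection a b 1, Matrix.det_transvection_of_ne a b hab 1⟩

theorem tvT_mem (a b : Fin 5) (hab : a ≠ b) (hlt : tvb a < tvb b) : tvT a b hab ∈ tvP := by
  show SUT 1 ((Matrix.transvection a b (1 : ZMod 2) : M5) - 1)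
  intro i j hij
  have e : (Matrix.transvection a b (1 : ZMod 2) : M5) - 1 = Matrix.single a b 1 := by
    rw [Matrix.transvection]; abel
  rw [e, Matrix.single_apply]
  rw [if_neg]
  rintro ⟨rfl, rfl⟩
  omega

theorem comm_tvT (c : SL5) (a b : Fin 5) (hab : a ≠ b) (h : c * tvT a b hab = tvT a b hab * c) :
    (c : M5) * Matrix.single a b 1 = Matrix.single a b 1 * (c : M5) := by
  have h1 : (c : M5) * Matrix.transvection a b 1 = Matrix.transvection a b 1 * (c : M5) :=
    congrArg Subtype.val h
  rw [Matrix.transvection, mul_add, add_mul, mul_one, one_mul] at h1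
  exact add_left_cancel h1

theorem fin5_cases : ∀ j : Fin 5, j = 0 ∨ j = 1 ∨ j = 2 ∨ j = 3 ∨ j = 4 := by decide

theorem zmod2_cases : ∀ x : ZMod 2, x = 0 ∨ x = 1 := by decide

theorem tv_centralizer (c : SL5) (h : ∀ M ∈ tvP, c * M = M * c) :
    c = 1 ∨ (c : M5) = Matrix.transvection 0 1 1 := by
  have k01 := comm_single (c : M5) 0 1 (comm_tvT c 0 1 (by decide) (h _ (tvT_mem 0 1 (by decide) (by decide))))
  have k21 := comm_single (c : M5) 2 1 (comm_tvT c 2 1 (by decide) (h _ (tvT_mem 2 1 (by decide) (by decide))))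
  have k31 := comm_single (c : M5) 3 1 (comm_tvT c 3 1 (by decide) (h _ (tvT_mem 3 1 (by decide) (by decide))))
  have k41 := comm_single (c : M5) 4 1 (comm_tvT c 4 1 (by decide) (h _ (tvT_mem 4 1 (by decide) (by decide))))
  have k02 := comm_single (c : M5) 0 2 (comm_tvT c 0 2 (by decide) (h _ (tvT_mem 0 2 (by decide) (by decide))))
  have k03 := comm_single (c : M5) 0 3 (comm_tvT c 0 3 (by decide) (h _ (tvT_mem 0 3 (by decide) (by decide))))
  have k04 := comm_single (c : M5) 0 4 (comm_tvT c 0 4 (by decide) (h _ (tvT_mem 0 4 (by decide) (by decide))))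
  have hoff : ∀ i j : Fin 5, i ≠ j → ¬ (i = 0 ∧ j = 1) → (c : M5) i j = 0 := by
    intro i j hij h01
    rcases fin5_cases j with rfl | rfl | rfl | rfl | rfl
    · exact k01.1 i hij
    · rcases fin5_cases i with rfl | rfl | rfl | rfl | rfl
      · exact absurd ⟨rfl, rfl⟩ h01
      · exact absurd rfl hij
      · exact k02.2.1 1 (by decide)
      · exact k03.2.1 1 (by decide)
      · exact k04.2.1 1 (by decide)
    · exact k21.1 i hij
    · exact k31.1 i hij
    · exact k41.1 i hij
  have hdiag : ∀ i : Fin 5, (c : M5) i i = (c : M5) 1 1 := by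
    intro i
    rcases fin5_cases i with rfl | rfl | rfl | rfl | rfl
    · exact k01.2.2
    · rfl
    · exact k21.2.2
    · exact k31.2.2
    · exact k41.2.2
  have h11 : (c : M5) 1 1 = 1 := by
    rcases zmod2_cases ((c : M5) 1 1) with h0 | h1
    · exfalso
      have hdet : (c : M5).det = 0 := by
        apply Matrix.det_eq_zero_of_row_eq_zero 1
        intro j
        by_cases hj : j = 1
        · rw [hj]; exact h0
        · exact hoff 1 j (fun hh => hj hh.symm) (by simp)
      have := c.2
      rw [hdet] at this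
      exact absurd this (by decide)
    · exact h1
  rcases zmod2_cases ((c : M5) 0 1) with h0 | h1
  · left
    apply Subtype.ext
    show (c : M5) = 1
    ext i j
    by_cases hij : i = j
    · subst hij; rw [hdiag, h11, Matrix.one_apply_eq]
    · rw [Matrix.one_apply_ne hij]
      by_cases h01 : i = 0 ∧ j = 1
      · rw [h01.1, h01.2]; exact h0
      · exact hoff i j hij h01
  · right
    ext i j
    rw [Matrix.transvection, Matrix.add_apply, Matrix.single_apply]
    by_cases hij : i = j
    · subst hij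
      rw [hdiag, h11, Matrix.one_apply_eq, if_neg, add_zero]
      rintro ⟨h1', h2'⟩
      rw [← h1'] at h2'
      exact absurd h2' (by decide)
    · rw [Matrix.one_apply_ne hij, zero_add]
      by_cases h01 : i = 0 ∧ j = 1
      · rw [if_pos ⟨h01.1.symm, h01.2.symm⟩, h01.1, h01.2]; exact h1
      · rw [if_neg (fun hh => h01 ⟨hh.1.symm, hh.2.symm⟩)]
        exact hoff i j hij h01

end Cfsg.Agent.Lib.Helper6
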