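import Mathlib
import Cfsg.Agent.Lib.Helper6.Transv1
import Cfsg.Agent.Lib.Helper4.Basic

set_option autoImplicit false

namespace Cfsg.Agent.Lib.Helper6

open scoped Pointwise

theorem exists_conj_le_sylow' {K : Type*} [Group K] [Finite K] {p : ℕ} [Fact p.Prime]
    (T : Sylow p K) (U : Subgroup K) (hU : IsPGroup p U) :
    ∃ c : K, ∀ u ∈ U, c * u * c⁻¹ ∈ (T : Subgroup K) := by
  obtain ⟨R, hR⟩ := hU.exists_le_sylow
  obtain ⟨c, hc⟩ := MulAction.exists_smul_eq K R T
  refine ⟨c, fun u hu => ?_⟩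
  rw [← hc, Sylow.coe_subgroup_smul, Subgroup.mem_pointwise_smul_iff_inv_smul_mem]
  have h4 : (MulAut.conj c)⁻¹ • (c * u * c⁻¹) = u := by
    rw [MulAut.smul_def, MulAut.conj_inv_apply]; group
  rw [h4]; exact hR hu

theorem sylow_of_center_le {G : Type*} [Group G] [Finite G] (z : G) (hz : orderOf z = 2)
    (T : Sylow 2 (Subgroup.centralizer ({z} : Set G)))
    (hZ : ∀ c ∈ (T : Subgroup (Subgroup.centralizer ({z} : Set G))),
      (∀ t ∈ (T : Subgroup (Subgroup.centralizer ({z} : Set G))), c * t = t * c) →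
        c = 1 ∨ (c : G) = z) :
    ¬ 2 ∣ ((T : Subgroup (Subgroup.centralizer ({z} : Set G))).map
      (Subgroup.subtype (Subgroup.centralizer ({z} : Set G)))).index := by
  obtain ⟨C, hC⟩ : ∃ C : Subgroup G, C = Subgroup.centralizer ({z} : Set G) := ⟨_, rfl⟩
  subst hC
  have hz1 : z ≠ 1 := by
    rintro rfl
    rw [orderOf_one] at hz
    exact absurd hz (by norm_num)
  have hzC : z ∈ Subgroup.centralizer ({z} : Set G) := by
    rw [Subgroup.mem_centralizer_iff]
    intro h hh
    rw [Set.mem_singleton_iff.mp hh]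
  have hCz : ∀ x ∈ Subgroup.centralizer ({z} : Set G), z * x = x * z := by
    intro x hx
    rw [Subgroup.mem_centralizer_iff] at hx
    exact hx z (Set.mem_singleton z)
  -- z ∈ T
  have hzT : (⟨z, hzC⟩ : Subgroup.centralizer ({z} : Set G)) ∈
      (T : Subgroup (Subgroup.centralizer ({z} : Set G))) := by
    have hnorm : (Subgroup.zpowers (⟨z, hzC⟩ : Subgroup.centralizer ({z} : Set G))).Normal := by
      constructor
      intro n hn g
      have h1 : g * n * g⁻¹ = n := by
        obtain ⟨k, rfl⟩ := Subgroup.mem_zpowers_iff.mp hn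
        have h2 : g * (⟨z, hzC⟩ : Subgroup.centralizer ({z} : Set G)) =
            (⟨z, hzC⟩ : Subgroup.centralizer ({z} : Set G)) * g := by
          apply Subtype.ext
          exact (hCz g g.2).symm
        have h3 : Commute g ((⟨z, hzC⟩ : Subgroup.centralizer ({z} : Set G)) ^ k) :=
          (show Commute g (⟨z, hzC⟩ : Subgroup.centralizer ({z} : Set G)) from h2).zpow_right k
        rw [h3.eq, mul_inv_cancel_right]
      rw [h1]; exact hn
    have hp : IsPGroup 2 (Subgroup.zpowers (⟨z, hzC⟩ : Subgroup.centralizer ({z} : Set G))) := by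
      apply IsPGroup.of_card (n := 1)
      rw [Nat.card_zpowers, pow_one, ← hz]
      exact (Subgroup.orderOf_coe (⟨z, hzC⟩ : Subgroup.centralizer ({z} : Set G))).symm
    exact Cfsg.Agent.Lib.Helper4.normal_pGroup_le_sylow T hnorm hp (Subgroup.mem_zpowers _)
  intro hdvd
  obtain ⟨T₀, hT₀⟩ : ∃ T₀ : Subgroup G,
      T₀ = (T : Subgroup (Subgroup.centralizer ({z} : Set G))).map
        (Subgroup.subtype (Subgroup.centralizer ({z} : Set G))) := ⟨_, rfl⟩
  rw [← hT₀] at hdvd
  have hmemT₀ : ∀ x : G, x ∈ T₀ ↔ ∃ hx : x ∈ Subgroup.centralizer ({z} : Set G),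
      (⟨x, hx⟩ : Subgroup.centralizer ({z} : Set G)) ∈
        (T : Subgroup (Subgroup.centralizer ({z} : Set G))) := by
    intro x
    rw [hT₀, Subgroup.mem_map]
    constructor
    · rintro ⟨y, hy, rfl⟩
      exact ⟨y.2, hy⟩
    · rintro ⟨hx, hy⟩
      exact ⟨⟨x, hx⟩, hy, rfl⟩
  have hT₀C : T₀ ≤ Subgroup.centralizer ({z} : Set G) := by
    intro x hx
    exact ((hmemT₀ x).mp hx).1
  have hzT₀ : z ∈ T₀ := (hmemT₀ z).mpr ⟨hzC, hzT⟩
  obtain ⟨n, hn⟩ := T.isPGroup'.exists_card_eq
  have hcardT₀ : Nat.card T₀ = 2 ^ n := by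
    rw [hT₀, Subgroup.card_subtype]; exact hn
  have hdvd2 : 2 ^ (n + 1) ∣ Nat.card G := by
    rw [← Subgroup.card_mul_index T₀, hcardT₀, pow_succ]
    exact Nat.mul_dvd_mul_left _ hdvd
  obtain ⟨K, hKcard, hTK⟩ := Sylow.exists_subgroup_card_pow_succ hdvd2 hcardT₀
  have hidx : (T₀.subgroupOf K).index = 2 := by
    have h1 := Subgroup.card_mul_index (T₀.subgroupOf K)
    have h2 : Nat.card (T₀.subgroupOf K) = 2 ^ n := by
      rw [Nat.card_congr (Subgroup.subgroupOfEquivOfLe hTK).toEquiv, hcardT₀]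
    rw [h2, hKcard, pow_succ] at h1
    exact Nat.eq_of_mul_eq_mul_left (by positivity) h1
  have hnormal := Subgroup.normal_of_index_eq_two hidx
  have hconj : ∀ k ∈ K, ∀ t ∈ T₀, k * t * k⁻¹ ∈ T₀ := by
    intro k hk t ht
    have h1 := hnormal.conj_mem ⟨t, hTK ht⟩ (Subgroup.mem_subgroupOf.mpr ht) ⟨k, hk⟩
    exact Subgroup.mem_subgroupOf.mp h1
  have hKC : K ≤ Subgroup.centralizer ({z} : Set G) := by
    intro k hk
    have h1 : k * z * k⁻¹ ∈ T₀ := hconj k hk z hzT₀
    obtain ⟨hc1, hc2⟩ := (hmemT₀ _).mp h1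
    have h2 := hZ ⟨k * z * k⁻¹, hc1⟩ hc2 (by
      intro t ht
      apply Subtype.ext
      show k * z * k⁻¹ * (t : G) = (t : G) * (k * z * k⁻¹)
      have ht₀ : (t : G) ∈ T₀ := (hmemT₀ _).mpr ⟨t.2, ht⟩
      have h3 : k⁻¹ * (t : G) * k ∈ T₀ := by
        have := hconj k⁻¹ (K.inv_mem hk) (t : G) ht₀
        rwa [inv_inv] at this
      have h4 := hCz _ (hT₀C h3)
      calc k * z * k⁻¹ * (t : G) = k * (z * (k⁻¹ * (t : G) * k)) * k⁻¹ := by group
        _ = k * ((k⁻¹ * (t : G) * k) * z) * k⁻¹ := by rw [h4]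
        _ = (t : G) * (k * z * k⁻¹) := by group)
    rw [Subgroup.mem_centralizer_iff]
    intro h hh
    rw [Set.mem_singleton_iff.mp hh]
    rcases h2 with h2 | h2
    · exfalso
      have h5 : k * z * k⁻¹ = 1 := congrArg Subtype.val h2
      apply hz1
      have h6 : z = k⁻¹ * (k * z * k⁻¹) * k := by group
      rw [h6, h5]; group
    · have h5 : k * z * k⁻¹ = z := h2
      calc z * k = (k * z * k⁻¹) * k := by rw [h5]
        _ = k * z := by group
  have hK2 : IsPGroup 2 (K.subgroupOf (Subgroup.centralizer ({z} : Set G))) := by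
    have : IsPGroup 2 K := IsPGroup.of_card hKcard
    exact this.comap_subtype
  have hTle : (T : Subgroup (Subgroup.centralizer ({z} : Set G))) ≤
      K.subgroupOf (Subgroup.centralizer ({z} : Set G)) := by
    intro t ht
    rw [Subgroup.mem_subgroupOf]
    exact hTK ((hmemT₀ _).mpr ⟨t.2, ht⟩)
  have heq := T.is_maximal' hK2 hTle
  have hcard : Nat.card (K.subgroupOf (Subgroup.centralizer ({z} : Set G))) = 2 ^ (n + 1) := by
    rw [Nat.card_congr (Subgroup.subgroupOfEquivOfLe hKC).toEquiv, hKcard]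
  rw [heq, hn] at hcard
  have : (2 : ℕ) ^ n < 2 ^ (n + 1) := Nat.pow_lt_pow_right (by norm_num) (by omega)
  omega

theorem tv_main {G : Type*} [Group G] [Finite G] (s : SL5)
    (hs : (s : M5) = Matrix.transvection 0 1 1) (z : G) (hz : orderOf z = 2)
    (e : (Subgroup.centralizer ({z} : Set G)) ≃* Subgroup.centralizer ({s} : Set SL5))
    (T : Sylow 2 (Subgroup.centralizer ({z} : Set G))) :
    ¬ 2 ∣ ((T : Subgroup (Subgroup.centralizer ({z} : Set G))).map
      (Subgroup.subtype (Subgroup.centralizer ({z} : Set G)))).index := by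
  apply sylow_of_center_le z hz T
  intro c hcT hcent
  have hz1 : z ≠ 1 := by
    rintro rfl
    rw [orderOf_one] at hz
    exact absurd hz (by norm_num)
  have hzC : z ∈ Subgroup.centralizer ({z} : Set G) := by
    rw [Subgroup.mem_centralizer_iff]
    intro h hh
    rw [Set.mem_singleton_iff.mp hh]
  have hCz : ∀ x ∈ Subgroup.centralizer ({z} : Set G), z * x = x * z := by
    intro x hx
    rw [Subgroup.mem_centralizer_iff] at hx
    exact hx z (Set.mem_singleton z)
  have hPle : tvP ≤ Subgroup.centralizer ({s} : Set SL5) := by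
    intro M hM
    rw [Subgroup.mem_centralizer_iff]
    intro h hh
    rw [Set.mem_singleton_iff.mp hh]
    exact (tvP_comm s hs M hM).symm
  have hsC : s ∈ Subgroup.centralizer ({s} : Set SL5) := by
    rw [Subgroup.mem_centralizer_iff]
    intro h hh
    rw [Set.mem_singleton_iff.mp hh]
  obtain ⟨U, hUdef⟩ : ∃ U : Subgroup (Subgroup.centralizer ({z} : Set G)),
      U = (tvP.subgroupOf (Subgroup.centralizer ({s} : Set SL5))).map e.symm.toMonoidHom :=
    ⟨_, rfl⟩
  have hU : IsPGroup 2 U := by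
    rw [hUdef]
    exact (tvP_isPGroup.comap_subtype).map _
  obtain ⟨g, hg⟩ := exists_conj_le_sylow' T U hU
  have hcentC : ∀ x : Subgroup.centralizer ({z} : Set G), (∀ u ∈ U, x * u = u * x) →
      x = 1 ∨ ((e x : Subgroup.centralizer ({s} : Set SL5)) : SL5) = s := by
    intro x hx
    have h1 : ∀ M ∈ tvP, ((e x : Subgroup.centralizer ({s} : Set SL5)) : SL5) * M
        = M * ((e x : Subgroup.centralizer ({s} : Set SL5)) : SL5) := by
      intro M hM
      have hu : e.symm ⟨M, hPle hM⟩ ∈ U := by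
        rw [hUdef]
        exact Subgroup.mem_map.mpr ⟨⟨M, hPle hM⟩, Subgroup.mem_subgroupOf.mpr hM, rfl⟩
      have h2 := hx _ hu
      have h3 := congrArg e h2
      rw [map_mul, map_mul, e.apply_symm_apply] at h3
      exact congrArg Subtype.val h3
    rcases tv_centralizer ((e x : Subgroup.centralizer ({s} : Set SL5)) : SL5) h1 with h | h
    · left
      apply e.injective
      rw [map_one]
      exact Subtype.ext h
    · right
      exact Subtype.ext (h.trans hs.symm)
  -- e z' = s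
  have hez : ((e ⟨z, hzC⟩ : Subgroup.centralizer ({s} : Set SL5)) : SL5) = s := by
    rcases hcentC ⟨z, hzC⟩ (by
      intro u _
      apply Subtype.ext
      exact hCz u u.2) with h | h
    · exact absurd (congrArg Subtype.val h) hz1
    · exact h
  -- now c
  have hx : ∀ u ∈ U, (g⁻¹ * c * g) * u = u * (g⁻¹ * c * g) := by
    intro u hu
    have h1 := hcent _ (hg u hu)
    calc (g⁻¹ * c * g) * u = g⁻¹ * (c * (g * u * g⁻¹)) * g := by group
      _ = g⁻¹ * ((g * u * g⁻¹) * c) * g := by rw [h1]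
      _ = u * (g⁻¹ * c * g) := by group
  rcases hcentC (g⁻¹ * c * g) hx with h | h
  · left
    have h2 : c = g * (g⁻¹ * c * g) * g⁻¹ := by group
    rw [h2, h]; group
  · right
    have h2 : g⁻¹ * c * g = ⟨z, hzC⟩ := by
      apply e.injective
      apply Subtype.ext
      rw [h, hez]
    have h3 : c = g * (g⁻¹ * c * g) * g⁻¹ := by group
    rw [h3, h2]
    show (g : G) * z * (g : G)⁻¹ = z
    have h4 := hCz g g.2
    calc (g : G) * z * (g : G)⁻¹ = (z * (g : G)) * (g : G)⁻¹ := by rw [h4]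
      _ = z := by group

end Cfsg.Agent.Lib.Helper6
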