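import Mathlib
import Cfsg.Agent.Lib.Helper6.CN13

set_option autoImplicit false

namespace Cfsg.Agent.Lib.Helper6

open scoped Pointwise commutatorElement

universe u

/-- `M_F` is a Hall subgroup of `M` -/
theorem fittingHall_coprime (M : Type u) [Group M] [Finite M] :
    (Nat.card (Cfsg.fittingHall M)).Coprime (Cfsg.fittingHall M).index := by
  apply Nat.coprime_of_dvd
  intro p hp hpH hpI
  have hex : ∃ N : Subgroup M, (N.Normal ∧ Group.IsNilpotent N ∧ (Nat.card N).Coprime N.index) ∧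
      p ∣ Nat.card N := by
    by_contra hcon
    push Not at hcon
    have h1 : (Nat.card (Cfsg.fittingHall M)).Coprime p := by
      unfold Cfsg.fittingHall
      apply Cfsg.Agent.Lib.Lead.sSup_normal_coprime
      intro N hN
      refine ⟨hN.1, ?_⟩
      exact (Nat.Coprime.symm ((Nat.Prime.coprime_iff_not_dvd hp).mpr (hcon N hN)))
    exact (Nat.Prime.coprime_iff_not_dvd hp).mp h1.symm hpH
  obtain ⟨N, hN, hpN⟩ := hex
  have hle : N ≤ Cfsg.fittingHall M := le_sSup hN
  have h2 : p ∣ N.index := hpI.trans (Subgroup.index_dvd_of_le hle)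
  have h3 : Nat.Coprime p p := Nat.Coprime.coprime_dvd_left hpN (Nat.Coprime.coprime_dvd_right h2 hN.2.2)
  rw [Nat.coprime_self] at h3
  exact hp.one_lt.ne' h3

/-- exponent data for `M_F` inside `M` -/
theorem fh_data {G : Type u} [Group G] [Finite G] (M : Subgroup G) :
    ∃ m n : ℕ, m.Coprime n ∧ (∀ h ∈ Cfsg.fittingHallOf M, h ^ m = 1) ∧
      (∀ x ∈ M, x ^ n ∈ Cfsg.fittingHallOf M) := by
  refine ⟨Nat.card (Cfsg.fittingHall M), (Cfsg.fittingHall M).index, fittingHall_coprime M, ?_, ?_⟩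
  · rintro h ⟨h₀, hh₀, rfl⟩
    have h1 := Subgroup.orderOf_dvd_natCard _ hh₀
    have h2 := orderOf_dvd_iff_pow_eq_one.mp h1
    show ((h₀ : G)) ^ _ = 1
    rw [← Subgroup.coe_pow, h2]; rfl
  · intro x hx
    have h1 := Subgroup.pow_index_mem (Cfsg.fittingHall M) (⟨x, hx⟩ : M)
    exact ⟨_, h1, rfl⟩

/-- cardinality of an internal complement decomposition -/
theorem card_of_isComplIn {G : Type u} [Group G] {A B M : Subgroup G} (h : Cfsg.IsComplIn A B M) :
    Nat.card M = Nat.card A * Nat.card B := by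
  obtain ⟨hA, hB, hAB, hM⟩ := h
  rw [← Nat.card_prod]
  symm
  apply Nat.card_congr
  refine Equiv.ofBijective (fun x : A × B => (⟨(x.1 : G) * (x.2 : G), M.mul_mem (hA x.1.2) (hB x.2.2)⟩ : M)) ⟨?_, ?_⟩
  · rintro ⟨⟨a, ha⟩, ⟨b, hb⟩⟩ ⟨⟨a', ha'⟩, ⟨b', hb'⟩⟩ h
    simp only [Subtype.mk.injEq] at h
    have h1 : a'⁻¹ * a = b' * b⁻¹ := by rw [eq_mul_inv_iff_mul_eq, mul_assoc, h, inv_mul_cancel_left]
    have h2 : a'⁻¹ * a ∈ A ⊓ B := ⟨A.mul_mem (A.inv_mem ha') ha, h1 ▸ B.mul_mem hb' (B.inv_mem hb)⟩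
    rw [hAB, Subgroup.mem_bot] at h2
    have h3 : a = a' := by rw [inv_mul_eq_one] at h2; exact h2.symm
    subst h3
    have h4 : b = b' := mul_left_cancel h
    subst h4; rfl
  · rintro ⟨m, hm⟩
    obtain ⟨a, ha, b, hb, rfl⟩ := hM m hm
    exact ⟨(⟨a, ha⟩, ⟨b, hb⟩), rfl⟩

/-- S1387: `F(M) = H C_U(H)` for type P data -/
theorem typeP_fitting {G : Type u} [Group G] [Finite G] (M W₁ U W₂ : Subgroup G)
    (hP : Cfsg.IsTypePWith M W₁ U W₂) :
    Cfsg.fittingOf M = Cfsg.fittingHallOf M ⊔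
      (U ⊓ Subgroup.centralizer (Cfsg.fittingHallOf M : Set G)) := by
  obtain ⟨H, hHdef⟩ : ∃ H : Subgroup G, H = Cfsg.fittingHallOf M := ⟨_, rfl⟩
  obtain ⟨D, hDdef⟩ : ∃ D : Subgroup G, D = ⁅M, M⁆ := ⟨_, rfl⟩
  have hfe := hP.fitting_eq
  have hfl := hP.fitting_le
  have hUc : Cfsg.IsComplIn H U D := by rw [hHdef, hDdef]; exact hP.U_compl
  have hWc : Cfsg.IsComplIn D W₁ M := by rw [hDdef]; exact hP.W₁_compl
  rw [← hHdef] at hfe ⊢
  rw [← hDdef] at hfl
  obtain ⟨hHD, hUD, hHU, hDprod⟩ := hUc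
  have hDM : D ≤ M := hWc.1
  obtain ⟨m, n, hmn, hm, hn⟩ := fh_data M
  rw [← hHdef] at hm hn
  have hUn : ∀ u ∈ U, u ^ n = 1 := by
    intro u hu
    have : u ^ n ∈ H ⊓ U := ⟨hn u (hDM (hUD hu)), U.pow_mem hu n⟩
    rw [hHU] at this; exact Subgroup.mem_bot.mp this
  rw [← hfe]
  apply le_antisymm
  · refine sup_le le_sup_left ?_
    rintro c ⟨hcM, hcC⟩
    have h1 : c ^ n ∈ H ⊔ (U ⊓ Subgroup.centralizer (H : Set G)) :=
      (le_sup_left : H ≤ H ⊔ (U ⊓ Subgroup.centralizer (H : Set G))) (hn c hcM)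
    have h2 : c ^ m ∈ H ⊔ (U ⊓ Subgroup.centralizer (H : Set G)) := by
      have hcm : c ^ m ∈ M ⊓ Subgroup.centralizer (H : Set G) :=
        Subgroup.pow_mem _ (⟨hcM, hcC⟩ : c ∈ M ⊓ Subgroup.centralizer (H : Set G)) m
      have hcF : c ^ m ∈ Cfsg.fittingOf M := by
        rw [← hfe]
        exact (le_sup_right : M ⊓ Subgroup.centralizer (H : Set G) ≤ H ⊔ _) hcm
      have hcD : c ^ m ∈ D := hfl hcF
      obtain ⟨h', hh', u', hu', heq⟩ := hDprod _ hcD
      have hcomm : Commute h' (c ^ m) := hcm.2 h' hh'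
      have hu'eq : u' = h'⁻¹ * c ^ m := by rw [heq, inv_mul_cancel_left]
      have hcmn : (c ^ m) ^ n = 1 := by
        rw [← pow_mul, mul_comm, pow_mul]
        exact hm _ (hn c hcM)
      have hpow : u' ^ n = (h'⁻¹) ^ n * (c ^ m) ^ n := by
        rw [hu'eq]
        exact (Commute.inv_left hcomm).mul_pow n
      rw [hUn u' hu', hcmn, mul_one, inv_pow] at hpow
      have hh'n : h' ^ n = 1 := by
        have := hpow.symm
        rwa [inv_eq_one] at this
      have hh'1 : h' ∈ (⊥ : Subgroup G) :=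
        mem_of_pow_mem_of_coprime hmn (by rw [hm h' hh']; exact Subgroup.one_mem _)
          (by rw [hh'n]; exact Subgroup.one_mem _)
      rw [Subgroup.mem_bot] at hh'1
      rw [hh'1, one_mul] at heq
      refine (le_sup_right : U ⊓ Subgroup.centralizer (H : Set G) ≤ H ⊔ _) ⟨?_, hcm.2⟩
      rw [heq]; exact hu'
    exact mem_of_pow_mem_of_coprime hmn h2 h1
  · refine sup_le le_sup_left ?_
    refine le_trans ?_ (le_sup_right : M ⊓ Subgroup.centralizer (H : Set G) ≤ H ⊔ _)
    exact inf_le_inf_right _ (hUD.trans hDM)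

/-- S1388: `[U,U]` centralizes `H`, and `U` does not unless `U = 1` -/
theorem typeP_derived {G : Type u} [Group G] [Finite G] (M W₁ U W₂ : Subgroup G)
    (hP : Cfsg.IsTypePWith M W₁ U W₂) :
    ⁅U, U⁆ ≤ Subgroup.centralizer (Cfsg.fittingHallOf M : Set G) ∧
      (U ≠ ⊥ → ¬ U ≤ Subgroup.centralizer (Cfsg.fittingHallOf M : Set G)) := by
  have hS := typeP_fitting M W₁ U W₂ hP
  obtain ⟨H, hHdef⟩ : ∃ H : Subgroup G, H = Cfsg.fittingHallOf M := ⟨_, rfl⟩
  obtain ⟨D, hDdef⟩ : ∃ D : Subgroup G, D = ⁅M, M⁆ := ⟨_, rfl⟩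
  have hfe := hP.fitting_eq
  have hfl := hP.fitting_le
  have hd2 := hP.derived_two_le
  have hUc : Cfsg.IsComplIn H U D := by rw [hHdef, hDdef]; exact hP.U_compl
  have hWc : Cfsg.IsComplIn D W₁ M := by rw [hDdef]; exact hP.W₁_compl
  have hW1 := hP.W₁_hall
  have hUnil := hP.U_nilpotent
  rw [← hHdef] at hfe hS hd2 ⊢
  rw [← hDdef] at hfl hd2
  have hcardD := card_of_isComplIn hUc
  have hcardM := card_of_isComplIn hWc
  obtain ⟨hHD, hUD, hHU, hDprod⟩ := hUc
  have hDM : D ≤ M := hWc.1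
  have hUM : U ≤ M := hUD.trans hDM
  obtain ⟨m, n, hmn, hm, hn⟩ := fh_data M
  rw [← hHdef] at hm hn
  have hUn : ∀ u ∈ U, u ^ n = 1 := by
    intro u hu
    have : u ^ n ∈ H ⊓ U := ⟨hn u (hDM (hUD hu)), U.pow_mem hu n⟩
    rw [hHU] at this; exact Subgroup.mem_bot.mp this
  have hone : ∀ h ∈ H, h ^ n = 1 → h = 1 := by
    intro h hh hhn
    have hh'1 : h ∈ (⊥ : Subgroup G) :=
      mem_of_pow_mem_of_coprime hmn (by rw [hm h hh]; exact Subgroup.one_mem _)
        (by rw [hhn]; exact Subgroup.one_mem _)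
    exact Subgroup.mem_bot.mp hh'1
  constructor
  · intro x hx
    have hxU : x ∈ U := by
      have : ⁅U, U⁆ ≤ U := by
        rw [Subgroup.commutator_le]
        intro a ha b hb
        rw [commutatorElement_def]
        exact U.mul_mem (U.mul_mem (U.mul_mem ha hb) (U.inv_mem ha)) (U.inv_mem hb)
      exact this hx
    have hxF : x ∈ H ⊔ (U ⊓ Subgroup.centralizer (H : Set G)) := by
      rw [← hS, ← hfe]
      exact hd2 (Subgroup.commutator_mono hUD hUD hx)
    have hnorm : U ⊓ Subgroup.centralizer (H : Set G) ≤ Subgroup.normalizer (H : Set G) :=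
      inf_le_right.trans (Subgroup.centralizer_le_normalizer _)
    obtain ⟨h, hh, c, hc, heq⟩ := Cfsg.Agent.Lib.Lead.mem_sup_of_le_normalizer hnorm hxF
    have hhU : h ∈ H ⊓ U := by
      refine ⟨hh, ?_⟩
      have : h = x * c⁻¹ := by rw [heq, mul_inv_cancel_right]
      rw [this]; exact U.mul_mem hxU (U.inv_mem hc.1)
    rw [hHU, Subgroup.mem_bot] at hhU
    rw [hhU, one_mul] at heq
    rw [heq]; exact hc.2
  · intro hUne hUC
    apply hUne
    have hUH : U ≤ H := by
      have hmem : U.subgroupOf M ≤ Cfsg.fittingHall M := by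
        apply le_sSup
        refine ⟨?_, ?_, ?_⟩
        · constructor
          rintro ⟨u, huM⟩ hu ⟨g, hg⟩
          rw [Subgroup.mem_subgroupOf] at hu ⊢
          show g * u * g⁻¹ ∈ U
          have hgD : g * u * g⁻¹ ∈ D := by
            have h1 : g * u * g⁻¹ = ⁅g, u⁆ * u := by rw [commutatorElement_def]; group
            rw [h1, hDdef]
            exact Subgroup.mul_mem _ (Subgroup.commutator_mem_commutator hg huM) (hDdef ▸ hUD hu)
          obtain ⟨h, hh, u', hu', heq⟩ := hDprod _ hgD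
          have hcomm : Commute h u' := hUC hu' h hh
          have h1 : (g * u * g⁻¹) ^ n = 1 := by
            rw [conj_pow, hUn u hu]; group
          rw [heq, hcomm.mul_pow, hUn u' hu', mul_one] at h1
          have h2 := hone h hh h1
          rw [h2, one_mul] at heq
          rw [heq]; exact hu'
        · exact Group.nilpotent_of_mulEquiv (Subgroup.subgroupOfEquivOfLe hUM).symm
        · rw [Cfsg.Agent.Lib.Lead.card_subgroupOf_of_le hUM]
          show (Nat.card U).Coprime (U.relIndex M)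
          have hHcard : Nat.card H = Nat.card (Cfsg.fittingHall M) := by
            rw [hHdef]
            exact Subgroup.card_map_of_injective (Subgroup.subtype_injective M)
          have hUpos : 0 < Nat.card U := Nat.card_pos
          have hHpos : 0 < Nat.card H := Nat.card_pos
          have hWpos : 0 < Nat.card W₁ := Nat.card_pos
          have e1 : U.relIndex M = Nat.card H * Nat.card W₁ := by
            have := Cfsg.Agent.Lib.Lead.relIndex_mul_card_of_le hUM
            rw [hcardM, hcardD] at this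
            apply Nat.eq_of_mul_eq_mul_right hUpos
            rw [this]; ring
          have e2 : (Cfsg.fittingHall M).index = Nat.card U * Nat.card W₁ := by
            have := Subgroup.index_mul_card (Cfsg.fittingHall M)
            rw [← hHcard, hcardM, hcardD] at this
            apply Nat.eq_of_mul_eq_mul_right hHpos
            rw [this]; ring
          have e3 : W₁.relIndex M = Nat.card H * Nat.card U := by
            have := Cfsg.Agent.Lib.Lead.relIndex_mul_card_of_le hWc.2.1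
            rw [hcardM, hcardD] at this
            exact Nat.eq_of_mul_eq_mul_right hWpos this
          have c1 := fittingHall_coprime M
          rw [← hHcard, e2] at c1
          rw [e3] at hW1
          rw [e1]
          exact Nat.Coprime.mul_right (Nat.Coprime.coprime_mul_right_right c1).symm
            (Nat.Coprime.coprime_mul_left_right hW1).symm
      intro u hu
      have : (⟨u, hUM hu⟩ : M) ∈ Cfsg.fittingHall M :=
        hmem (by rw [Subgroup.mem_subgroupOf]; exact hu)
      rw [hHdef]; exact ⟨_, this, rfl⟩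
    rw [eq_bot_iff, ← hHU]; exact le_inf hUH le_rfl

end Cfsg.Agent.Lib.Helper6
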